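import Cfsg.Agent.Lib.Helper98.H74Defs

/-!
# Project H74 (S5974, helper98): piece SUM

The orthogonal sum of two typed nondegenerate subspaces is typed, with the product sign.
-/

set_option autoImplicit false

namespace Cfsg.Agent.Lib.Helper98.H74

open Cfsg.Agent.Lib.Helper47 Cfsg.Agent.Lib.Helper98.T73 Module Polynomial

universe u

variable {F : Type u} [Field F] [Fintype F] {V : Type u} [AddCommGroup V] [Module F V]
  [FiniteDimensional F V] {Q : V → F} {B : V → V → F}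

/-- SUM -/
theorem subtyp_sup (hf : QFacts F) (hQ : IsQuad Q B) (X Y : Submodule F V)
    (hXY : ∀ x ∈ X, ∀ y ∈ Y, B x y = 0) (k₁ k₂ : ℕ) (ε₁ ε₂ : ℤ)
    (hX : SubTyp Q B X k₁ ε₁) (hY : SubTyp Q B Y k₂ ε₂) :
    SubTyp Q B (X ⊔ Y) (k₁ + k₂ + 1) (ε₁ * ε₂) := by
  obtain ⟨hXnd, hXdim, hXtyp⟩ := hX
  obtain ⟨hYnd, hYdim, hYtyp⟩ := hY
  have hYX : ∀ y ∈ Y, ∀ x ∈ X, B y x = 0 := fun y hy x hx => by
    rw [sym_comm hQ.form x y]; exact hXY x hx y hy
  have hdisj : X ⊓ Y = ⊥ := by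
    rw [eq_bot_iff]
    intro v hv
    obtain ⟨hvX, hvY⟩ := hv
    have h0 : (⟨v, hvX⟩ : X) = 0 := hXnd ⟨v, hvX⟩ (fun y => hYX v hvY y y.2)
    have h1 : v = 0 := congrArg Subtype.val h0
    rw [Submodule.mem_bot]; exact h1
  have : Finite V := Module.finite_of_finite F
  refine ⟨?_, ?_, ?_⟩
  · intro v hv
    obtain ⟨x, hx, y, hy, hxy⟩ := Submodule.mem_sup.mp v.2
    have hx0 : x = 0 := by
      have h0 : (⟨x, hx⟩ : X) = 0 := hXnd ⟨x, hx⟩ (fun x' => by
        have h := hv ⟨x'.1, Submodule.mem_sup_left x'.2⟩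
        have h' : B (v : V) (x' : V) = 0 := h
        rw [← hxy, hQ.form.add_left, hYX y hy x' x'.2, add_zero] at h'
        exact h')
      exact congrArg Subtype.val h0
    have hy0 : y = 0 := by
      have h0 : (⟨y, hy⟩ : Y) = 0 := hYnd ⟨y, hy⟩ (fun y' => by
        have h := hv ⟨y'.1, Submodule.mem_sup_right y'.2⟩
        have h' : B (v : V) (y' : V) = 0 := h
        rw [← hxy, hQ.form.add_left, hXY x hx y' y'.2, zero_add] at h'
        exact h')
      exact congrArg Subtype.val h0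
    apply Subtype.ext
    rw [← hxy, hx0, hy0, add_zero]; rfl
  · have h := Submodule.finrank_sup_add_finrank_inf_eq X Y
    rw [hdisj, finrank_bot, add_zero, hXdim, hYdim] at h
    rw [h]; ring
  · have hprod := hf.typ_prod (fun x : X => Q (x : V)) (fun y : Y => Q (y : V)) hXtyp hYtyp
    let f : X × Y → ↥(X ⊔ Y) :=
      fun p => ⟨(p.1 : V) + (p.2 : V), Submodule.add_mem_sup p.1.2 p.2.2⟩
    have hfb : Function.Bijective f := by
      constructor
      · rintro ⟨x, y⟩ ⟨x', y'⟩ h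
        have h1 : (x : V) + y = x' + y' := congrArg Subtype.val h
        have h2 : (x : V) - x' = y' - y := by
          rw [sub_eq_sub_iff_add_eq_add, h1, add_comm]
        have h3 : (x : V) - x' ∈ X ⊓ Y :=
          ⟨X.sub_mem x.2 x'.2, by rw [h2]; exact Y.sub_mem y'.2 y.2⟩
        rw [hdisj, Submodule.mem_bot, sub_eq_zero] at h3
        have h4 : (y : V) = y' := by
          rw [h3] at h1; exact add_left_cancel h1
        exact Prod.ext (Subtype.ext h3) (Subtype.ext h4)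
      · intro v
        obtain ⟨x, hx, y, hy, hxy⟩ := Submodule.mem_sup.mp v.2
        exact ⟨(⟨x, hx⟩, ⟨y, hy⟩), Subtype.ext hxy⟩
    exact IsTyp.of_equiv (Equiv.ofBijective f hfb) (fun p => by
      show Q ((p.1 : V) + (p.2 : V)) = Q p.1 + Q p.2
      rw [hQ.polar, hXY _ p.1.2 _ p.2.2, add_zero]) hprod

end Cfsg.Agent.Lib.Helper98.H74
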