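import Cfsg.Agent.Lib.Helper24.FoldRel

set_option autoImplicit false

/-!
The relations between the folded root elements of `D₄` and the root elements of `G₂`.
-/

namespace Cfsg.Agent.Lib.Helper24.Fold

open Cfsg.Lie Matrix Cfsg.Agent.Lib.Helper24 Cfsg.Agent.Lib.Helper24.Gr

set_option maxRecDepth 1000000 in
theorem d4_rel_b_chk : relChk d4Cols chevD4 chevG2 [14] 6 8 = true := by decide +kernel

set_option maxRecDepth 1000000 in
theorem d4_rel_mb_chk : relChk d4Cols chevD4 chevG2 [9] 5 8 = true := by decide +kernel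

set_option maxRecDepth 1000000 in
theorem d4_rel_a_chk : relChk d4Cols chevD4 chevG2 [18, 13, 12] 7 8 = true := by decide +kernel

set_option maxRecDepth 1000000 in
theorem d4_rel_ma_chk : relChk d4Cols chevD4 chevG2 [5, 10, 11] 4 8 = true := by decide +kernel

set_option maxRecDepth 1000000 in
theorem d4_inj_chk : injChk d4Cols chevD4 chevG2 = true := by decide +kernel

set_option maxRecDepth 1000000 in
theorem d4_fold_lt : (∀ r ∈ [14, 9, 18, 13, 12, 5, 10, 11], r < chevD4.nroots) ∧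
    6 < chevG2.nroots ∧ 5 < chevG2.nroots ∧ 7 < chevG2.nroots ∧ 4 < chevG2.nroots ∧
    0 < chevD4.nroots := by decide +kernel

variable {F : Type*} [Field F]

theorem d4_fold_rel_b (t : F) : chevD4.x F 14 t * d4Fold F = d4Fold F * chevG2.x F 6 t :=
  rel_of_chk d4Cols chevD4 chevG2 [14] 6 8 (fun r hr => d4_fold_lt.1 r (by
    simp only [List.mem_cons, List.not_mem_nil, or_false] at hr ⊢
    subst hr
    simp)) d4_fold_lt.2.1 d4_rel_b_chk t

theorem d4_fold_rel_mb (t : F) : chevD4.x F 9 t * d4Fold F = d4Fold F * chevG2.x F 5 t :=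
  rel_of_chk d4Cols chevD4 chevG2 [9] 5 8 (fun r hr => d4_fold_lt.1 r (by
    simp only [List.mem_cons, List.not_mem_nil, or_false] at hr ⊢
    subst hr
    simp)) d4_fold_lt.2.2.1 d4_rel_mb_chk t

theorem d4_fold_rel_a (t : F) :
    chevD4.x F 18 t * (chevD4.x F 13 t * (chevD4.x F 12 t * d4Fold F)) =
      d4Fold F * chevG2.x F 7 t :=
  rel_of_chk d4Cols chevD4 chevG2 [18, 13, 12] 7 8 (fun r hr => d4_fold_lt.1 r (by
    simp only [List.mem_cons, List.not_mem_nil, or_false] at hr ⊢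
    rcases hr with rfl | rfl | rfl <;> simp)) d4_fold_lt.2.2.2.1 d4_rel_a_chk t

theorem d4_fold_rel_ma (t : F) :
    chevD4.x F 5 t * (chevD4.x F 10 t * (chevD4.x F 11 t * d4Fold F)) =
      d4Fold F * chevG2.x F 4 t :=
  rel_of_chk d4Cols chevD4 chevG2 [5, 10, 11] 4 8 (fun r hr => d4_fold_lt.1 r (by
    simp only [List.mem_cons, List.not_mem_nil, or_false] at hr ⊢
    rcases hr with rfl | rfl | rfl <;> simp)) d4_fold_lt.2.2.2.2.1 d4_rel_ma_chk t

theorem d4_fold_inj (M M' : Matrix chevG2.Idx chevG2.Idx F)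
    (h : d4Fold F * M = d4Fold F * M') : M = M' :=
  inj_of_chk d4Cols chevD4 chevG2 d4_fold_lt.2.2.2.2.2 d4_inj_chk M M' h

end Cfsg.Agent.Lib.Helper24.Fold
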