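import Cfsg.Agent.Lib.Helper24.TwD
import Cfsg.Agent.Lib.Helper24.TwD4Inst

set_option autoImplicit false

namespace Cfsg.Agent.Lib.Helper24.Fold

open Cfsg.Lie Matrix Cfsg.Agent.Lib.Helper24
open Cfsg.Agent.Lib.Helper25 (sgn pk8 gPiD4a gEpsD4a wPi wEta wEta_cases negSet uMinus)

/-- A fixed element of the torus lies in the group generated by the folded root elements. -/
theorem pbx_torus_mem {K : Type*} [Field K] (h : GL chevD4.Idx K)
    (hh : h ∈ chevD4.diagonalSubgroup K) (hfix : (d4Sig (RingHom.id K)).sig h = h) :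
    h ∈ twistedD4 K 1 := by
  have hf : ∀ t : K, (RingHom.id K) t = t ^ 1 := fun t => (pow_one t).symm
  have hq3 : ∀ t : K, t ^ (1 ^ 3) = t := fun t => by simp
  obtain ⟨d, hd, hx⟩ := diagonalSubgroup_le_gradedTorus chevD4 chevD4_mem hh
  have key := fun s hs => (d4Sig (RingHom.id K)).sig_torus chevD4_mem h d hd hx hfix s hs
  have k13 : d 13 = d 18 := by
    have := key 18 d4_lt.1
    rwa [d4Sig_pi, d4_pi.1, d4Sig_f] at this
  have k12 : d 12 = d 13 := by
    have := key 13 d4_lt.2.2.1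
    rwa [d4Sig_pi, d4_pi.2.1, d4Sig_f] at this
  have ha : d 18 ≠ 0 := hd.ne_zero 18 d4_lt.1
  have hb : d 14 ≠ 0 := hd.ne_zero 14 d4_lt.2.1
  obtain ⟨y, hyH, hyG, y18, y14⟩ := d4_H_elem 1 (RingHom.id K) hf (d 18 ^ 3 * d 14 ^ 2)
    (d 18 ^ 2 * d 14) (mul_ne_zero (pow_ne_zero _ ha) (pow_ne_zero _ hb)) (pow_one _)
    (mul_ne_zero (pow_ne_zero _ ha) hb)
  obtain ⟨dy, hdy, hy, y13, y12, -⟩ := d4_H_char 1 (RingHom.id K) hf hq3 y hyH hyG
  rw [dEnt_torus chevD4 y dy hy 18 d4_lt.1] at y18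
  rw [dEnt_torus chevD4 y dy hy 14 d4_lt.2.1] at y14
  have e18 : dy 18 = d 18 := by
    rw [y18]
    field_simp
  have e14 : dy 14 = d 14 := by
    rw [y14]
    simp only [one_pow, pow_one]
    field_simp
  have e13 : dy 13 = d 13 := by rw [y13, pow_one, e18, k13]
  have e12 : dy 12 = d 12 := by rw [y12, pow_one, e13, k12]
  have hzH : h⁻¹ * y ∈ chevD4.diagonalSubgroup K :=
    Subgroup.mul_mem _ (Subgroup.inv_mem _ hh) hyH
  obtain ⟨dz, hdz, hz⟩ := diagonalSubgroup_le_gradedTorus chevD4 chevD4_mem hzH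
  have hmul : torus K chevD4 dy = torus K chevD4 (fun s => d s * dz s) := by
    rw [← torus_mul_torus, ← hx, ← hz, ← hy, ← Units.val_mul, mul_inv_cancel_left]
  have hent : ∀ r < chevD4.nroots, dy r = d r * dz r := by
    intro r hr
    have := congrFun (congrFun hmul (Sum.inr ⟨r, hr⟩)) (Sum.inr ⟨r, hr⟩)
    rwa [torus_apply_rv, torus_apply_rv] at this
  have hone : ∀ r < chevD4.nroots, dy r = d r → dz r = 1 := by
    intro r hr e
    have e' := hent r hr
    rw [e] at e'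
    have : d r * 1 = d r * dz r := by rw [mul_one]; exact e'
    exact (mul_left_cancel₀ (hd.ne_zero r hr) this).symm
  have hz1 : h⁻¹ * y = 1 := by
    apply torus_eq_one_of_simple chevD4 chevD4_mem _ dz hdz hz
    intro i hi
    rw [d4_rank] at hi
    interval_cases i
    · rw [d4_simple.1]; exact hone 18 d4_lt.1 e18
    · rw [d4_simple.2.1]; exact hone 14 d4_lt.2.1 e14
    · rw [d4_simple.2.2.1]; exact hone 13 d4_lt.2.2.1 e13
    · rw [d4_simple.2.2.2]; exact hone 12 d4_lt.2.2.2 e12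
  rw [inv_mul_eq_one.1 hz1]
  exact hyG

/-- PB: the fixed points of the triality (no field twist) in `D₄(K)` are the group generated by the
folded root elements. -/
theorem d4_fixed_mem {K : Type*} [Field K] [Fintype K] (T : TwSet K chevD4 chevD4_mem)
    (hS : T.S = d4Sig (RingHom.id K)) (hb : T.blocks = d4Blocks) (hG : T.G1 = twistedD4 K 1)
    (g : GL chevD4.Idx K) (hg : g ∈ chevD4.group K) (hfix : (d4Sig (RingHom.id K)).sig g = g) :
    g ∈ twistedD4 K 1 := by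
  rw [← hS] at hfix
  obtain ⟨u₁, hu₁, m, hm, u, hu, f1, f2, f3, e⟩ := T.fixed_bruhat g hg hfix
  have hu₁G : u₁ ∈ T.G1 := T.hUfix u₁ hu₁ f1
  have hle : uNeg chevD4 m ≤ chevD4.posUnipotent K := by
    unfold uNeg ChevalleyDatum.posUnipotent
    apply Subgroup.closure_mono
    rintro x ⟨r, t, hr, _, hx⟩
    exact ⟨r, t, hr, hx⟩
  have huG : u ∈ T.G1 := T.hUfix u (hle hu) f3
  obtain ⟨Lb, hLb, hh⟩ := T.fixed_mono_word m hm f2
  have hnG : nWordGL chevD4 chevD4_mem Lb.flatten ∈ T.G1 := T.nWordGL_flatten_mem Lb hLb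
  have hhfix : T.S.sig (m * (nWordGL chevD4 chevD4_mem Lb.flatten)⁻¹) =
      m * (nWordGL chevD4 chevD4_mem Lb.flatten)⁻¹ := by
    rw [map_mul, map_inv, f2, T.hG1fix _ hnG]
  rw [hS] at hhfix
  have hhG : m * (nWordGL chevD4 chevD4_mem Lb.flatten)⁻¹ ∈ T.G1 := by
    rw [hG]
    exact pbx_torus_mem _ hh hhfix
  have hmG : m ∈ T.G1 := by
    have := Subgroup.mul_mem _ hhG hnG
    rwa [inv_mul_cancel_right] at this
  rw [← hG, e]
  exact Subgroup.mul_mem _ (Subgroup.mul_mem _ hu₁G hmG) huG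

end Cfsg.Agent.Lib.Helper24.Fold
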