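import Cfsg.Agent.Lib.Helper24.GraphAut
import Cfsg.Agent.Lib.Helper24.TwD4Inst

set_option autoImplicit false

namespace Cfsg.Agent.Lib.Helper24.Fold

open Cfsg.Lie Matrix Cfsg.Agent.Lib.Helper24
open Cfsg.Agent.Lib.Helper25 (sgn pk8 gPiD4a gEpsD4a wPi wEta wEta_cases negSet uMinus)

variable {F : Type*} [Field F]

/-- Two homomorphisms from the Chevalley group agreeing on the fundamental root elements and
their negatives are equal. -/
theorem pcx_hom_eq_of_simple (D : ChevalleyDatum) (hD : D ∈ chevList) {H : Type*} [Group H]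
    (φ ψ : ↥(D.group F) →* H)
    (h : ∀ i < D.rank, ∀ (t : F) (g : ↥(D.group F)),
      (((g : GL D.Idx F) : Matrix D.Idx D.Idx F) = D.x F (D.simple i) t ∨
        ((g : GL D.Idx F) : Matrix D.Idx D.Idx F) = D.x F (D.neg (D.simple i)) t) →
      φ g = ψ g) : φ = ψ := by
  have hle : D.group F ≤ (MonoidHom.eqLocus φ ψ).map (D.group F).subtype := by
    apply group_le_of_simple D hD
    intro i hi
    have key : ∀ r : ℕ, (r = D.simple i ∨ r = D.neg (D.simple i)) →
        D.rootSubgroup F r ≤ (MonoidHom.eqLocus φ ψ).map (D.group F).subtype := by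
      intro r hr
      unfold ChevalleyDatum.rootSubgroup
      rw [Subgroup.closure_le]
      rintro g ⟨t, hg⟩
      have hgG : g ∈ D.group F := by
        have e : g = xGL D hD r t := Units.ext (by rw [hg, xGL_val])
        rw [e]
        exact xGL_mem_group D hD r t
      refine ⟨⟨g, hgG⟩, ?_, rfl⟩
      show φ ⟨g, hgG⟩ = ψ ⟨g, hgG⟩
      apply h i hi t
      rcases hr with rfl | rfl
      · exact Or.inl hg
      · exact Or.inr hg
    exact ⟨key _ (Or.inl rfl), key _ (Or.inr rfl)⟩
  apply MonoidHom.ext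
  intro g
  obtain ⟨g', hg', e⟩ := hle g.2
  have : g' = g := Subtype.ext e
  rw [← this]
  exact hg'

/-- The fixed points of an automorphism `τ` of the Chevalley group that is the restriction of
the endomorphism `σ` of `GL`, or a right inverse of it, are the fixed points of `σ`. -/
theorem pcx_fix_iff (D : ChevalleyDatum) (σ : GL D.Idx F →* GL D.Idx F)
    (τ : MulAut ↥(D.group F))
    (h : (∀ g : ↥(D.group F), σ (g : GL D.Idx F) = ((τ g : ↥(D.group F)) : GL D.Idx F)) ∨
      (∀ g : ↥(D.group F), σ ((τ g : ↥(D.group F)) : GL D.Idx F) = (g : GL D.Idx F)))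
    (g : ↥(D.group F)) : τ g = g ↔ σ (g : GL D.Idx F) = (g : GL D.Idx F) := by
  rcases h with h | h
  · rw [h g]
    exact ⟨fun e => congrArg Subtype.val e, fun e => Subtype.ext e⟩
  · constructor
    · intro e
      have := h g
      rwa [e] at this
    · intro e
      have h1 := h (τ.symm g)
      rw [MulEquiv.apply_symm_apply, e] at h1
      have h2 : τ.symm g = g := Subtype.ext h1.symm
      have h3 := congrArg τ h2
      rwa [MulEquiv.apply_symm_apply, eq_comm] at h3

set_option maxRecDepth 1000000 in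
theorem pcx_d4_perm : ∀ π : Equiv.Perm (Fin chevD4.rank),
    (∀ i j : Fin chevD4.rank, i ≠ j → chevD4.bonds (π i) (π j) = chevD4.bonds i j) →
    (∀ i : Fin chevD4.rank, π (π i) = i) ∨
    (∀ i : Fin chevD4.rank, chevD4.simple (π i) = pk8 gPiD4a (chevD4.simple i) ∧
      chevD4.neg (chevD4.simple (π i)) = pk8 gPiD4a (chevD4.neg (chevD4.simple i))) ∨
    (∀ i : Fin chevD4.rank, pk8 gPiD4a (chevD4.simple (π i)) = chevD4.simple i ∧
      pk8 gPiD4a (chevD4.neg (chevD4.simple (π i))) = chevD4.neg (chevD4.simple i)) := by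
  decide +kernel

set_option maxRecDepth 1000000 in
theorem pcx_d4_eps : ∀ i < chevD4.rank, sgn gEpsD4a (chevD4.simple i) = 1 ∧
    sgn gEpsD4a (chevD4.neg (chevD4.simple i)) = 1 := by decide +kernel

/-- PC: the fixed points of a graph automorphism of order 3 are the fixed points of the standard
triality `σ` of `GL`. -/
theorem d4_tau_fix_iff {F : Type*} [Field F] (τ : MulAut ↥(chevD4.group F))
    (hτ : chevD4.IsGraphAut τ) (hτ3 : orderOf τ = 3) (g : ↥(chevD4.group F)) :
    τ g = g ↔ (d4Sig (RingHom.id F)).sig (g : GL chevD4.Idx F) = (g : GL chevD4.Idx F) := by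
  obtain ⟨π, hπ, hact⟩ := hτ
  have hlong : ∀ s < chevD4.nroots, chevD4.isLong s = false := fun s hs => by
    rw [← longChk_sound _ _ longChk_D4 s hs]
    exact Nat.zero_testBit s
  have hexp : ∀ i j : Fin chevD4.rank, chevD4.graphExp (ringChar F) i j = 1 := by
    intro i j
    unfold ChevalleyDatum.graphExp
    rw [hlong _ (simple_lt chevD4 chevD4_mem j j.isLt)]
    rfl
  have hact1 : ∀ (g : ↥(chevD4.group F)) (i : Fin chevD4.rank) (t : F),
      ((g : GL chevD4.Idx F) : Matrix chevD4.Idx chevD4.Idx F) = chevD4.x F (chevD4.simple i) t →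
      ((τ g : ↥(chevD4.group F)) : GL chevD4.Idx F) =
        xGL chevD4 chevD4_mem (chevD4.simple (π i)) t := by
    intro g i t hg
    apply Units.ext
    rw [(hact g i t).1 hg, hexp, pow_one, xGL_val]
  have hact2 : ∀ (g : ↥(chevD4.group F)) (i : Fin chevD4.rank) (t : F),
      ((g : GL chevD4.Idx F) : Matrix chevD4.Idx chevD4.Idx F) =
        chevD4.x F (chevD4.neg (chevD4.simple i)) t →
      ((τ g : ↥(chevD4.group F)) : GL chevD4.Idx F) =
        xGL chevD4 chevD4_mem (chevD4.neg (chevD4.simple (π i))) t := by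
    intro g i t hg
    apply Units.ext
    rw [(hact g i t).2 hg, hexp, pow_one, xGL_val]
  have hgen : ∀ (g : ↥(chevD4.group F)) (r : ℕ) (t : F),
      ((g : GL chevD4.Idx F) : Matrix chevD4.Idx chevD4.Idx F) = chevD4.x F r t →
      (g : GL chevD4.Idx F) = xGL chevD4 chevD4_mem r t := fun g r t hg =>
    Units.ext (by rw [hg, xGL_val])
  have hsig : ∀ (r : ℕ) (t : F), r < chevD4.nroots → sgn gEpsD4a r = 1 →
      (d4Sig (RingHom.id F)).sig (xGL chevD4 chevD4_mem r t) =
        xGL chevD4 chevD4_mem (pk8 gPiD4a r) t := by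
    intro r t hr he
    rw [SigData.sig_xGL _ chevD4_mem r hr, d4Sig_pi, d4Sig_eps, d4Sig_f, he]
    simp
  have hslt : ∀ i : Fin chevD4.rank, chevD4.simple i < chevD4.nroots := fun i =>
    simple_lt chevD4 chevD4_mem i i.isLt
  have hnlt : ∀ i : Fin chevD4.rank, chevD4.neg (chevD4.simple i) < chevD4.nroots := fun i =>
    (neg_facts chevD4 chevD4_mem _ (hslt i)).1
  rcases pcx_d4_perm π hπ with h1 | h2 | h3
  · -- involution: contradiction with the order
    exfalso
    have e : τ.toMonoidHom.comp τ.toMonoidHom = MonoidHom.id _ := by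
      apply pcx_hom_eq_of_simple chevD4 chevD4_mem
      intro i hi t g hg
      apply Subtype.ext
      show ((τ (τ g) : ↥(chevD4.group F)) : GL chevD4.Idx F) = (g : GL chevD4.Idx F)
      rcases hg with hg | hg
      · have a1 := hact1 g ⟨i, hi⟩ t hg
        have a2 := hact1 (τ g) (π ⟨i, hi⟩) t (by rw [a1, xGL_val])
        rw [a2, h1 ⟨i, hi⟩, hgen g _ t hg]
      · have a1 := hact2 g ⟨i, hi⟩ t hg
        have a2 := hact2 (τ g) (π ⟨i, hi⟩) t (by rw [a1, xGL_val])
        rw [a2, h1 ⟨i, hi⟩, hgen g _ t hg]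
    have e2 : τ ^ 2 = 1 := by
      apply MulEquiv.ext
      intro g
      rw [pow_two]
      exact congrArg (fun f : ↥(chevD4.group F) →* ↥(chevD4.group F) => f g) e
    have := orderOf_dvd_of_pow_eq_one e2
    rw [hτ3] at this
    omega
  · apply pcx_fix_iff chevD4 _ τ (Or.inl ?_)
    have e : (d4Sig (RingHom.id F)).sig.comp (chevD4.group F).subtype =
        (chevD4.group F).subtype.comp τ.toMonoidHom := by
      apply pcx_hom_eq_of_simple chevD4 chevD4_mem
      intro i hi t g hg
      show (d4Sig (RingHom.id F)).sig (g : GL chevD4.Idx F) =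
        ((τ g : ↥(chevD4.group F)) : GL chevD4.Idx F)
      rcases hg with hg | hg
      · rw [hact1 g ⟨i, hi⟩ t hg, hgen g _ t hg, hsig _ t (hslt ⟨i, hi⟩) (pcx_d4_eps i hi).1,
          (h2 ⟨i, hi⟩).1]
      · rw [hact2 g ⟨i, hi⟩ t hg, hgen g _ t hg, hsig _ t (hnlt ⟨i, hi⟩) (pcx_d4_eps i hi).2,
          (h2 ⟨i, hi⟩).2]
    intro g
    exact congrArg (fun f : ↥(chevD4.group F) →* GL chevD4.Idx F => f g) e
  · apply pcx_fix_iff chevD4 _ τ (Or.inr ?_)
    have e : ((d4Sig (RingHom.id F)).sig.comp (chevD4.group F).subtype).comp τ.toMonoidHom =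
        (chevD4.group F).subtype := by
      apply pcx_hom_eq_of_simple chevD4 chevD4_mem
      intro i hi t g hg
      show (d4Sig (RingHom.id F)).sig ((τ g : ↥(chevD4.group F)) : GL chevD4.Idx F) =
        (g : GL chevD4.Idx F)
      rcases hg with hg | hg
      · rw [hact1 g ⟨i, hi⟩ t hg, hsig _ t (hslt (π ⟨i, hi⟩))
          (pcx_d4_eps (π ⟨i, hi⟩) (π ⟨i, hi⟩).isLt).1, (h3 ⟨i, hi⟩).1, hgen g _ t hg]
      · rw [hact2 g ⟨i, hi⟩ t hg, hsig _ t (hnlt (π ⟨i, hi⟩))
          (pcx_d4_eps (π ⟨i, hi⟩) (π ⟨i, hi⟩).isLt).2, (h3 ⟨i, hi⟩).2, hgen g _ t hg]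
    intro g
    exact congrArg (fun f : ↥(chevD4.group F) →* GL chevD4.Idx F => f g) e

end Cfsg.Agent.Lib.Helper24.Fold
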