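import Cfsg.Agent.Lib.Helper24.FoldD4
import Cfsg.Agent.Lib.Helper24.FoldPB
import Cfsg.Agent.Lib.Helper24.FoldPC
import Cfsg.Agent.Lib.Helper60.FoldPF
import Cfsg.Agent.Lib.Helper78.FoldPA
import Cfsg.Agent.Lib.Helper90.FoldPEG

/-!
The fixed points of a triality graph automorphism of `D₄(F)` form a group isomorphic to `G₂(F)`.
-/

set_option autoImplicit false

namespace Cfsg.Agent.Lib.Helper24.Fold

open Cfsg.Lie Matrix Cfsg.Agent.Lib.Helper24
open Cfsg.Agent.Lib.Helper25 (sgn pk8 gPiD4a gEpsD4a wPi wEta wEta_cases negSet uMinus)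


theorem chevG2_mem' : chevG2 ∈ chevList := by simp [chevList]

set_option maxRecDepth 1000000 in
theorem g2_simple_chk : chevG2.rank = 2 ∧ chevG2.simple 0 = 7 ∧ chevG2.simple 1 = 6 ∧
    chevG2.neg 7 = 4 ∧ chevG2.neg 6 = 5 := by decide +kernel

variable {F : Type*} [Field F]

/-- The group generated by the folded root elements of `D₄` is isomorphic to `G₂(F)`. -/
theorem d4_fold_iso : Nonempty (↥(twistedD4 F 1) ≃* ↥(chevG2.group F)) := by
  have hle : twistedD4 F 1 ≤ chevD4.group F := genSubgroup_le_group chevD4 chevD4_mem _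
  refine iso_of_intertwiner (twistedD4 F 1) (chevG2.group F) (d4Fold F) d4_fold_inj
    {g | ∃ w ∈ Cfsg.Lie.d4Words F 1, (g : Matrix chevD4.Idx chevD4.Idx F) = chevD4.wordMat F w} rfl ?_
    {x' | ∃ t : F, (x' : Matrix chevG2.Idx chevG2.Idx F) = chevG2.x F 7 t ∨
      (x' : Matrix chevG2.Idx chevG2.Idx F) = chevG2.x F 6 t ∨
      (x' : Matrix chevG2.Idx chevG2.Idx F) = chevG2.x F 4 t ∨
      (x' : Matrix chevG2.Idx chevG2.Idx F) = chevG2.x F 5 t} ?_ ?_
    (fun x hx h => d4_fold_ker x (hle hx) h)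
  · rintro x ⟨w, hw, hx⟩
    rcases hw with ⟨t, -, r, hr, rfl⟩ | ⟨t, rs, hrs, rfl⟩
    · simp only [List.mem_cons, List.not_mem_nil, or_false] at hr
      rcases hr with rfl | rfl
      · refine ⟨xGL chevG2 chevG2_mem' 6 t, xGL_mem_group _ _ _ _, ?_⟩
        rw [hx, xGL_val]
        simp only [ChevalleyDatum.wordMat, List.map_cons, List.map_nil, List.prod_cons,
          List.prod_nil, mul_one]
        exact d4_fold_rel_b t
      · refine ⟨xGL chevG2 chevG2_mem' 5 t, xGL_mem_group _ _ _ _, ?_⟩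
        rw [hx, xGL_val]
        simp only [ChevalleyDatum.wordMat, List.map_cons, List.map_nil, List.prod_cons,
          List.prod_nil, mul_one]
        exact d4_fold_rel_mb t
    · simp only [List.mem_cons, List.not_mem_nil, or_false] at hrs
      rcases hrs with rfl | rfl
      · refine ⟨xGL chevG2 chevG2_mem' 7 t, xGL_mem_group _ _ _ _, ?_⟩
        rw [hx, xGL_val]
        simp only [ChevalleyDatum.wordMat, List.map_cons, List.map_nil, List.prod_cons,
          List.prod_nil, mul_one, one_pow, pow_one, Matrix.mul_assoc]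
        exact d4_fold_rel_a t
      · refine ⟨xGL chevG2 chevG2_mem' 4 t, xGL_mem_group _ _ _ _, ?_⟩
        rw [hx, xGL_val]
        simp only [ChevalleyDatum.wordMat, List.map_cons, List.map_nil, List.prod_cons,
          List.prod_nil, mul_one, one_pow, pow_one, Matrix.mul_assoc]
        exact d4_fold_rel_ma t
  · apply group_le_of_simple chevG2 chevG2_mem'
    intro i hi
    rw [g2_simple_chk.1] at hi
    have hroot : ∀ r : ℕ, (r = 7 ∨ r = 6 ∨ r = 4 ∨ r = 5) → chevG2.rootSubgroup F r ≤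
        Subgroup.closure {x' : GL chevG2.Idx F | ∃ t : F,
          (x' : Matrix chevG2.Idx chevG2.Idx F) = chevG2.x F 7 t ∨
          (x' : Matrix chevG2.Idx chevG2.Idx F) = chevG2.x F 6 t ∨
          (x' : Matrix chevG2.Idx chevG2.Idx F) = chevG2.x F 4 t ∨
          (x' : Matrix chevG2.Idx chevG2.Idx F) = chevG2.x F 5 t} := by
      intro r hr
      unfold ChevalleyDatum.rootSubgroup
      apply Subgroup.closure_mono
      rintro g ⟨t, hg⟩
      refine ⟨t, ?_⟩
      rcases hr with rfl | rfl | rfl | rfl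
      · exact Or.inl hg
      · exact Or.inr (Or.inl hg)
      · exact Or.inr (Or.inr (Or.inl hg))
      · exact Or.inr (Or.inr (Or.inr hg))
    interval_cases i
    · rw [g2_simple_chk.2.1, g2_simple_chk.2.2.2.1]
      exact ⟨hroot 7 (Or.inl rfl), hroot 4 (Or.inr (Or.inr (Or.inl rfl)))⟩
    · rw [g2_simple_chk.2.2.1, g2_simple_chk.2.2.2.2]
      exact ⟨hroot 6 (Or.inr (Or.inl rfl)), hroot 5 (Or.inr (Or.inr (Or.inr rfl)))⟩
  · rintro x' ⟨t, h | h | h | h⟩
    · refine ⟨wGL chevD4 chevD4_mem [(18, t), (13, t ^ 1), (12, t ^ (1 ^ 2))],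
        (d4_short_mem 1 t).1, ?_⟩
      rw [h, wGL_val]
      simp only [ChevalleyDatum.wordMat, List.map_cons, List.map_nil, List.prod_cons,
        List.prod_nil, mul_one, one_pow, pow_one, Matrix.mul_assoc]
      exact d4_fold_rel_a t
    · refine ⟨wGL chevD4 chevD4_mem [(14, t)], (d4_long_mem 1 t (pow_one t)).1, ?_⟩
      rw [h, wGL_val]
      simp only [ChevalleyDatum.wordMat, List.map_cons, List.map_nil, List.prod_cons,
        List.prod_nil, mul_one]
      exact d4_fold_rel_b t
    · refine ⟨wGL chevD4 chevD4_mem [(5, t), (10, t ^ 1), (11, t ^ (1 ^ 2))],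
        (d4_short_mem 1 t).2, ?_⟩
      rw [h, wGL_val]
      simp only [ChevalleyDatum.wordMat, List.map_cons, List.map_nil, List.prod_cons,
        List.prod_nil, mul_one, one_pow, pow_one, Matrix.mul_assoc]
      exact d4_fold_rel_ma t
    · refine ⟨wGL chevD4 chevD4_mem [(9, t)], (d4_long_mem 1 t (pow_one t)).2, ?_⟩
      rw [h, wGL_val]
      simp only [ChevalleyDatum.wordMat, List.map_cons, List.map_nil, List.prod_cons,
        List.prod_nil, mul_one]
      exact d4_fold_rel_mb t

/-- The fixed points of a graph automorphism of order 3 of `D₄(F)` form a group isomorphic to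
`G₂(F)`. -/
theorem d4_triality_fixed_iso [Fintype F] (τ : MulAut ↥(chevD4.group F))
    (hτ : chevD4.IsGraphAut τ) (hτ3 : orderOf τ = 3) :
    Nonempty (↥(MonoidHom.eqLocus τ.toMonoidHom (MonoidHom.id ↥(chevD4.group F))) ≃*
      ↥(chevG2.group F)) := by
  have hle : twistedD4 F 1 ≤ chevD4.group F := genSubgroup_le_group chevD4 chevD4_mem _
  obtain ⟨T, hS, hb, hG⟩ := exists_d4TwId F
  have heq : MonoidHom.eqLocus τ.toMonoidHom (MonoidHom.id ↥(chevD4.group F)) =
      (twistedD4 F 1).subgroupOf (chevD4.group F) := by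
    ext g
    rw [Subgroup.mem_subgroupOf]
    show τ g = g ↔ _
    rw [d4_tau_fix_iff τ hτ hτ3 g]
    constructor
    · intro h
      exact d4_fixed_mem T hS hb hG _ g.2 h
    · intro h
      exact twistedD4_fixed 1 (RingHom.id F) (fun t => (pow_one t).symm) (fun t => by simp) _ h
  obtain ⟨e⟩ := d4_fold_iso (F := F)
  exact ⟨((MulEquiv.subgroupCongr heq).trans (Subgroup.subgroupOfEquivOfLe hle)).trans e⟩

end Cfsg.Agent.Lib.Helper24.Fold
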