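import Cfsg.Agent.Lib.Helper24.GenSimple
import Cfsg.Agent.Lib.Helper24.CommFAll

set_option autoImplicit false

namespace Cfsg.Agent.Lib.Helper24

open Cfsg.Lie Matrix

variable {F : Type*} [Field F]

/-- If `[x_b(u), x_a(t)] = x_c(k t u)` up to sign with `k` invertible in the field, a subgroup
containing `X_a` and `X_b` contains `X_c`. -/
theorem rootSubgroup_le_of_comm (D : ChevalleyDatum) (hD : D ∈ chevList)
    (M : Subgroup (GL D.Idx F)) (a b c : ℕ) (k : ℤ) (ha : a < D.nroots) (hb : b < D.nroots)
    (hab : b ≠ a) (hneg : b ≠ D.neg a) (hct : D.commTerms a b = [(c, k, 1, 1)])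
    (hk : (k : F) ≠ 0) (hA : D.rootSubgroup F a ≤ M) (hB : D.rootSubgroup F b ≤ M) :
    D.rootSubgroup F c ≤ M := by
  unfold ChevalleyDatum.rootSubgroup
  rw [Subgroup.closure_le]
  rintro g ⟨s, hg⟩
  have hf := comm_formula (F := F) D hD a b ha hb hab hneg (-s / (k : F)) 1
  have hw : D.commWord F a b (-s / (k : F)) 1 = [(c, s)] := by
    unfold ChevalleyDatum.commWord
    rw [hct]
    simp only [List.map_cons, List.map_nil, pow_one, mul_one]
    congr 2
    field_simp
  rw [hw, wordMat_cons, wordMat_nil, Matrix.mul_one] at hf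
  have e : g = (xGL D hD a (-s / (k : F)) * xGL D hD b 1)⁻¹ *
      (xGL D hD b 1 * xGL D hD a (-s / (k : F))) := by
    rw [eq_inv_mul_iff_mul_eq]
    apply Units.ext
    rw [Units.val_mul, Units.val_mul, Units.val_mul, xGL_val, xGL_val, hg]
    exact hf.symm
  have h1 : xGL D hD a (-s / (k : F)) ∈ M :=
    hA (mem_rootSubgroup_of_val D _ _ _ (xGL_val D hD _ _))
  have h2 : xGL D hD b (1 : F) ∈ M :=
    hB (mem_rootSubgroup_of_val D _ _ _ (xGL_val D hD _ _))
  rw [e]
  exact Subgroup.mul_mem _ (Subgroup.inv_mem _ (Subgroup.mul_mem _ h1 h2)) (Subgroup.mul_mem _ h2 h1)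

/-- The commutator data: two short roots whose sum is a long root. -/
structure LongComm (D : ChevalleyDatum) (a b c : ℕ) (k : ℤ) : Prop where
  ha : a < D.nroots
  hb : b < D.nroots
  hc : c < D.nroots
  hab : b ≠ a
  hneg : b ≠ D.neg a
  hct : D.commTerms a b = [(c, k, 1, 1)]
  hla : D.isLong a = false
  hlb : D.isLong b = false
  hlc : D.isLong c = true

set_option maxRecDepth 1000000 in
theorem longComm_G2 : LongComm chevG2 2 3 0 3 := by
  refine ⟨by decide +kernel, by decide +kernel, by decide +kernel, by decide +kernel,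
    by decide +kernel, by decide +kernel, ?_, ?_, ?_⟩
  · rw [← longChk_sound _ _ longChk_G2 2 (by decide +kernel)]; decide +kernel
  · rw [← longChk_sound _ _ longChk_G2 3 (by decide +kernel)]; decide +kernel
  · rw [← longChk_sound _ _ longChk_G2 0 (by decide +kernel)]; decide +kernel

set_option maxRecDepth 1000000 in
theorem longComm_B2 : LongComm chevB2 1 2 0 2 := by
  refine ⟨by decide +kernel, by decide +kernel, by decide +kernel, by decide +kernel,
    by decide +kernel, by decide +kernel, ?_, ?_, ?_⟩
  · rw [← longChk_sound _ _ longChk_B2 1 (by decide +kernel)]; decide +kernel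
  · rw [← longChk_sound _ _ longChk_B2 2 (by decide +kernel)]; decide +kernel
  · rw [← longChk_sound _ _ longChk_B2 0 (by decide +kernel)]; decide +kernel

set_option maxRecDepth 1000000 in
theorem longComm_F4 : LongComm chevF4 3 18 0 2 := by
  refine ⟨by decide +kernel, by decide +kernel, by decide +kernel, by decide +kernel,
    by decide +kernel, by decide +kernel, ?_, ?_, ?_⟩
  · rw [← longChk_sound _ _ longChk_F4 3 (by decide +kernel)]; decide +kernel
  · rw [← longChk_sound _ _ longChk_F4 18 (by decide +kernel)]; decide +kernel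
  · rw [← longChk_sound _ _ longChk_F4 0 (by decide +kernel)]; decide +kernel

/-- In the simply laced types no root is long. -/
theorem isLong_false_of_mask (D : ChevalleyDatum) (h : longChk D 0 = true) (r : ℕ)
    (hr : r < D.nroots) : D.isLong r = false := by
  rw [← longChk_sound D 0 h r hr, Nat.zero_testBit]

/-- If `M` contains the `n_p`, `p` fundamental, and the root subgroup of one short root, and the
structure constant of the commutator of two short roots with a long sum is invertible, then `M`
contains the Chevalley group. -/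
theorem group_le_of_short (D : ChevalleyDatum) (hD : D ∈ chevList) (M : Subgroup (GL D.Idx F))
    (hM : ∀ k < D.rank, nGL D hD (D.simple k) ∈ M) (r : ℕ) (hr : r < D.nroots)
    (hshort : D.isLong r = false) (hX : D.rootSubgroup F r ≤ M)
    (h2 : D = chevB2 ∨ D = chevF4 → (2 : F) ≠ 0) (h3 : D = chevG2 → (3 : F) ≠ 0) :
    D.group F ≤ M := by
  have hS : ∀ s < D.nroots, D.isLong s = false → D.rootSubgroup F s ≤ M := fun s hs hl =>
    rootSubgroup_le_of_same_length D hD M hM r s hr hs (hshort.trans hl.symm) hX
  have key : ∀ (a b c : ℕ) (k : ℤ), LongComm D a b c k → (k : F) ≠ 0 → D.group F ≤ M := by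
    intro a b c k hc hk
    have hXc : D.rootSubgroup F c ≤ M :=
      rootSubgroup_le_of_comm D hD M a b c k hc.ha hc.hb hc.hab hc.hneg hc.hct hk
        (hS a hc.ha hc.hla) (hS b hc.hb hc.hlb)
    apply group_le_of_rootSubgroups
    intro s hs
    cases hl : D.isLong s
    · exact hS s hs hl
    · exact rootSubgroup_le_of_same_length D hD M hM c s hc.hc hs (hc.hlc.trans hl.symm) hXc
  have simply : (∀ s < D.nroots, D.isLong s = false) → D.group F ≤ M := fun h =>
    group_le_of_rootSubgroups D M fun s hs => hS s hs (h s hs)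
  have hD' := hD
  simp only [chevList, List.mem_cons, List.not_mem_nil, or_false] at hD'
  rcases hD' with rfl | rfl | rfl | rfl | rfl | rfl | rfl
  · exact key _ _ _ _ longComm_G2 (by exact_mod_cast h3 rfl)
  · exact key _ _ _ _ longComm_B2 (by exact_mod_cast h2 (Or.inl rfl))
  · exact simply (isLong_false_of_mask _ longChk_D4)
  · exact key _ _ _ _ longComm_F4 (by exact_mod_cast h2 (Or.inr rfl))
  · exact simply (isLong_false_of_mask _ longChk_E6)
  · exact simply (isLong_false_of_mask _ longChk_E7)
  · exact simply (isLong_false_of_mask _ longChk_E8)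

end Cfsg.Agent.Lib.Helper24
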