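import Cfsg.Agent.Lib.Helper24.GrEntry2
import Cfsg.Agent.S1056
import Cfsg.Agent.S1058

set_option autoImplicit false

/-! The exceptional graph automorphism of `B₂` in characteristic 2 (including the field with two
elements, where the group is the symmetric group on six letters). -/

namespace Cfsg.Agent.Lib.Helper24.Gr

open Cfsg.Lie Matrix Cfsg.Agent.Lib.Helper24
open scoped commutatorElement

set_option maxRecDepth 100000 in
theorem grChk2_B2 : grChk2 chevB2 2 [0, 3, 4, 7, 8] [1, 2, 5, 6, 9] [1, 0, 3, 2, 5, 4, 7, 6]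
    [1, 2, 5, 6] (0, 5, 0, 4) (0, 5, 0, 3) = true := by
  decide +kernel

/-- In a group isomorphic to the symmetric group on six letters every nontrivial normal subgroup
contains the commutator subgroup. -/
theorem comm_le_of_perm {G : Type*} [Group G] (e : G ≃* Equiv.Perm (Fin 6)) (N : Subgroup G)
    (hn : N.Normal) (hne : N ≠ ⊥) : commutator G ≤ N := by
  have h5 : 5 ≤ Nat.card (Fin 6) := by simp
  have : (N.map e.toMonoidHom).Normal := hn.map e.toMonoidHom e.surjective
  have hnt : Nontrivial ↥(N.map e.toMonoidHom) := by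
    rw [Subgroup.nontrivial_iff_ne_bot]
    intro h
    apply hne
    rwa [Subgroup.map_eq_bot_iff_of_injective _ e.injective] at h
  have hA := Equiv.Perm.alternatingGroup_le_of_normal h5 hnt
  rw [← alternatingGroup.commutator_perm_eq h5] at hA
  rw [commutator_def, Subgroup.commutator_le]
  intro x _ y _
  have h1 : e ⁅x, y⁆ ∈ N.map e.toMonoidHom := by
    apply hA
    rw [map_commutatorElement, commutator_def]
    exact Subgroup.commutator_mem_commutator (Subgroup.mem_top _) (Subgroup.mem_top _)
  obtain ⟨n, hn', hne'⟩ := h1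
  have h2 : n = ⁅x, y⁆ := e.injective hne'
  rwa [h2] at hn'

theorem exists_fintype_two (F : Type*) [Field F] (h : ∀ a : F, a = 0 ∨ a = 1) :
    ∃ (inst : Fintype F), @Fintype.card F inst = 2 := by
  classical
  have : Finite F := Finite.of_injective (fun a : F => decide (a = 0)) (by
    intro a b hab
    simp only [decide_eq_decide] at hab
    rcases h a with rfl | rfl <;> rcases h b with rfl | rfl <;> simp_all)
  refine ⟨Fintype.ofFinite F, ?_⟩
  rw [← @Nat.card_eq_fintype_card F (Fintype.ofFinite F), Nat.card_eq_two_iff]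
  refine ⟨0, 1, zero_ne_one, ?_⟩
  ext a
  rcases h a with rfl | rfl <;> simp

/-- Every nontrivial normal subgroup of `B₂(F)` contains the commutator subgroup. -/
theorem comm_le_B2 (F : Type*) [Field F] (N : Subgroup ↥(chevB2.group F)) (hn : N.Normal)
    (hne : N ≠ ⊥) : commutator ↥(chevB2.group F) ≤ N := by
  by_cases hF : ∃ a : F, a ≠ 0 ∧ a ≠ 1
  · have := (Cfsg.Agent.S1056.result hF).1
    rcases hn.eq_bot_or_eq_top with h | h
    · exact absurd h hne
    · rw [h]
      exact le_top
  · have hF' : ∀ a : F, a = 0 ∨ a = 1 := by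
      intro a
      by_contra hc
      exact hF ⟨a, fun h0 => hc (Or.inl h0), fun h1 => hc (Or.inr h1)⟩
    obtain ⟨inst, hcard⟩ := exists_fintype_two F hF'
    obtain ⟨e⟩ := @Cfsg.Agent.S1058.result F _ inst hcard
    exact comm_le_of_perm e N hn hne

/-- The graph automorphism of `B₂(F)`, `F` perfect of characteristic 2: `x_r(t) ↦ x_{ρ r}(t^λ)` for
every root `r`, with `λ = 2` for `r` short and `λ = 1` for `r` long. -/
theorem graph_aut_B2 {F : Type*} [Field F] [CharP F 2] (hperf : ∀ x : F, ∃ y : F, y ^ 2 = x) :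
    ∃ α : ↥(chevB2.group F) ≃* ↥(chevB2.group F), ∀ (g : ↥(chevB2.group F)) (r : ℕ) (t : F),
      r < chevB2.nroots →
      ((g : GL chevB2.Idx F) : Matrix chevB2.Idx chevB2.Idx F) = chevB2.x F r t →
      ((α g : GL chevB2.Idx F) : Matrix chevB2.Idx chevB2.Idx F) =
        chevB2.x F (([1, 0, 3, 2, 5, 4, 7, 6] : List ℕ).getD r 0)
          (t ^ (if ([1, 2, 5, 6] : List ℕ).contains r then 2 else 1)) := by
  have hD : chevB2 ∈ chevList := by simp [chevList]
  exact graph_aut_of_chk2 chevB2 hD 2 hperf (comm_le_B2 F) _ _ _ _ _ _ grChk2_B2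

end Cfsg.Agent.Lib.Helper24.Gr
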