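import Cfsg.Agent.Lib.Helper24.GrEng

set_option autoImplicit false
set_option linter.unusedSectionVars false

/-!
A variant of the graph-automorphism engine for groups that need not be simple: it is enough that
every nontrivial normal subgroup contains the commutator subgroup, and that both blocks are
non-abelian.
-/

namespace Cfsg.Agent.Lib.Helper24.Gr

open Matrix
open scoped commutatorElement

variable {ι F : Type*} [Fintype ι] [DecidableEq ι] [Field F] {m : ℕ} {eI eQ : Fin m → ι}

theorem inj_of_comm {G M : Type*} [Group G] [Monoid M] (f : G →* M)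
    (hN : ∀ N : Subgroup G, N.Normal → N ≠ ⊥ → commutator G ≤ N) (x y : G)
    (hxy : f x * f y ≠ f y * f x) : Function.Injective f.toHomUnits := by
  rw [← MonoidHom.ker_eq_bot_iff]
  by_contra h
  have h1 := hN _ (MonoidHom.normal_ker f.toHomUnits) h
  have h2 : ⁅x, y⁆ ∈ f.toHomUnits.ker := by
    apply h1
    rw [commutator_def]
    exact Subgroup.commutator_mem_commutator (Subgroup.mem_top x) (Subgroup.mem_top y)
  rw [MonoidHom.mem_ker] at h2
  have h3 := congrArg Units.val h2
  rw [MonoidHom.coe_toHomUnits, Units.val_one] at h3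
  apply hxy
  have h4 : x * y = ⁅x, y⁆ * (y * x) := by
    rw [commutatorElement_def]
    group
  rw [← map_mul, h4, map_mul, h3, one_mul, map_mul]

/-- The engine with the faithfulness of the two blocks as hypotheses. -/
theorem engineCore (hs : Split eI eQ) (G : Subgroup (GL ι F)) (hG : G ≤ triSub hs)
    (hiI : Function.Injective (rhoI hs G hG).toHomUnits)
    (hiQ : Function.Injective (rhoQ hs G hG).toHomUnits)
    {R : Type*} (xg : R → F → GL ι F) (hgen : G = Subgroup.closure {g | ∃ r t, g = xg r t})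
    (ρ : R → R) (lam : R → ℕ) (hρ : Function.Surjective ρ)
    (hlam : ∀ r (u : F), ∃ t, t ^ lam r = u)
    (hrel : ∀ r t, (xg r t : Matrix ι ι F).submatrix eQ eQ =
      (xg (ρ r) (t ^ lam r) : Matrix ι ι F).submatrix eI eI) :
    ∃ α : G ≃* G, ∀ g g' : G, ((g : GL ι F) : Matrix ι ι F).submatrix eQ eQ =
      ((g' : GL ι F) : Matrix ι ι F).submatrix eI eI → α g = g' := by
  subst hgen
  have hx : ∀ r t, xg r t ∈ Subgroup.closure {g | ∃ r t, g = xg r t} :=
    fun r t => Subgroup.subset_closure ⟨r, t, rfl⟩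
  have hrange : (rhoQ hs _ hG).toHomUnits.range = (rhoI hs _ hG).toHomUnits.range := by
    apply le_antisymm
    · rintro _ ⟨g, rfl⟩
      obtain ⟨g, hg⟩ := g
      induction hg using Subgroup.closure_induction with
      | mem x hx' =>
        obtain ⟨r, t, rfl⟩ := hx'
        refine ⟨⟨xg (ρ r) (t ^ lam r), hx _ _⟩, ?_⟩
        apply Units.ext
        rw [MonoidHom.coe_toHomUnits, MonoidHom.coe_toHomUnits]
        exact (hrel r t).symm
      | one =>
        have : (⟨1, Subgroup.one_mem _⟩ : Subgroup.closure {g | ∃ r t, g = xg r t}) = 1 := rfl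
        rw [this, map_one]
        exact Subgroup.one_mem _
      | mul x y hx' hy' ihx ihy =>
        have : (⟨x * y, Subgroup.mul_mem _ hx' hy'⟩ : Subgroup.closure {g | ∃ r t, g = xg r t}) =
            ⟨x, hx'⟩ * ⟨y, hy'⟩ := rfl
        rw [this, map_mul]
        exact Subgroup.mul_mem _ ihx ihy
      | inv x hx' ihx =>
        have : (⟨x⁻¹, Subgroup.inv_mem _ hx'⟩ : Subgroup.closure {g | ∃ r t, g = xg r t}) =
            (⟨x, hx'⟩)⁻¹ := rfl
        rw [this, map_inv]
        exact Subgroup.inv_mem _ ihx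
    · rintro _ ⟨g, rfl⟩
      obtain ⟨g, hg⟩ := g
      induction hg using Subgroup.closure_induction with
      | mem x hx' =>
        obtain ⟨s, u, rfl⟩ := hx'
        obtain ⟨r, rfl⟩ := hρ s
        obtain ⟨t, rfl⟩ := hlam r u
        refine ⟨⟨xg r t, hx _ _⟩, ?_⟩
        apply Units.ext
        rw [MonoidHom.coe_toHomUnits, MonoidHom.coe_toHomUnits]
        exact hrel r t
      | one =>
        have : (⟨1, Subgroup.one_mem _⟩ : Subgroup.closure {g | ∃ r t, g = xg r t}) = 1 := rfl
        rw [this, map_one]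
        exact Subgroup.one_mem _
      | mul x y hx' hy' ihx ihy =>
        have : (⟨x * y, Subgroup.mul_mem _ hx' hy'⟩ : Subgroup.closure {g | ∃ r t, g = xg r t}) =
            ⟨x, hx'⟩ * ⟨y, hy'⟩ := rfl
        rw [this, map_mul]
        exact Subgroup.mul_mem _ ihx ihy
      | inv x hx' ihx =>
        have : (⟨x⁻¹, Subgroup.inv_mem _ hx'⟩ : Subgroup.closure {g | ∃ r t, g = xg r t}) =
            (⟨x, hx'⟩)⁻¹ := rfl
        rw [this, map_inv]
        exact Subgroup.inv_mem _ ihx
  obtain ⟨α, hα⟩ := exists_equiv_of_range_eq _ _ hiQ hiI hrange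
  refine ⟨α, ?_⟩
  intro g g' hgg
  apply hiI
  rw [hα g]
  apply Units.ext
  rw [MonoidHom.coe_toHomUnits, MonoidHom.coe_toHomUnits]
  exact hgg

/-- The engine for groups whose nontrivial normal subgroups contain the commutator subgroup. -/
theorem engine2 (hs : Split eI eQ) (G : Subgroup (GL ι F))
    (hN : ∀ N : Subgroup G, N.Normal → N ≠ ⊥ → commutator G ≤ N)
    {R : Type*} (xg : R → F → GL ι F) (hgen : G = Subgroup.closure {g | ∃ r t, g = xg r t})
    (ρ : R → R) (lam : R → ℕ) (hρ : Function.Surjective ρ)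
    (hlam : ∀ r (u : F), ∃ t, t ^ lam r = u)
    (htri : ∀ r t, Tri eI eQ (xg r t : Matrix ι ι F) ∧
      Tri eI eQ (((xg r t)⁻¹ : GL ι F) : Matrix ι ι F))
    (hrel : ∀ r t, (xg r t : Matrix ι ι F).submatrix eQ eQ =
      (xg (ρ r) (t ^ lam r) : Matrix ι ι F).submatrix eI eI)
    (xI yI xQ yQ : G)
    (hwI : ((xI : GL ι F) : Matrix ι ι F).submatrix eI eI *
        ((yI : GL ι F) : Matrix ι ι F).submatrix eI eI ≠
      ((yI : GL ι F) : Matrix ι ι F).submatrix eI eI *
        ((xI : GL ι F) : Matrix ι ι F).submatrix eI eI)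
    (hwQ : ((xQ : GL ι F) : Matrix ι ι F).submatrix eQ eQ *
        ((yQ : GL ι F) : Matrix ι ι F).submatrix eQ eQ ≠
      ((yQ : GL ι F) : Matrix ι ι F).submatrix eQ eQ *
        ((xQ : GL ι F) : Matrix ι ι F).submatrix eQ eQ) :
    ∃ α : G ≃* G, ∀ g g' : G, ((g : GL ι F) : Matrix ι ι F).submatrix eQ eQ =
      ((g' : GL ι F) : Matrix ι ι F).submatrix eI eI → α g = g' := by
  have hG : G ≤ triSub hs := by
    rw [hgen, Subgroup.closure_le]
    rintro g ⟨r, t, rfl⟩
    exact htri r t
  exact engineCore hs G hG (inj_of_comm (rhoI hs G hG) hN xI yI hwI)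
    (inj_of_comm (rhoQ hs G hG) hN xQ yQ hwQ) xg hgen ρ lam hρ hlam hrel

end Cfsg.Agent.Lib.Helper24.Gr
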