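import Cfsg.Agent.Lib.Helper24.GrEng2
import Cfsg.Agent.Lib.Helper24.GrEntry

set_option autoImplicit false
set_option linter.unusedSectionVars false

/-!
The graph-automorphism checks for groups whose nontrivial normal subgroups contain the commutator
subgroup (instead of simple groups): the witnesses are pairs of root elements with non-commuting
blocks.
-/

namespace Cfsg.Agent.Lib.Helper24.Gr

open Cfsg.Lie Matrix Cfsg.Agent.Lib.Helper24

variable {F : Type*} [Field F]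

/-- The entry of `x_r(1)` as an integer. -/
def coefS (D : ChevalleyDatum) (r a b : ℕ) : ℤ := ((entryC D r a b).map Prod.snd).sum

theorem pev_one (l : List (ℕ × ℤ)) : pev F l 1 = (((l.map Prod.snd).sum : ℤ) : F) := by
  induction l with
  | nil => simp [pev]
  | cons a l ih =>
    have h : pev F (a :: l) 1 = ((a.2 : ℤ) : F) + pev F l 1 := by simp [pev]
    rw [h, ih]
    simp

theorem x_one_entry (D : ChevalleyDatum) (h0 : 0 < D.nroots) (c : List ℕ) (m : ℕ)
    (hc : ∀ i : Fin m, grCode D (eOf D h0 c m i) = c.getD i.val 0) (r : ℕ) (hr : r < D.nroots)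
    (i j : Fin m) :
    D.x F r 1 (eOf D h0 c m i) (eOf D h0 c m j) =
      ((coefS D r (c.getD i.val 0) (c.getD j.val 0) : ℤ) : F) := by
  rw [x_eq_xMat D r hr, xMat_entry, hc, hc, pev_one]
  rfl

/-- The blocks of `x_r(1)` and `x_s(1)` do not commute modulo `p`: `w = (r, s, i, j)`. -/
def commChk (D : ChevalleyDatum) (p : ℕ) (c : List ℕ) (m : ℕ) (w : ℕ × ℕ × ℕ × ℕ) : Bool :=
  decide (w.1 < D.nroots) && decide (w.2.1 < D.nroots) && decide (w.2.2.1 < m) &&
    decide (w.2.2.2 < m) &&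
    decide ((∑ k ∈ Finset.range m,
      (coefS D w.1 (c.getD w.2.2.1 0) (c.getD k 0) * coefS D w.2.1 (c.getD k 0) (c.getD w.2.2.2 0) -
       coefS D w.2.1 (c.getD w.2.2.1 0) (c.getD k 0) * coefS D w.1 (c.getD k 0) (c.getD w.2.2.2 0)))
        % (p : ℤ) ≠ 0)

theorem comm_of_chk (D : ChevalleyDatum) (h0 : 0 < D.nroots) (p : ℕ) [CharP F p] (c : List ℕ)
    (m : ℕ) (hc : ∀ i : Fin m, grCode D (eOf D h0 c m i) = c.getD i.val 0) (w : ℕ × ℕ × ℕ × ℕ)
    (h : commChk D p c m w = true) :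
    (D.x F w.1 1).submatrix (eOf D h0 c m) (eOf D h0 c m) *
        (D.x F w.2.1 1).submatrix (eOf D h0 c m) (eOf D h0 c m) ≠
      (D.x F w.2.1 1).submatrix (eOf D h0 c m) (eOf D h0 c m) *
        (D.x F w.1 1).submatrix (eOf D h0 c m) (eOf D h0 c m) := by
  unfold commChk at h
  simp only [Bool.and_eq_true, decide_eq_true_eq] at h
  obtain ⟨⟨⟨⟨h1, h2⟩, h3⟩, h4⟩, h5⟩ := h
  intro hh
  apply h5
  have h6 := congrFun (congrFun hh ⟨w.2.2.1, h3⟩) ⟨w.2.2.2, h4⟩
  rw [Matrix.mul_apply, Matrix.mul_apply] at h6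
  simp only [Matrix.submatrix_apply, x_one_entry D h0 c m hc _ h1,
    x_one_entry D h0 c m hc _ h2] at h6
  have h7 : (((∑ k ∈ Finset.range m,
      (coefS D w.1 (c.getD w.2.2.1 0) (c.getD k 0) * coefS D w.2.1 (c.getD k 0) (c.getD w.2.2.2 0) -
       coefS D w.2.1 (c.getD w.2.2.1 0) (c.getD k 0) * coefS D w.1 (c.getD k 0) (c.getD w.2.2.2 0)) :
        ℤ)) : F) = 0 := by
    push_cast
    rw [Finset.sum_sub_distrib, Finset.sum_range, Finset.sum_range]
    exact sub_eq_zero.mpr h6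
  rw [CharP.intCast_eq_zero_iff F p] at h7
  exact Int.emod_eq_zero_of_dvd h7

/-- All the finite checks, with commutator witnesses. -/
def grChk2 (D : ChevalleyDatum) (p : ℕ) (cI cQ rho sh : List ℕ) (wI wQ : ℕ × ℕ × ℕ × ℕ) : Bool :=
  decide (0 < D.nroots) && splitChk D cI cQ && triChk D p cI cQ && relChk D p cI cQ rho sh &&
    rhoChk D rho && commChk D p cI cI.length wI && commChk D p cQ cI.length wQ

/-- The exceptional graph automorphism from the finite checks, for a group whose nontrivial normal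
subgroups contain the commutator subgroup. -/
theorem graph_aut_of_chk2 (D : ChevalleyDatum) (hD : D ∈ chevList) (p : ℕ) [CharP F p]
    (hperf : ∀ x : F, ∃ y : F, y ^ p = x)
    (hN : ∀ N : Subgroup ↥(D.group F), N.Normal → N ≠ ⊥ → commutator ↥(D.group F) ≤ N)
    (cI cQ rho sh : List ℕ) (wI wQ : ℕ × ℕ × ℕ × ℕ)
    (hchk : grChk2 D p cI cQ rho sh wI wQ = true) :
    ∃ α : ↥(D.group F) ≃* ↥(D.group F), ∀ (g : ↥(D.group F)) (r : ℕ) (t : F), r < D.nroots →
      ((g : GL D.Idx F) : Matrix D.Idx D.Idx F) = D.x F r t →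
      ((α g : GL D.Idx F) : Matrix D.Idx D.Idx F) =
        D.x F (rho.getD r 0) (t ^ (if sh.contains r then p else 1)) := by
  unfold grChk2 at hchk
  simp only [Bool.and_eq_true, decide_eq_true_eq] at hchk
  obtain ⟨⟨⟨⟨⟨⟨h0, hsp⟩, htri⟩, hrel⟩, hrho⟩, hwI⟩, hwQ⟩ := hchk
  have hs := split_of_chk D h0 cI cQ hsp
  have hlam : ∀ r (u : F), ∃ t, t ^ lamF p sh r = u := by
    intro r u
    unfold lamF
    by_cases hc : sh.contains r = true
    · rw [if_pos hc]
      exact hperf u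
    · rw [if_neg hc]
      exact ⟨u, pow_one u⟩
  obtain ⟨α, hα⟩ := engine2 hs (D.group F) hN (xGL D hD) (group_eq_closure_xGL D hD)
    (rhoF D rho) (lamF p sh) (rhoF_surj D rho hrho) hlam
    (fun r t => ⟨tri_of_chk D h0 p cI cQ hsp htri r t, tri_of_chk D h0 p cI cQ hsp htri r (-t)⟩)
    (fun r t => rel_of_chk D h0 p cI cQ rho sh hsp hrho hrel r t)
    ⟨xGL D hD wI.1 1, xGL_mem_group D hD _ _⟩ ⟨xGL D hD wI.2.1 1, xGL_mem_group D hD _ _⟩
    ⟨xGL D hD wQ.1 1, xGL_mem_group D hD _ _⟩ ⟨xGL D hD wQ.2.1 1, xGL_mem_group D hD _ _⟩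
    (comm_of_chk D h0 p cI cI.length (grCode_eOfI D h0 cI cQ hsp) wI hwI)
    (comm_of_chk D h0 p cQ cI.length (grCode_eOfQ D h0 cI cQ hsp) wQ hwQ)
  refine ⟨α, ?_⟩
  intro g r t hr hg
  have key := hα g ⟨xGL D hD (rhoF D rho r) (t ^ lamF p sh r), xGL_mem_group D hD _ _⟩ (by
    rw [hg]
    exact rel_of_chk D h0 p cI cQ rho sh hsp hrho hrel r t)
  rw [key]
  show D.x F (rhoF D rho r) (t ^ lamF p sh r) = _
  unfold rhoF lamF
  rw [if_pos hr]

end Cfsg.Agent.Lib.Helper24.Gr
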