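import Cfsg.Agent.Lib.Helper24.GrEntry
import Cfsg.Agent.S1054

set_option autoImplicit false

/-! The exceptional graph automorphism of `F₄` in characteristic 2. -/

namespace Cfsg.Agent.Lib.Helper24.Gr

open Cfsg.Lie Matrix Cfsg.Agent.Lib.Helper24

/-- The root permutation of the graph automorphism of `F₄`. -/
def rhoF4 : List ℕ := [3, 7, 8, 0, 9, 11, 18, 1, 2, 4, 15, 5, 16, 21, 23, 10, 12, 19, 6, 17, 22, 13,
  20, 14, 33, 27, 34, 25, 30, 41, 28, 35, 37, 24, 26, 31, 42, 32, 43, 45, 46, 29, 36, 38, 47, 39,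
  40, 44]

/-- The short roots of `F₄`. -/
def shF4 : List ℕ := [3, 7, 8, 9, 10, 11, 12, 13, 14, 18, 19, 20, 27, 28, 29, 33, 34, 35, 36, 37,
  38, 39, 40, 44]

set_option maxRecDepth 100000 in
theorem grChk_F4 : grChk chevF4 2
    [1, 0, 7, 11, 12, 13, 15, 22, 14, 16, 23, 17, 24, 18, 37, 31, 38, 32, 39, 41, 33, 40, 42, 43,
      44, 48]
    [2, 3, 4, 5, 6, 8, 9, 10, 19, 20, 21, 25, 26, 27, 28, 29, 30, 34, 35, 36, 45, 46, 47, 49, 50,
      51] rhoF4 shF4 (44, 25, 2) (47, 25, 2) = true := by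
  decide +kernel

/-- The graph automorphism of `F₄(F)`, `F` perfect of characteristic 2: `x_r(t) ↦ x_{ρ r}(t^λ)` for
every root `r`, with `λ = 2` for `r` short and `λ = 1` for `r` long. -/
theorem graph_aut_F4 {F : Type*} [Field F] [CharP F 2] (hperf : ∀ x : F, ∃ y : F, y ^ 2 = x) :
    ∃ α : ↥(chevF4.group F) ≃* ↥(chevF4.group F), ∀ (g : ↥(chevF4.group F)) (r : ℕ) (t : F),
      r < chevF4.nroots →
      ((g : GL chevF4.Idx F) : Matrix chevF4.Idx chevF4.Idx F) = chevF4.x F r t →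
      ((α g : GL chevF4.Idx F) : Matrix chevF4.Idx chevF4.Idx F) =
        chevF4.x F (rhoF4.getD r 0) (t ^ (if shF4.contains r then 2 else 1)) := by
  have hD : chevF4 ∈ chevList := by simp [chevList]
  have hD5 : chevF4 ∈ [chevD4, chevF4, chevE6, chevE7, chevE8] := by simp
  exact graph_aut_of_chk chevF4 hD 2 hperf (Cfsg.Agent.S1054.result chevF4 hD5).1 _ _ _ _ _ _
    grChk_F4

end Cfsg.Agent.Lib.Helper24.Gr
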