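import Cfsg.Agent.S1069
import Cfsg.Agent.Lib.Lead.LTBDefs

/-!
# The weak facts on the small Ree groups needed for `S2363`, from the order formula `S1069`
-/

set_option autoImplicit false

namespace Cfsg.Agent.Lib.Helper24

/-- `q³ ∣ |²G₂(q)|` and `|²G₂(q)| < q⁸`. -/
theorem ree_fact24 : Cfsg.Agent.Lib.Lead.LTB.ReeFact := by
  intro K _ _ m _ hK
  have h := Cfsg.Agent.S1069.result hK
  rw [h]
  have hq : 3 ≤ 3 ^ (2 * m + 1) := by
    calc 3 = 3 ^ 1 := by norm_num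
      _ ≤ 3 ^ (2 * m + 1) := Nat.pow_le_pow_right (by norm_num) (by omega)
  generalize 3 ^ (2 * m + 1) = q at hq
  refine ⟨Dvd.intro _ (by rw [mul_assoc]), ?_⟩
  have h1 : q - 1 < q := by omega
  have h2 : q ^ 3 + 1 ≤ q ^ 4 := by
    have : q ^ 4 = q * q ^ 3 := by ring
    have h3 : 1 ≤ q ^ 3 := Nat.one_le_pow _ _ (by omega)
    nlinarith
  have h4 : 0 < q ^ 3 := by positivity
  calc q ^ 3 * (q - 1) * (q ^ 3 + 1) ≤ q ^ 3 * (q - 1) * q ^ 4 := Nat.mul_le_mul_left _ h2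
    _ < q ^ 3 * q * q ^ 4 := by
        apply Nat.mul_lt_mul_of_pos_right
        · exact Nat.mul_lt_mul_of_pos_left h1 h4
        · positivity
    _ = q ^ 8 := by ring

end Cfsg.Agent.Lib.Helper24
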