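import Cfsg.Agent.Lib.Helper24.TwA
import Cfsg.Agent.Lib.Helper24.TwK
import Cfsg.Agent.Lib.Helper25.ChevCent2
import Cfsg.Agent.S0309

set_option autoImplicit false

namespace Cfsg.Agent.Lib.Helper24

open Cfsg.Lie Matrix
open Cfsg.Agent.Lib.Helper25 (wPi wEta negSet uMinus)

variable {F : Type*} [Field F]

/-- If `m' ∈ B m B` for monomial `m`, `m'` then `m⁻¹ m' ∈ H`. -/
private theorem twE_bnb (D : ChevalleyDatum) (hD : D ∈ chevList) (m m' b₁ b₂ : GL D.Idx F)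
    (hm : m ∈ D.monomialSubgroup F) (hm' : m' ∈ D.monomialSubgroup F)
    (hb₁ : b₁ ∈ D.borelSubgroup F) (hb₂ : b₂ ∈ D.borelSubgroup F) (e : m' = b₁ * m * b₂) :
    m⁻¹ * m' ∈ D.diagonalSubgroup F := by
  have hNG := monomialSubgroup_le_group (F := F) D hD
  have hBG := borelSubgroup_le_group (F := F) D hD
  have h1 : (⟨m, hNG hm⟩ : ↥(D.group F)) ∈ (Cfsg.Agent.Lib.Helper25.chevBN (F := F) D hD).N :=
    Subgroup.mem_subgroupOf.2 hm
  have h2 : (⟨m', hNG hm'⟩ : ↥(D.group F)) ∈ (Cfsg.Agent.Lib.Helper25.chevBN (F := F) D hD).N :=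
    Subgroup.mem_subgroupOf.2 hm'
  have h3 : (⟨m', hNG hm'⟩ : ↥(D.group F)) ∈
      DoubleCoset.doubleCoset (⟨m, hNG hm⟩ : ↥(D.group F))
        ((Cfsg.Agent.Lib.Helper25.chevBN (F := F) D hD).B : Set ↥(D.group F))
        (Cfsg.Agent.Lib.Helper25.chevBN (F := F) D hD).B := by
    rw [DoubleCoset.mem_doubleCoset]
    exact ⟨⟨b₁, hBG hb₁⟩, Subgroup.mem_subgroupOf.2 hb₁, ⟨b₂, hBG hb₂⟩,
      Subgroup.mem_subgroupOf.2 hb₂, Subtype.ext e⟩
  have h4 := (Cfsg.Agent.S0309.result (Cfsg.Agent.Lib.Helper25.chevBN (F := F) D hD) h1 h2).1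
    (DoubleCoset.doubleCoset_eq_of_mem h3).symm
  have h5 : m⁻¹ * m' ∈ D.borelSubgroup F := Subgroup.mem_subgroupOf.1 h4
  rw [← borel_inf_monomial D hD]
  exact Subgroup.mem_inf.2 ⟨h5, Subgroup.mul_mem _ (Subgroup.inv_mem _ hm) hm'⟩

private theorem twE_cons (D : ChevalleyDatum) (hD : D ∈ chevList) (i : ℕ) (L : List ℕ) :
    nWordGL (F := F) D hD (i :: L) = nGL D hD (D.simple i) * nWordGL D hD L := by
  unfold nWordGL
  rw [List.map_cons, List.prod_cons]

/-- The untwisted double coset computation for a word. -/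
private theorem twE_step1 (D : ChevalleyDatum) (hD : D ∈ chevList) (J₀ : List ℕ)
    (hJ₀ : ∀ i ∈ J₀, i < D.rank) (n b : GL D.Idx F) (hn : n ∈ D.monomialSubgroup F)
    (hb : b ∈ D.borelSubgroup F) :
    ∃ J' : List ℕ, J'.Sublist J₀ ∧ ∃ b₁ ∈ D.borelSubgroup F, ∃ b₂ ∈ D.borelSubgroup F,
      nWordGL D hD J₀ * b * n = b₁ * (nWordGL D hD J' * n) * b₂ := by
  induction J₀ with
  | nil =>
    refine ⟨[], List.Sublist.refl _, b, hb, 1, one_mem _, ?_⟩
    have h1 : nWordGL (F := F) D hD [] = 1 := rfl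
    rw [h1, one_mul, one_mul, mul_one]
  | cons i J₀ ih =>
    obtain ⟨J', hJ', b₁, hb₁, b₂, hb₂, e⟩ := ih (fun j hj => hJ₀ j (List.mem_cons_of_mem _ hj))
    have hJ'r : ∀ j ∈ J', j < D.rank :=
      fun j hj => hJ₀ j (List.mem_cons_of_mem _ (hJ'.subset hj))
    have hmem := Cfsg.Agent.Lib.Helper25.s_b_n_mem D hD i (hJ₀ i List.mem_cons_self)
      (nGL D hD (D.simple i)) (nGL_val D hD _)
      (nWordGL D hD J' * n) (mul_mem (nWordGL_mem_monomial D hD J' hJ'r) hn) b₁ hb₁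
    have e' : nWordGL D hD (i :: J₀) * b * n =
        nGL D hD (D.simple i) * b₁ * (nWordGL D hD J' * n) * b₂ := by
      rw [twE_cons, mul_assoc (nGL D hD (D.simple i)), mul_assoc (nGL D hD (D.simple i)), e]
      simp only [mul_assoc]
    rcases hmem with h | h
    · rw [DoubleCoset.mem_doubleCoset] at h
      obtain ⟨c₁, hc₁, c₂, hc₂, e2⟩ := h
      refine ⟨i :: J', hJ'.cons_cons i, c₁, hc₁, c₂ * b₂, mul_mem hc₂ hb₂, ?_⟩
      rw [e', e2, twE_cons]
      simp only [mul_assoc]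
    · rw [DoubleCoset.mem_doubleCoset] at h
      obtain ⟨c₁, hc₁, c₂, hc₂, e2⟩ := h
      refine ⟨J', hJ'.cons i, c₁, hc₁, c₂ * b₂, mul_mem hc₂ hb₂, ?_⟩
      rw [e', e2]
      simp only [mul_assoc]

namespace TwSet

variable {D : ChevalleyDatum} {hD : D ∈ chevList} (T : TwSet F D hD)

/-- A word whose image under the twisting endomorphism differs from it by an element of `H` has a
root permutation commuting with the diagram symmetry. -/
private theorem twE_comm (J' : List ℕ) (hJ' : ∀ i ∈ J', i < D.rank)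
    (h : (nWordGL D hD J')⁻¹ * T.S.sig (nWordGL D hD J') ∈ D.diagonalSubgroup F) :
    ∀ r < D.nroots, wPi D J' (T.S.π r) = T.S.π (wPi D J' r) := by
  intro r hr
  obtain ⟨d, hd, hval⟩ := diagonalSubgroup_le_gradedTorus D hD h
  have hπr := T.S.hπ r hr
  have hwr := Cfsg.Agent.Lib.Helper25.wPi_lt D hD J' hJ' r hr
  have hσval : ((T.S.sig (nWordGL D hD J') : GL D.Idx F) : Matrix D.Idx D.Idx F) =
      Cfsg.Agent.Lib.Helper25.nWordMat F D J' * torus F D d := by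
    rw [← hval, ← nWordGL_val D hD J', ← Units.val_mul, mul_inv_cancel_left]
  have e1 : nWordGL D hD J' * xGL D hD r 1 =
      xGL D hD (wPi D J' r) (((wEta D J' r : ℤ) : F) * 1) * nWordGL D hD J' := by
    apply Units.ext
    rw [Units.val_mul, Units.val_mul, nWordGL_val, xGL_val, xGL_val]
    exact Cfsg.Agent.Lib.Helper25.nWordMat_conj D hD J' hJ' r hr 1
  have e2 := congrArg T.S.sig e1
  rw [map_mul, map_mul, T.S.sig_xGL hD r hr, T.S.sig_xGL hD _ hwr] at e2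
  have e3 : T.S.sig (nWordGL D hD J') * xGL D hD (T.S.π r) (((T.S.ε r : ℤ) : F) * T.S.f 1) =
      xGL D hD (wPi D J' (T.S.π r)) (((wEta D J' (T.S.π r) : ℤ) : F) *
        (d (T.S.π r) * (((T.S.ε r : ℤ) : F) * T.S.f 1))) * T.S.sig (nWordGL D hD J') := by
    apply Units.ext
    rw [Units.val_mul, Units.val_mul, hσval, xGL_val, xGL_val, Matrix.mul_assoc,
      torus_mul_x D d hd _ hπr, ← Matrix.mul_assoc,
      Cfsg.Agent.Lib.Helper25.nWordMat_conj D hD J' hJ' _ hπr, Matrix.mul_assoc]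
  rw [e3] at e2
  have e4 := congrArg Units.val (mul_right_cancel e2)
  rw [xGL_val, xGL_val] at e4
  have hc : ((T.S.ε (wPi D J' r) : ℤ) : F) * T.S.f (((wEta D J' r : ℤ) : F) * 1) ≠ 0 := by
    apply mul_ne_zero (T.S.eps_ne_zero _)
    rw [mul_one, map_intCast]
    rcases Cfsg.Agent.Lib.Helper25.wEta_cases D J' r with h' | h' <;> rw [h'] <;> simp
  exact (Cfsg.Agent.Lib.Helper25.x_root_inj D hD _ _ (T.S.hπ _ hwr)
    (Cfsg.Agent.Lib.Helper25.wPi_lt D hD J' hJ' _ hπr) _ _ hc e4.symm).symm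

private theorem twE_flat_mem (Lb : List (List ℕ)) (hLb : ∀ J ∈ Lb, J ∈ T.blocks) :
    nWordGL D hD Lb.flatten ∈ T.G1 := by
  induction Lb with
  | nil => exact one_mem _
  | cons J Lb ih =>
    rw [List.flatten_cons, nWordGL_append]
    exact mul_mem (T.hnJ J (hLb J List.mem_cons_self))
      (ih (fun J' hJ' => hLb J' (List.mem_cons_of_mem _ hJ')))

private theorem twE_uNeg_le (m : GL D.Idx F) : uNeg D m ≤ D.posUnipotent F := by
  unfold uNeg ChevalleyDatum.posUnipotent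
  apply Subgroup.closure_mono
  rintro x ⟨r, t, hr, _, hx⟩
  exact ⟨r, t, hr, hx⟩

/-- Descent of a double coset of the big group to the twisted group. -/
private theorem twE_descent (hB : T.Bruhat) (g n' b₁ b₂ : GL D.Idx F) (hg : g ∈ T.G1)
    (hn' : n' ∈ D.monomialSubgroup F ⊓ T.G1) (hb₁ : b₁ ∈ D.borelSubgroup F)
    (hb₂ : b₂ ∈ D.borelSubgroup F) (e : g = b₁ * n' * b₂) :
    ∃ c₁ ∈ D.borelSubgroup F ⊓ T.G1, ∃ c₂ ∈ D.borelSubgroup F ⊓ T.G1, g = c₁ * n' * c₂ := by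
  obtain ⟨u₁, hu₁, m₁, hm₁, u, hu, e'⟩ := hB.decomp g hg
  have hUB : D.posUnipotent F ≤ D.borelSubgroup F := le_sup_left
  have hHB : D.diagonalSubgroup F ≤ D.borelSubgroup F := le_sup_right
  have huU : u ∈ D.posUnipotent F := twE_uNeg_le m₁ hu.1
  have hm₁e : m₁ = (u₁⁻¹ * b₁) * n' * (b₂ * u⁻¹) := by
    have : m₁ = u₁⁻¹ * g * u⁻¹ := by rw [e']; group
    rw [this, e]; group
  have hh := twE_bnb D hD n' m₁ _ _ hn'.1 hm₁.1 (mul_mem (inv_mem (hUB hu₁.1)) hb₁)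
    (mul_mem hb₂ (inv_mem (hUB huU))) hm₁e
  refine ⟨u₁, Subgroup.mem_inf.2 ⟨hUB hu₁.1, hu₁.2⟩, (n'⁻¹ * m₁) * u,
    Subgroup.mem_inf.2 ⟨Subgroup.mul_mem _ (hHB hh) (hUB huU),
      Subgroup.mul_mem _ (Subgroup.mul_mem _ (Subgroup.inv_mem _ hn'.2) hm₁.2) hu.2⟩, ?_⟩
  rw [e']; group

theorem exists_bnPair (hB : T.Bruhat) (hN : T.BNData) :
    ∃ P : Cfsg.BNPair ↥T.G1,
      P.B = (D.borelSubgroup F ⊓ T.G1).subgroupOf T.G1 ∧
      P.N = (D.monomialSubgroup F ⊓ T.G1).subgroupOf T.G1 ∧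
      P.S = {s : ↥T.G1 | ∃ J ∈ T.blocks, (s : GL D.Idx F) = nWordGL D hD J} := by
  have hUB : D.posUnipotent F ≤ D.borelSubgroup F := le_sup_left
  have hHB : D.diagonalSubgroup F ≤ D.borelSubgroup F := le_sup_right
  have hHN : D.diagonalSubgroup F ≤ D.monomialSubgroup F := by
    unfold ChevalleyDatum.monomialSubgroup
    exact le_sup_left
  have memB : ∀ x : ↥T.G1, x ∈ (D.borelSubgroup F ⊓ T.G1).subgroupOf T.G1 ↔
      (x : GL D.Idx F) ∈ D.borelSubgroup F := by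
    intro x
    rw [Subgroup.mem_subgroupOf, Subgroup.mem_inf]
    exact ⟨fun h => h.1, fun h => ⟨h, x.2⟩⟩
  have memN : ∀ x : ↥T.G1, x ∈ (D.monomialSubgroup F ⊓ T.G1).subgroupOf T.G1 ↔
      (x : GL D.Idx F) ∈ D.monomialSubgroup F := by
    intro x
    rw [Subgroup.mem_subgroupOf, Subgroup.mem_inf]
    exact ⟨fun h => h.1, fun h => ⟨h, x.2⟩⟩
  have hJN : ∀ J ∈ T.blocks, nWordGL D hD J ∈ D.monomialSubgroup F :=
    fun J hJ => nWordGL_mem_monomial D hD J (T.hblk J hJ)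
  have hsq : ∀ J ∈ T.blocks, nWordGL D hD J * nWordGL D hD J ∈ D.diagonalSubgroup F := by
    intro J hJ
    rw [← nWordGL_append]
    refine (nWordGL_mem_diag_iff D hD (J ++ J) ?_).2 (hN.hsq J hJ)
    intro i hi
    rcases List.mem_append.1 hi with h | h <;> exact T.hblk J hJ i h
  refine ⟨{ B := (D.borelSubgroup F ⊓ T.G1).subgroupOf T.G1
            N := (D.monomialSubgroup F ⊓ T.G1).subgroupOf T.G1
            S := {s : ↥T.G1 | ∃ J ∈ T.blocks, (s : GL D.Idx F) = nWordGL D hD J}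
            sup_eq_top := ?_
            conj_mem := ?_
            subset := ?_
            sq_mem := ?_
            inj := ?_
            closure_sup := ?_
            mul_mem_union := ?_
            conj_ne := ?_ }, rfl, rfl, rfl⟩
  · -- sup_eq_top
    rw [eq_top_iff]
    intro g _
    obtain ⟨u₁, hu₁, m, hm, u, hu, e⟩ := hB.decomp g g.2
    have e' : g = (⟨u₁, hu₁.2⟩ : ↥T.G1) * ⟨m, hm.2⟩ * ⟨u, hu.2⟩ := Subtype.ext e
    rw [e']
    refine mul_mem (mul_mem (Subgroup.mem_sup_left ?_) (Subgroup.mem_sup_right ?_))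
      (Subgroup.mem_sup_left ?_)
    · exact (memB _).2 (hUB hu₁.1)
    · exact (memN _).2 hm.1
    · exact (memB _).2 (hUB (twE_uNeg_le m hu.1))
  · -- conj_mem
    intro n hn t ht
    have hn' := (memN n).1 hn
    have ht' : (t : GL D.Idx F) ∈ D.diagonalSubgroup F := by
      rw [← borel_inf_monomial D hD]
      exact Subgroup.mem_inf.2 ⟨(memB t).1 (Subgroup.mem_inf.1 ht).1,
        (memN t).1 (Subgroup.mem_inf.1 ht).2⟩
    rw [memB]
    have hnorm := monomial_le_normalizer_diagonal D hD hn'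
    exact hHB (((Subgroup.mem_set_normalizer_iff.1 hnorm) _).1 ht')
  · -- subset
    rintro s ⟨J, hJ, hs⟩
    show s ∈ (D.monomialSubgroup F ⊓ T.G1).subgroupOf T.G1
    rw [memN, hs]
    exact hJN J hJ
  · -- sq_mem
    rintro s ⟨J, hJ, hs⟩
    rw [memB]
    show (s : GL D.Idx F) * (s : GL D.Idx F) ∈ D.borelSubgroup F
    rw [hs]
    exact hHB (hsq J hJ)
  · -- inj
    rintro s ⟨J, hJ, hs⟩ s' ⟨J', hJ', hs'⟩ h
    rw [memB] at h
    have h' : (nWordGL D hD J)⁻¹ * nWordGL D hD J' ∈ D.diagonalSubgroup F := by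
      rw [← borel_inf_monomial D hD]
      refine Subgroup.mem_inf.2 ⟨?_, Subgroup.mul_mem _ (Subgroup.inv_mem _ (hJN J hJ)) (hJN J' hJ')⟩
      rw [← hs, ← hs']
      exact h
    have hJJ' := hN.hdist J hJ J' hJ'
      (wPi_eq_of_inv_mul_mem_diag D hD J J' (T.hblk J hJ) (T.hblk J' hJ') h')
    apply Subtype.ext
    rw [hs, hs', hJJ']
  · -- closure_sup
    apply le_antisymm
    · apply sup_le
      · rw [Subgroup.closure_le]
        rintro s ⟨J, hJ, hs⟩
        show s ∈ (D.monomialSubgroup F ⊓ T.G1).subgroupOf T.G1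
        rw [memN, hs]
        exact hJN J hJ
      · exact inf_le_right
    · intro m hm
      have hm' := (memN m).1 hm
      obtain ⟨Lb, hLb, hh⟩ := hB.mono (m : GL D.Idx F) ⟨hm', m.2⟩
      have hcl : ∀ Lb : List (List ℕ), (∀ J ∈ Lb, J ∈ T.blocks) → ∀ x : ↥T.G1,
          (x : GL D.Idx F) = nWordGL D hD Lb.flatten →
          x ∈ Subgroup.closure {s : ↥T.G1 | ∃ J ∈ T.blocks, (s : GL D.Idx F) = nWordGL D hD J} := by
        intro Lb
        induction Lb with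
        | nil =>
          intro _ x hx
          have : x = 1 := Subtype.ext hx
          rw [this]
          exact one_mem _
        | cons J Lb ih =>
          intro hLb x hx
          have hLb' : ∀ J' ∈ Lb, J' ∈ T.blocks := fun J' hJ' => hLb J' (List.mem_cons_of_mem _ hJ')
          have hJ := hLb J List.mem_cons_self
          have ex : x = (⟨nWordGL D hD J, T.hnJ J hJ⟩ : ↥T.G1) *
              ⟨nWordGL D hD Lb.flatten, T.twE_flat_mem Lb hLb'⟩ := by
            apply Subtype.ext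
            rw [hx, List.flatten_cons, nWordGL_append]
            rfl
          rw [ex]
          exact mul_mem (Subgroup.subset_closure ⟨J, hJ, rfl⟩) (ih hLb' _ rfl)
      have hnG := T.twE_flat_mem Lb hLb
      have em : m = (m * (⟨nWordGL D hD Lb.flatten, hnG⟩ : ↥T.G1)⁻¹) *
          ⟨nWordGL D hD Lb.flatten, hnG⟩ := by group
      rw [em]
      refine mul_mem (Subgroup.mem_sup_right ?_) (Subgroup.mem_sup_left (hcl Lb hLb _ rfl))
      exact ⟨(memB _).2 (hHB hh), (memN _).2 (hHN hh)⟩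
  · -- mul_mem_union
    rintro s ⟨J, hJ, hs⟩ n hn b hb
    have hn' := (memN n).1 hn
    have hb' := (memB b).1 hb
    obtain ⟨J', hJ', b₁, hb₁, b₂, hb₂, e⟩ :=
      twE_step1 D hD J (T.hblk J hJ) (n : GL D.Idx F) (b : GL D.Idx F) hn' hb'
    have hJ'r : ∀ j ∈ J', j < D.rank := fun j hj => T.hblk J hJ j (hJ'.subset hj)
    have hJ'N := nWordGL_mem_monomial (F := F) D hD J' hJ'r
    have hgG : nWordGL D hD J * (b : GL D.Idx F) * (n : GL D.Idx F) ∈ T.G1 :=
      mul_mem (mul_mem (T.hnJ J hJ) b.2) n.2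
    -- the twisting endomorphism fixes `g`
    have hfix := T.hG1fix _ hgG
    have hnfix := T.hG1fix _ n.2
    have e2 : T.S.sig (nWordGL D hD J' * (n : GL D.Idx F)) =
        ((T.S.sig b₁)⁻¹ * b₁) * (nWordGL D hD J' * (n : GL D.Idx F)) * (b₂ * (T.S.sig b₂)⁻¹) := by
      have h1 := congrArg T.S.sig e
      rw [hfix, map_mul, map_mul, e] at h1
      have h2 : T.S.sig (nWordGL D hD J' * (n : GL D.Idx F)) =
          (T.S.sig b₁)⁻¹ * (b₁ * (nWordGL D hD J' * (n : GL D.Idx F)) * b₂) * (T.S.sig b₂)⁻¹ := by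
        rw [h1]; group
      rw [h2]; group
    have hσm : T.S.sig (nWordGL D hD J' * (n : GL D.Idx F)) ∈ D.monomialSubgroup F :=
      T.sig_mono_mem _ (mul_mem hJ'N hn')
    have hh := twE_bnb D hD _ _ _ _ (mul_mem hJ'N hn') hσm
      (mul_mem (inv_mem (T.sig_borel_mem b₁ hb₁)) hb₁)
      (mul_mem hb₂ (inv_mem (T.sig_borel_mem b₂ hb₂))) e2
    have hh2 : (nWordGL D hD J')⁻¹ * T.S.sig (nWordGL D hD J') ∈ D.diagonalSubgroup F := by
      have hnorm := monomial_le_normalizer_diagonal D hD hn'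
      have h3 := ((Subgroup.mem_set_normalizer_iff.1 hnorm) _).1 hh
      have h4 : (n : GL D.Idx F) * ((nWordGL D hD J' * (n : GL D.Idx F))⁻¹ *
          T.S.sig (nWordGL D hD J' * (n : GL D.Idx F))) * (n : GL D.Idx F)⁻¹ =
          (nWordGL D hD J')⁻¹ * T.S.sig (nWordGL D hD J') := by
        rw [map_mul, hnfix]; group
      rwa [h4] at h3
    have hcomm := T.twE_comm J' hJ'r hh2
    have key : ∀ n' : GL D.Idx F, n' ∈ D.monomialSubgroup F ⊓ T.G1 →
        nWordGL D hD J * (b : GL D.Idx F) * (n : GL D.Idx F) = b₁ * n' * b₂ →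
        ∃ c₁ ∈ D.borelSubgroup F ⊓ T.G1, ∃ c₂ ∈ D.borelSubgroup F ⊓ T.G1,
          nWordGL D hD J * (b : GL D.Idx F) * (n : GL D.Idx F) = c₁ * n' * c₂ :=
      fun n' hn'' e' => T.twE_descent hB _ n' b₁ b₂ hgG hn'' hb₁ hb₂ e'
    rcases hN.hsub J hJ J' hJ' hcomm with h0 | h0
    · right
      rw [h0] at e
      have h1 : nWordGL (F := F) D hD [] = 1 := rfl
      rw [h1, one_mul] at e
      obtain ⟨c₁, hc₁, c₂, hc₂, e3⟩ := key (n : GL D.Idx F) ⟨hn', n.2⟩ e
      rw [DoubleCoset.mem_doubleCoset]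
      refine ⟨⟨c₁, hc₁.2⟩, (memB _).2 hc₁.1, ⟨c₂, hc₂.2⟩, (memB _).2 hc₂.1, ?_⟩
      apply Subtype.ext
      show (s : GL D.Idx F) * (b : GL D.Idx F) * (n : GL D.Idx F) = c₁ * (n : GL D.Idx F) * c₂
      rw [hs, e3]
    · left
      rw [h0] at e
      obtain ⟨c₁, hc₁, c₂, hc₂, e3⟩ := key (nWordGL D hD J * (n : GL D.Idx F))
        ⟨mul_mem (hJN J hJ) hn', mul_mem (T.hnJ J hJ) n.2⟩ e
      rw [DoubleCoset.mem_doubleCoset]
      refine ⟨⟨c₁, hc₁.2⟩, (memB _).2 hc₁.1, ⟨c₂, hc₂.2⟩, (memB _).2 hc₂.1, ?_⟩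
      apply Subtype.ext
      show (s : GL D.Idx F) * (b : GL D.Idx F) * (n : GL D.Idx F) =
        c₁ * ((s : GL D.Idx F) * (n : GL D.Idx F)) * c₂
      rw [hs, e3]
  · -- conj_ne
    rintro s ⟨J, hJ, hs⟩ heq
    obtain ⟨u, hu, hu1, huV⟩ := hN.hxJ J hJ
    have hmem : s * (⟨u, hu.2⟩ : ↥T.G1) * s ∈
        (fun b : ↥T.G1 => s * b * s) '' (((D.borelSubgroup F ⊓ T.G1).subgroupOf T.G1 : Subgroup ↥T.G1) : Set ↥T.G1) :=
      ⟨⟨u, hu.2⟩, (memB _).2 (hUB hu.1), rfl⟩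
    rw [heq] at hmem
    have h1 : nWordGL D hD J * u * nWordGL D hD J ∈ D.borelSubgroup F := by
      have := (memB _).1 hmem
      rw [← hs]
      exact this
    have h2 : nWordGL D hD J * u * (nWordGL D hD J)⁻¹ ∈ D.borelSubgroup F := by
      have e : nWordGL D hD J * u * (nWordGL D hD J)⁻¹ =
          (nWordGL D hD J * u * nWordGL D hD J) * (nWordGL D hD J * nWordGL D hD J)⁻¹ := by group
      rw [e]
      exact mul_mem h1 (inv_mem (hHB (hsq J hJ)))
    have h3 : nWordGL D hD J * u * (nWordGL D hD J)⁻¹ ∈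
        D.borelSubgroup F ⊓ D.negUnipotent F := ⟨h2, huV⟩
    rw [borel_inf_negUnipotent D hD, Subgroup.mem_bot] at h3
    apply hu1
    have e : u = (nWordGL D hD J)⁻¹ * (nWordGL D hD J * u * (nWordGL D hD J)⁻¹) * nWordGL D hD J := by
      group
    rw [e, h3]; group

end TwSet

end Cfsg.Agent.Lib.Helper24
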