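import Cfsg.Agent.Lib.Helper24.TwD
import Cfsg.Agent.Lib.Helper24.TwE
import Cfsg.Agent.Lib.Helper24.TwD4Inst

set_option autoImplicit false

namespace Cfsg.Agent.Lib.Helper24

open Cfsg.Lie Matrix
open Cfsg.Agent.Lib.Helper25 (wPi wEta negSet uMinus)
open Cfsg.Agent.Lib.Helper25 (sgn pk8 gPiD4a gEpsD4a)

variable {K : Type*} [Field K] [Fintype K]

/-- The `(B, N)`-pair of `³D₄(q)`. -/
theorem twistedD4_bnPair {q : ℕ} (hq : IsPrimePow q) (hK : Fintype.card K = q ^ 3) :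
    ∃ P : Cfsg.BNPair ↥(twistedD4 K q),
      P.B = (chevD4.borelSubgroup K ⊓ twistedD4 K q).subgroupOf (twistedD4 K q) ∧
      P.N = (chevD4.monomialSubgroup K ⊓ twistedD4 K q).subgroupOf (twistedD4 K q) := by
  obtain ⟨f, hf⟩ := exists_frob K q 3 hq hK
  obtain ⟨P, hB, hN, _⟩ := (d4Tw hq hK f hf).exists_bnPair (d4Tw hq hK f hf).bruhat
    (d4Tw_bnData hq hK f hf)
  exact ⟨P, hB, hN⟩


end Cfsg.Agent.Lib.Helper24
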