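import Cfsg.Agent.Lib.Helper24.TwE
import Cfsg.Agent.Lib.Helper24.TwK
import Cfsg.Agent.Lib.Helper89.TwI0

/-!
# Twisted groups, piece I: simplicity from the `(B, N)`-pair (job TW-I, by helper89)
-/

set_option autoImplicit false

namespace Cfsg.Agent.Lib.Helper24

open Cfsg.Lie Matrix
open Cfsg.Agent.Lib.Helper25 (wPi wEta negSet uMinus)

variable {F : Type*} [Field F]

namespace TwSet

variable {D : ChevalleyDatum} {hD : D ∈ chevList} (T : TwSet F D hD)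

theorem isSimpleGroup_of (hB : T.Bruhat) (hN : T.BNData)
    (hirr : ∀ Js : List (List ℕ), (∀ J ∈ Js, J ∈ T.blocks) → Js ≠ [] →
      (∃ J ∈ T.blocks, J ∉ Js) → ∃ J ∈ Js, ∃ J' ∈ T.blocks, J' ∉ Js ∧
        ∃ r < D.nroots, wPi D (J ++ J' ++ J.reverse ++ J'.reverse) r ≠ r)
    (hperf : commutator ↥T.G1 = ⊤)
    (hcore : ((D.borelSubgroup F ⊓ T.G1).subgroupOf T.G1).normalCore = ⊥)
    (hnt : Nontrivial ↥T.G1) : IsSimpleGroup ↥T.G1 :=
  T.twI_simple (fun L L' hL hL' h => wPi_eq_of_mul_inv_mem_diag D hD L L' hL hL' h)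
    (T.exists_bnPair hB hN) hirr hperf hcore hnt

end TwSet

end Cfsg.Agent.Lib.Helper24
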