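import Cfsg.Agent.Lib.Helper24.TwD
import Cfsg.Agent.Lib.Helper24.TwI
import Cfsg.Agent.Lib.Helper24.TwD4Chk
import Cfsg.Agent.S1108
import Cfsg.Agent.S1109

set_option autoImplicit false

namespace Cfsg.Agent.Lib.Helper24

open Cfsg.Lie Matrix
open Cfsg.Agent.Lib.Helper25 (wPi wEta negSet uMinus)
open Cfsg.Agent.Lib.Helper25 (sgn pk8 gPiD4a gEpsD4a)

variable {K : Type*} [Field K] [Fintype K]

/-- `³D₄(q)` is simple and not commutative. -/
theorem twistedD4_simple {q : ℕ} (hq : IsPrimePow q) (hK : Fintype.card K = q ^ 3) :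
    IsSimpleGroup ↥(twistedD4 K q) ∧ ¬ IsMulCommutative ↥(twistedD4 K q) := by
  obtain ⟨f, hf⟩ := exists_frob K q 3 hq hK
  have hperf : commutator ↥(twistedD4 K q) = ⊤ := Cfsg.Agent.S1108.result hq hK
  haveI hnt : Nontrivial ↥(twistedD4 K q) := by
    obtain ⟨u, hu, hne, _⟩ := (d4Tw_bnData hq hK f hf).hxJ [1] (by
      show [1] ∈ d4Blocks
      simp [d4Blocks])
    refine ⟨⟨⟨u, hu.2⟩, 1, ?_⟩⟩
    intro h
    exact hne (congrArg Subtype.val h)
  constructor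
  · refine (d4Tw hq hK f hf).isSimpleGroup_of (d4Tw hq hK f hf).bruhat (d4Tw_bnData hq hK f hf)
      ?_ hperf (Cfsg.Agent.S1109.result hq hK) hnt
    intro Js hJs hne hex
    have hJs' : ∀ J ∈ Js, J = [1] ∨ J = [0, 2, 3] := by
      intro J hJ
      have := hJs J hJ
      simpa [d4Tw_blocks, d4Blocks] using this
    obtain ⟨J₀, hJ₀, hJ₀n⟩ := hex
    have hJ₀' : J₀ = [1] ∨ J₀ = [0, 2, 3] := by
      simpa [d4Tw_blocks, d4Blocks] using hJ₀
    obtain ⟨J₁, hJ₁⟩ := List.exists_mem_of_ne_nil Js hne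
    rcases hJs' J₁ hJ₁ with rfl | rfl
    · rcases hJ₀' with rfl | rfl
      · exact absurd hJ₁ hJ₀n
      · exact ⟨[1], hJ₁, [0, 2, 3], hJ₀, hJ₀n, d4fin_weyl_chk.2.2.2.2.1⟩
    · rcases hJ₀' with rfl | rfl
      · exact ⟨[0, 2, 3], hJ₁, [1], hJ₀, hJ₀n, d4fin_weyl_chk.2.2.2.2.2⟩
      · exact absurd hJ₁ hJ₀n
  · intro hcomm
    have hc : commutator ↥(twistedD4 K q) = ⊥ := by
      rw [commutator_eq_bot_iff_center_eq_top]
      exact Subgroup.center_eq_top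
    rw [hc] at hperf
    obtain ⟨a, b, hab⟩ := exists_pair_ne ↥(twistedD4 K q)
    have ha : a ∈ (⊥ : Subgroup ↥(twistedD4 K q)) := by rw [hperf]; exact Subgroup.mem_top a
    have hb : b ∈ (⊥ : Subgroup ↥(twistedD4 K q)) := by rw [hperf]; exact Subgroup.mem_top b
    rw [Subgroup.mem_bot] at ha hb
    exact hab (ha.trans hb.symm)


end Cfsg.Agent.Lib.Helper24
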