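import Cfsg.Agent.Lib.Helper24.TwHaux
import Cfsg.Agent.Lib.Helper24.TwE
import Cfsg.Agent.Lib.Helper24.TwK

/-!
# Twisted groups, piece H (helper97 for helper24): the Weyl group `N¹ / H¹` is the Coxeter group
of the given Coxeter matrix on the blocks.
-/

set_option autoImplicit false

namespace Cfsg.Agent.Lib.Helper24

open Cfsg.Lie Matrix
open Cfsg.Agent.Lib.Helper25 (wPi wEta negSet uMinus)

variable {F : Type*} [Field F]

namespace TwSet

variable {D : ChevalleyDatum} {hD : D ∈ chevList} (T : TwSet F D hD)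

/-- The Weyl group `N¹ / H¹` is the Coxeter group of `M`; the homomorphism sends the block
element `n_{bl i}` to the `i`-th Coxeter generator. -/
theorem exists_weyl_hom' (hB : T.Bruhat) (hN : T.BNData) {k : ℕ} (M : CoxeterMatrix (Fin k))
    (bl : Fin k → List ℕ) (hbl : Function.Injective bl)
    (hbl' : ∀ J, J ∈ T.blocks ↔ ∃ i, bl i = J) (hM0 : ∀ i j : Fin k, M i j ≠ 0)
    (hM1 : ∀ i j : Fin k, i ≠ j → ∀ r < D.nroots,
      wPi D (List.replicate (M i j) (bl i ++ bl j)).flatten r = r)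
    (hM2 : ∀ i j : Fin k, i ≠ j → ∀ e, 0 < e → e < M i j → ∃ r < D.nroots,
      wPi D (List.replicate e (bl i ++ bl j)).flatten r ≠ r) :
    ∃ φ : ↥(D.monomialSubgroup F ⊓ T.G1) →* M.Group, Function.Surjective φ ∧
      φ.ker = (D.diagonalSubgroup F ⊓ T.G1).subgroupOf (D.monomialSubgroup F ⊓ T.G1) ∧
      ∀ (i : Fin k) (g : ↥(D.monomialSubgroup F ⊓ T.G1)),
        (g : GL D.Idx F) = nWordGL D hD (bl i) → φ g = M.simple i := by
  obtain ⟨P, hPB, hPN, hPS⟩ := T.exists_bnPair hB hN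
  exact T.twH_weyl_hom_aux P hPB hPN hPS (fun L hL => nWordGL_mem_diag_iff D hD L hL)
    (fun L L' hL hL' h => wPi_eq_of_inv_mul_mem_diag D hD L L' hL hL' h) hN M bl hbl hbl' hM0
    hM1 hM2

/-- The Weyl group `N¹ / H¹` is the Coxeter group of `M`. -/
theorem exists_weyl_hom (hB : T.Bruhat) (hN : T.BNData) {k : ℕ} (M : CoxeterMatrix (Fin k))
    (bl : Fin k → List ℕ) (hbl : Function.Injective bl)
    (hbl' : ∀ J, J ∈ T.blocks ↔ ∃ i, bl i = J) (hM0 : ∀ i j : Fin k, M i j ≠ 0)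
    (hM1 : ∀ i j : Fin k, i ≠ j → ∀ r < D.nroots,
      wPi D (List.replicate (M i j) (bl i ++ bl j)).flatten r = r)
    (hM2 : ∀ i j : Fin k, i ≠ j → ∀ e, 0 < e → e < M i j → ∃ r < D.nroots,
      wPi D (List.replicate e (bl i ++ bl j)).flatten r ≠ r) :
    ∃ φ : ↥(D.monomialSubgroup F ⊓ T.G1) →* M.Group, Function.Surjective φ ∧
      φ.ker = (D.diagonalSubgroup F ⊓ T.G1).subgroupOf (D.monomialSubgroup F ⊓ T.G1) := by
  obtain ⟨φ, h1, h2, -⟩ := T.exists_weyl_hom' hB hN M bl hbl hbl' hM0 hM1 hM2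
  exact ⟨φ, h1, h2⟩

end TwSet

end Cfsg.Agent.Lib.Helper24
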