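import Cfsg.Agent.Lib.Helper24.TwD
import Cfsg.Agent.Lib.Helper24.TwH
import Cfsg.Agent.Lib.Helper24.TwD4Chk

set_option autoImplicit false

namespace Cfsg.Agent.Lib.Helper24

open Cfsg.Lie Matrix
open Cfsg.Agent.Lib.Helper25 (wPi wEta negSet uMinus)
open Cfsg.Agent.Lib.Helper25 (sgn pk8 gPiD4a gEpsD4a)

variable {K : Type*} [Field K] [Fintype K]

/-- The Weyl group of `³D₄(q)` is the Coxeter group of type `G₂`. -/
theorem twistedD4_weyl {q : ℕ} (hq : IsPrimePow q) (hK : Fintype.card K = q ^ 3) :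
    ∃ φ : ↥(chevD4.monomialSubgroup K ⊓ twistedD4 K q) →* (CoxeterMatrix.G₂).Group,
      Function.Surjective φ ∧
      φ.ker = (chevD4.diagonalSubgroup K ⊓ twistedD4 K q).subgroupOf
        (chevD4.monomialSubgroup K ⊓ twistedD4 K q) := by
  obtain ⟨f, hf⟩ := exists_frob K q 3 hq hK
  refine (d4Tw hq hK f hf).exists_weyl_hom (d4Tw hq hK f hf).bruhat (d4Tw_bnData hq hK f hf)
    CoxeterMatrix.G₂ ![[1], [0, 2, 3]] ?_ ?_ ?_ ?_ ?_
  · intro i j h
    fin_cases i <;> fin_cases j <;> simp at h ⊢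
  · intro J
    show J ∈ d4Blocks ↔ _
    constructor
    · intro hJ
      simp only [d4Blocks, List.mem_cons, List.not_mem_nil, or_false] at hJ
      rcases hJ with rfl | rfl
      · exact ⟨0, rfl⟩
      · exact ⟨1, rfl⟩
    · rintro ⟨i, rfl⟩
      fin_cases i <;> simp [d4Blocks]
  · intro i j
    rw [g2_apply]
    split <;> norm_num
  · intro i j hij r hr
    rw [g2_apply, if_neg hij]
    fin_cases i <;> fin_cases j
    · exact absurd rfl hij
    · exact d4fin_weyl_chk.1 r hr
    · exact d4fin_weyl_chk.2.1 r hr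
    · exact absurd rfl hij
  · intro i j hij e he0 he
    rw [g2_apply, if_neg hij] at he
    fin_cases i <;> fin_cases j
    · exact absurd rfl hij
    · exact d4fin_weyl_chk.2.2.1 e he he0
    · exact d4fin_weyl_chk.2.2.2.1 e he he0
    · exact absurd rfl hij


end Cfsg.Agent.Lib.Helper24
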