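import Cfsg.Agent.Lib.Helper24.TwD
import Cfsg.Agent.Lib.Helper24.TwE
import Cfsg.Agent.Lib.Helper24.TwE6Inst

set_option autoImplicit false

namespace Cfsg.Agent.Lib.Helper24

open Cfsg.Lie Matrix
open Cfsg.Agent.Lib.Helper25 (wPi wEta negSet uMinus)
open Cfsg.Agent.Lib.Helper25 (sgn pk8 gPiE6 gEpsE6)

variable {K : Type*} [Field K] [Fintype K]

/-- The `(B, N)`-pair of `²E₆(q)`. -/
theorem twistedE6_bnPair {q : ℕ} (hq : IsPrimePow q) (hK : Fintype.card K = q ^ 2) :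
    ∃ P : Cfsg.BNPair ↥(twistedE6 K q),
      P.B = (chevE6.borelSubgroup K ⊓ twistedE6 K q).subgroupOf (twistedE6 K q) ∧
      P.N = (chevE6.monomialSubgroup K ⊓ twistedE6 K q).subgroupOf (twistedE6 K q) := by
  obtain ⟨f, hf⟩ := exists_frob K q 2 hq hK
  obtain ⟨P, hB, hN, _⟩ := (e6Tw hq hK f hf).exists_bnPair (e6Tw hq hK f hf).bruhat
    (e6Tw_bnData hq hK f hf)
  exact ⟨P, hB, hN⟩


end Cfsg.Agent.Lib.Helper24
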