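import Cfsg.Agent.Lib.Helper24.TwD
import Cfsg.Agent.Lib.Helper24.TwI
import Cfsg.Agent.Lib.Helper24.TwE6Chk
import Cfsg.Agent.S1104
import Cfsg.Agent.S1105

set_option autoImplicit false

namespace Cfsg.Agent.Lib.Helper24

open Cfsg.Lie Matrix
open Cfsg.Agent.Lib.Helper25 (wPi wEta negSet uMinus)
open Cfsg.Agent.Lib.Helper25 (sgn pk8 gPiE6 gEpsE6)

variable {K : Type*} [Field K] [Fintype K]

/-- `²E₆(q)` is simple and not commutative. -/
theorem twistedE6_simple {q : ℕ} (hq : IsPrimePow q) (hK : Fintype.card K = q ^ 2) :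
    IsSimpleGroup ↥(twistedE6 K q) ∧ ¬ IsMulCommutative ↥(twistedE6 K q) := by
  obtain ⟨f, hf⟩ := exists_frob K q 2 hq hK
  have hperf : commutator ↥(twistedE6 K q) = ⊤ := Cfsg.Agent.S1104.result hq hK
  haveI hnt : Nontrivial ↥(twistedE6 K q) := by
    obtain ⟨u, hu, hne, _⟩ := (e6Tw_bnData hq hK f hf).hxJ [1] (by
      show [1] ∈ e6Blocks
      simp [e6Blocks])
    refine ⟨⟨⟨u, hu.2⟩, 1, ?_⟩⟩
    intro h
    exact hne (congrArg Subtype.val h)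
  constructor
  · refine (e6Tw hq hK f hf).isSimpleGroup_of (e6Tw hq hK f hf).bruhat (e6Tw_bnData hq hK f hf)
      ?_ hperf (Cfsg.Agent.S1105.result hq hK) hnt
    intro Js hJs hne hex
    obtain ⟨J₁, hJ₁⟩ := List.exists_mem_of_ne_nil Js hne
    obtain ⟨i₁, rfl⟩ := (e6bl_mem J₁).1 (hJs J₁ hJ₁)
    obtain ⟨J₀, hJ₀, hJ₀n⟩ := hex
    obtain ⟨i₀, rfl⟩ := (e6bl_mem J₀).1 hJ₀
    obtain ⟨i, j, hadj, hi, hj⟩ := path4_cut (fun i => e6bl i ∈ Js) ⟨i₁, hJ₁⟩ ⟨i₀, hJ₀n⟩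
    exact ⟨e6bl i, hi, e6bl j, (e6bl_mem _).2 ⟨j, rfl⟩, hj, e6fin_irr_chk i j hadj⟩
  · intro hcomm
    have hc : commutator ↥(twistedE6 K q) = ⊥ := by
      rw [commutator_eq_bot_iff_center_eq_top]
      exact Subgroup.center_eq_top
    rw [hc] at hperf
    obtain ⟨a, b, hab⟩ := exists_pair_ne ↥(twistedE6 K q)
    have ha : a ∈ (⊥ : Subgroup ↥(twistedE6 K q)) := by rw [hperf]; exact Subgroup.mem_top a
    have hb : b ∈ (⊥ : Subgroup ↥(twistedE6 K q)) := by rw [hperf]; exact Subgroup.mem_top b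
    rw [Subgroup.mem_bot] at ha hb
    exact hab (ha.trans hb.symm)


end Cfsg.Agent.Lib.Helper24
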