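import Cfsg.Agent.Lib.Helper24.TwD
import Cfsg.Agent.Lib.Helper24.TwH
import Cfsg.Agent.Lib.Helper24.TwE6Chk

set_option autoImplicit false

namespace Cfsg.Agent.Lib.Helper24

open Cfsg.Lie Matrix
open Cfsg.Agent.Lib.Helper25 (wPi wEta negSet uMinus)
open Cfsg.Agent.Lib.Helper25 (sgn pk8 gPiE6 gEpsE6)

variable {K : Type*} [Field K] [Fintype K]

/-- The Weyl group of `²E₆(q)` is the Coxeter group of type `F₄`. -/
theorem twistedE6_weyl {q : ℕ} (hq : IsPrimePow q) (hK : Fintype.card K = q ^ 2) :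
    ∃ φ : ↥(chevE6.monomialSubgroup K ⊓ twistedE6 K q) →* (CoxeterMatrix.F₄).Group,
      Function.Surjective φ ∧
      φ.ker = (chevE6.diagonalSubgroup K ⊓ twistedE6 K q).subgroupOf
        (chevE6.monomialSubgroup K ⊓ twistedE6 K q) := by
  obtain ⟨f, hf⟩ := exists_frob K q 2 hq hK
  refine (e6Tw hq hK f hf).exists_weyl_hom (e6Tw hq hK f hf).bruhat (e6Tw_bnData hq hK f hf)
    CoxeterMatrix.F₄ e6bl ?_ ?_ ?_ ?_ ?_
  · intro i j h
    fin_cases i <;> fin_cases j <;> simp [e6bl] at h ⊢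
  · exact e6bl_mem
  · intro i j
    rw [f4_apply]
    fin_cases i <;> fin_cases j <;> simp
  · intro i j hij r hr
    rw [f4_apply]
    exact e6fin_weyl_chk.1 i j hij r hr
  · intro i j hij e he0 he
    rw [f4_apply] at he
    exact e6fin_weyl_chk.2 i j hij e he he0



end Cfsg.Agent.Lib.Helper24
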