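import Mathlib
import Cfsg.Agent.Lib.Helper24.TwCore
import Cfsg.Agent.Lib.Helper24.TwFil
import Cfsg.Agent.Lib.Helper26.Chk2
import Cfsg.Agent.Lib.Helper26.TwF4Defs

/-!
# The large Ree groups `²F₄`: the two `n`-elements and the core of `B¹`

`n₁ = n_{p₁} n_{p₄}` and `n₂ = (n_{p₂} n_{p₃})²` lie in `²F₄`; `(n₁ n₂)⁴` represents the longest
element, and no non-trivial element of `H` centralises `²F₄ ∩ U`.
-/

set_option autoImplicit false
set_option maxHeartbeats 400000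

namespace Cfsg.Agent.Lib.Helper24.TwF4C

open Cfsg.Lie Matrix Cfsg.Agent.Lib.Helper24
open Cfsg.Agent.Lib.Helper25 (w0Chk)
open Cfsg.Agent.Lib.Helper26.TF4 (hF4 lvF4 iaF4)
open Cfsg.Agent.Lib.Helper26.Chk2

variable {K : Type*} [Field K]

theorem f4_simple : chevF4.simple 0 = 33 ∧ chevF4.simple 1 = 27 ∧ chevF4.simple 2 = 25 ∧
    chevF4.simple 3 = 24 := by decide +kernel

theorem f4_neg : chevF4.neg 33 = 14 ∧ chevF4.neg 27 = 20 ∧ chevF4.neg 25 = 22 ∧
    chevF4.neg 24 = 23 := by decide +kernel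

theorem f4_rank : chevF4.rank = 4 := by decide +kernel

theorem f4_lt : 33 < chevF4.nroots ∧ 27 < chevF4.nroots ∧ 25 < chevF4.nroots ∧
    24 < chevF4.nroots ∧ 28 < chevF4.nroots ∧ 30 < chevF4.nroots := by decide +kernel

theorem f4_pos : chevF4.IsPosRoot 33 ∧ chevF4.IsPosRoot 27 ∧ chevF4.IsPosRoot 25 ∧
    chevF4.IsPosRoot 24 ∧ chevF4.IsPosRoot 28 ∧ chevF4.IsPosRoot 30 := by decide +kernel

theorem f4_ia : iaF4 33 = 1 ∧ iaF4 24 = 2 ∧ iaF4 27 = 0 ∧ iaF4 25 = 3 := by decide +kernel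

theorem f4_cart : chevF4.cartan 1 33 = -1 ∧ chevF4.cartan 2 24 = -1 ∧ chevF4.cartan 0 27 = -1 ∧
    chevF4.cartan 3 25 = -1 := by decide +kernel

theorem f4_lv : lvF4 33 = 43 ∧ lvF4 24 = 44 ∧ lvF4 27 = 45 ∧ lvF4 25 = 46 ∧ lvF4 28 = 50 ∧
    lvF4 30 = 54 := by decide +kernel

set_option maxRecDepth 1000000 in
theorem levF4_chk : (∀ r < chevF4.nroots, lvF4 (chevF4.neg r) + lvF4 r = 2 * 41) ∧
    (∀ r < chevF4.nroots, ∀ s < chevF4.nroots, ∀ e ∈ cent chevF4 r s,
      lvF4 e.1 + e.2.1 * 41 = lvF4 s + e.2.1 * lvF4 r) := by decide +kernel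

theorem levF4 : LevData chevF4 lvF4 41 := ⟨levF4_chk.1, levF4_chk.2⟩

/-- A word for the longest element of the Weyl group of type `F₄`: `(w₁ w₂)⁴` with
`w₁ = s₁ s₄`, `w₂ = (s₂ s₃)²`. -/
def f4w0 : List ℕ :=
  ([0, 3] ++ [1, 2, 1, 2]) ++ (([0, 3] ++ [1, 2, 1, 2]) ++ (([0, 3] ++ [1, 2, 1, 2]) ++
    ([0, 3] ++ [1, 2, 1, 2])))

set_option maxHeartbeats 4000000 in
set_option maxRecDepth 1000000 in
theorem f4w0_chk : w0Chk chevF4 f4w0 = true := by decide +kernel

/-! ### the generators with parameters `0`, `1` -/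

theorem pair_pos_mem (e : ℕ) : wGL chevF4 hF4 [(33, (1 : K)), (24, 1)] ∈ twistedF4 K e := by
  have h := wGL_mem_gen chevF4 hF4 (f4Words K e) (f4PairWord e f4p1 f4p4 1)
    (Or.inl ⟨1, Or.inl rfl⟩)
  unfold twistedF4
  simpa only [f4PairWord, f4p1, f4p4, one_pow] using h

theorem pair_neg_mem (e : ℕ) : wGL chevF4 hF4 [(14, (1 : K)), (23, 1)] ∈ twistedF4 K e := by
  have h := wGL_mem_gen chevF4 hF4 (f4Words K e) (f4PairWord e f4m1 f4m4 1)
    (Or.inl ⟨1, Or.inr rfl⟩)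
  unfold twistedF4
  simpa only [f4PairWord, f4m1, f4m4, one_pow] using h

theorem b2_pos_mem (e : ℕ) (t u : K) :
    wGL chevF4 hF4 [(27, t ^ e), (25, t), (28, t ^ (e + 1) + u), (30, u ^ (2 * e))] ∈
      twistedF4 K e := by
  have h := wGL_mem_gen chevF4 hF4 (f4Words K e) (b2ClassWord e f4a f4b f4ab f4aab t u)
    (Or.inr ⟨t, u, Or.inl rfl⟩)
  unfold twistedF4
  simpa only [b2ClassWord, f4a, f4b, f4ab, f4aab] using h

theorem b2_neg_mem (e : ℕ) (t u : K) :
    wGL chevF4 hF4 [(20, t ^ e), (22, t), (19, t ^ (e + 1) + u), (17, u ^ (2 * e))] ∈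
      twistedF4 K e := by
  have h := wGL_mem_gen chevF4 hF4 (f4Words K e) (b2ClassWord e f4ma f4mb f4mab f4maab t u)
    (Or.inr ⟨t, u, Or.inr rfl⟩)
  unfold twistedF4
  simpa only [b2ClassWord, f4ma, f4mb, f4mab, f4maab] using h

/-! ### the two `n`-elements -/

theorem n1_mem [CharP K 2] (e : ℕ) : nWordGL chevF4 hF4 [0, 3] ∈ twistedF4 K e := by
  have hm1 : (-1 : K) = 1 := CharTwo.neg_eq 1
  have e1 : nWordGL (F := K) chevF4 hF4 [0, 3] =
      wGL chevF4 hF4 [(33, 1), (14, 1), (33, 1), (24, 1), (23, 1), (24, 1)] := by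
    simp only [nWordGL, nGL, List.map_cons, List.map_nil, List.prod_cons, List.prod_nil,
      f4_simple.1, f4_simple.2.2.2, f4_neg.1, f4_neg.2.2.2, mul_one, wGL_cons, wGL_nil, hm1,
      mul_assoc]
  have e2 : wGL chevF4 hF4 [(33, (1 : K)), (14, 1), (33, 1), (24, 1), (23, 1), (24, 1)] =
      wGL chevF4 hF4 [(33, 1), (24, 1), (14, 1), (23, 1), (33, 1), (24, 1)] := by
    apply Units.ext
    rw [wGL_val, wGL_val]
    have h := wEq2_sound (F := K) chevF4 preChk_F4 _ _ f4_n1_chk 1 1 one_ne_zero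
    simp only [wEval2, evalM, List.map_cons, List.map_nil, one_pow, _root_.one_zpow, mul_one,
      Int.cast_one, Int.cast_neg, hm1] at h
    exact h.symm
  have e3 : wGL chevF4 hF4 [(33, (1 : K)), (24, 1), (14, 1), (23, 1), (33, 1), (24, 1)] =
      wGL chevF4 hF4 [(33, (1 : K)), (24, 1)] * (wGL chevF4 hF4 [(14, (1 : K)), (23, 1)] *
        wGL chevF4 hF4 [(33, (1 : K)), (24, 1)]) := by
    simp only [wGL_cons, wGL_nil, mul_one, mul_assoc]
  rw [e1, e2, e3]
  exact Subgroup.mul_mem _ (pair_pos_mem e) (Subgroup.mul_mem _ (pair_neg_mem e) (pair_pos_mem e))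

theorem n2_mem [CharP K 2] (e : ℕ) (he : e ≠ 0) :
    nWordGL chevF4 hF4 [1, 2, 1, 2] ∈ twistedF4 K e := by
  have hm1 : (-1 : K) = 1 := CharTwo.neg_eq 1
  have h11 : (1 : K) + 1 = 0 := CharTwo.add_self_eq_zero 1
  have e1 : nWordGL (F := K) chevF4 hF4 [1, 2, 1, 2] =
      wGL chevF4 hF4 [(27, 1), (20, 1), (27, 1), (25, 1), (22, 1), (25, 1), (27, 1), (20, 1),
        (27, 1), (25, 1), (22, 1), (25, 1)] := by
    simp only [nWordGL, nGL, List.map_cons, List.map_nil, List.prod_cons, List.prod_nil,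
      f4_simple.2.1, f4_simple.2.2.1, f4_neg.2.1, f4_neg.2.2.1, mul_one, wGL_cons, wGL_nil, hm1,
      mul_assoc]
  have e2 : wGL chevF4 hF4 [(27, (1 : K)), (20, 1), (27, 1), (25, 1), (22, 1), (25, 1), (27, 1),
      (20, 1), (27, 1), (25, 1), (22, 1), (25, 1)] =
      wGL chevF4 hF4 [(20, 1), (22, 1), (19, 1), (28, 1), (30, 1), (20, 1), (22, 1), (17, 1)] := by
    apply Units.ext
    rw [wGL_val, wGL_val]
    have h := wEq2_sound (F := K) chevF4 preChk_F4 _ _ f4_n2_chk 1 1 one_ne_zero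
    simp only [n2L, n2R, wEval2, evalM, List.map_cons, List.map_nil, one_pow, _root_.one_zpow, mul_one,
      Int.cast_one, Int.cast_neg, hm1] at h
    exact h.symm
  have m1 := b2_neg_mem (K := K) e 1 0
  have m2 := b2_pos_mem (K := K) e 0 1
  have m3 := b2_neg_mem (K := K) e 1 1
  have he2 : 2 * e ≠ 0 := by omega
  simp only [one_pow, zero_pow he, zero_pow he2, zero_pow (Nat.succ_ne_zero e), add_zero,
    zero_add, h11, wGL_cons, wGL_nil, xGL_zero, mul_one, one_mul] at m1 m2 m3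
  have e3 : wGL chevF4 hF4 [(20, (1 : K)), (22, 1), (19, 1), (28, 1), (30, 1), (20, 1), (22, 1),
      (17, 1)] = (xGL chevF4 hF4 20 1 * (xGL chevF4 hF4 22 1 * xGL chevF4 hF4 19 1)) *
        ((xGL chevF4 hF4 28 1 * xGL chevF4 hF4 30 1) *
          (xGL chevF4 hF4 20 1 * (xGL chevF4 hF4 22 1 * xGL chevF4 hF4 17 1))) := by
    simp only [wGL_cons, wGL_nil, mul_one, mul_assoc]
  rw [e1, e2, e3]
  exact Subgroup.mul_mem _ m1 (Subgroup.mul_mem _ m2 m3)

theorem n0_mem [CharP K 2] (e : ℕ) (he : e ≠ 0) : nWordGL chevF4 hF4 f4w0 ∈ twistedF4 K e := by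
  have h12 := Subgroup.mul_mem _ (n1_mem (K := K) e) (n2_mem e he)
  unfold f4w0
  simp only [nWordGL_append]
  exact Subgroup.mul_mem _ h12 (Subgroup.mul_mem _ h12 (Subgroup.mul_mem _ h12 h12))

/-! ### the centraliser of `U¹` in `H` -/

/-- No non-trivial element of `H` centralises `²F₄ ∩ U`. -/
theorem f4_central (e : ℕ) (x : GL chevF4.Idx K) (hxH : x ∈ chevF4.diagonalSubgroup K)
    (hcomm : ∀ g ∈ twistedF4 K e, g ∈ chevF4.posUnipotent K → x * g = g * x) : x = 1 := by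
  obtain ⟨d, hd, hx⟩ := diagonalSubgroup_le_gradedTorus chevF4 hF4 hxH
  have hne : -(((-1 : ℤ) : K)) ≠ 0 := by simp
  have hA : d 33 = 1 ∧ d 24 = 1 := by
    have hp : wGL chevF4 hF4 [(33, (1 : K)), (24, 1)] ∈ chevF4.posUnipotent K := by
      apply wGL_mem_pos
      intro p hp
      simp only [List.mem_cons, List.not_mem_nil, or_false] at hp
      rcases hp with rfl | rfl
      · exact f4_pos.1
      · exact f4_pos.2.2.2.1
    have e1 := wGL_scaled_of_commute chevF4 hF4 x d hd hx [(33, (1 : K)), (24, 1)]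
      (by
        intro p hp
        simp only [List.mem_cons, List.not_mem_nil, or_false] at hp
        rcases hp with rfl | rfl
        · exact f4_lt.1
        · exact f4_lt.2.2.2.1)
      (hcomm _ (pair_pos_mem e) hp)
    have hW1 : ∀ p ∈ [(33, (1 : K)), (24, 1)], p.2 = 0 ∨ (p.1 < chevF4.nroots ∧
        41 + 2 ≤ lvF4 p.1) := by
      intro p hp
      simp only [List.mem_cons, List.not_mem_nil, or_false] at hp
      rcases hp with rfl | rfl
      · exact Or.inr ⟨f4_lt.1, by rw [f4_lv.1]⟩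
      · exact Or.inr ⟨f4_lt.2.2.2.1, by rw [f4_lv.2.1]; norm_num⟩
    have hW2 : ∀ p ∈ ([(33, (1 : K)), (24, 1)].map fun p => (p.1, d p.1 * p.2)),
        p.2 = 0 ∨ (p.1 < chevF4.nroots ∧ 41 + 2 ≤ lvF4 p.1) := by
      intro p hp
      simp only [List.map_cons, List.map_nil, List.mem_cons, List.not_mem_nil, or_false] at hp
      rcases hp with rfl | rfl
      · exact Or.inr ⟨f4_lt.1, by rw [f4_lv.1]⟩
      · exact Or.inr ⟨f4_lt.2.2.2.1, by rw [f4_lv.2.1]; norm_num⟩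
    constructor
    · have k := congrArg (fun g => ent chevF4 g 33 1) e1
      beta_reduce at k
      rw [wGL_ent chevF4 hF4 lvF4 41 levF4 _ 2 (by norm_num) hW2 33 1 f4_lt.1
          (by rw [f4_lv.1]; norm_num) (by rw [f4_rank]; norm_num),
        wGL_ent chevF4 hF4 lvF4 41 levF4 _ 2 (by norm_num) hW1 33 1 f4_lt.1
          (by rw [f4_lv.1]; norm_num) (by rw [f4_rank]; norm_num), f4_cart.1] at k
      have k2 := mul_left_cancel₀ hne k
      simpa using k2
    · have k := congrArg (fun g => ent chevF4 g 24 2) e1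
      beta_reduce at k
      rw [wGL_ent chevF4 hF4 lvF4 41 levF4 _ 2 (by norm_num) hW2 24 2 f4_lt.2.2.2.1
          (by rw [f4_lv.2.1]; norm_num) (by rw [f4_rank]; norm_num),
        wGL_ent chevF4 hF4 lvF4 41 levF4 _ 2 (by norm_num) hW1 24 2 f4_lt.2.2.2.1
          (by rw [f4_lv.2.1]; norm_num) (by rw [f4_rank]; norm_num), f4_cart.2.1] at k
      have k2 := mul_left_cancel₀ hne k
      simpa using k2
  have hB : d 27 = 1 ∧ d 25 = 1 := by
    have hm := b2_pos_mem (K := K) e 1 0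
    have hp : wGL chevF4 hF4 [(27, (1 : K) ^ e), (25, 1), (28, 1 ^ (e + 1) + 0),
        (30, 0 ^ (2 * e))] ∈ chevF4.posUnipotent K := by
      apply wGL_mem_pos
      intro p hp
      simp only [List.mem_cons, List.not_mem_nil, or_false] at hp
      rcases hp with rfl | rfl | rfl | rfl
      · exact f4_pos.2.1
      · exact f4_pos.2.2.1
      · exact f4_pos.2.2.2.2.1
      · exact f4_pos.2.2.2.2.2
    have e1 := wGL_scaled_of_commute chevF4 hF4 x d hd hx _
      (by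
        intro p hp
        simp only [List.mem_cons, List.not_mem_nil, or_false] at hp
        rcases hp with rfl | rfl | rfl | rfl
        · exact f4_lt.2.1
        · exact f4_lt.2.2.1
        · exact f4_lt.2.2.2.2.1
        · exact f4_lt.2.2.2.2.2)
      (hcomm _ hm hp)
    have hW1 : ∀ p ∈ [(27, (1 : K) ^ e), (25, 1), (28, 1 ^ (e + 1) + 0), (30, 0 ^ (2 * e))],
        p.2 = 0 ∨ (p.1 < chevF4.nroots ∧ 41 + 3 ≤ lvF4 p.1) := by
      intro p hp
      simp only [List.mem_cons, List.not_mem_nil, or_false] at hp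
      rcases hp with rfl | rfl | rfl | rfl
      · exact Or.inr ⟨f4_lt.2.1, by rw [f4_lv.2.2.1]; norm_num⟩
      · exact Or.inr ⟨f4_lt.2.2.1, by rw [f4_lv.2.2.2.1]; norm_num⟩
      · exact Or.inr ⟨f4_lt.2.2.2.2.1, by rw [f4_lv.2.2.2.2.1]; norm_num⟩
      · exact Or.inr ⟨f4_lt.2.2.2.2.2, by rw [f4_lv.2.2.2.2.2]; norm_num⟩
    have hW2 : ∀ p ∈ ([(27, (1 : K) ^ e), (25, 1), (28, 1 ^ (e + 1) + 0),
        (30, 0 ^ (2 * e))].map fun p => (p.1, d p.1 * p.2)),
        p.2 = 0 ∨ (p.1 < chevF4.nroots ∧ 41 + 3 ≤ lvF4 p.1) := by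
      intro p hp
      simp only [List.map_cons, List.map_nil, List.mem_cons, List.not_mem_nil, or_false] at hp
      rcases hp with rfl | rfl | rfl | rfl
      · exact Or.inr ⟨f4_lt.2.1, by rw [f4_lv.2.2.1]; norm_num⟩
      · exact Or.inr ⟨f4_lt.2.2.1, by rw [f4_lv.2.2.2.1]; norm_num⟩
      · exact Or.inr ⟨f4_lt.2.2.2.2.1, by rw [f4_lv.2.2.2.2.1]; norm_num⟩
      · exact Or.inr ⟨f4_lt.2.2.2.2.2, by rw [f4_lv.2.2.2.2.2]; norm_num⟩
    constructor
    · have k := congrArg (fun g => ent chevF4 g 27 0) e1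
      beta_reduce at k
      rw [wGL_ent chevF4 hF4 lvF4 41 levF4 _ 3 (by norm_num) hW2 27 0 f4_lt.2.1
          (by rw [f4_lv.2.2.1]; norm_num) (by rw [f4_rank]; norm_num),
        wGL_ent chevF4 hF4 lvF4 41 levF4 _ 3 (by norm_num) hW1 27 0 f4_lt.2.1
          (by rw [f4_lv.2.2.1]; norm_num) (by rw [f4_rank]; norm_num), f4_cart.2.2.1] at k
      have k2 := mul_left_cancel₀ hne k
      simpa using k2
    · have k := congrArg (fun g => ent chevF4 g 25 3) e1
      beta_reduce at k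
      rw [wGL_ent chevF4 hF4 lvF4 41 levF4 _ 3 (by norm_num) hW2 25 3 f4_lt.2.2.1
          (by rw [f4_lv.2.2.2.1]; norm_num) (by rw [f4_rank]; norm_num),
        wGL_ent chevF4 hF4 lvF4 41 levF4 _ 3 (by norm_num) hW1 25 3 f4_lt.2.2.1
          (by rw [f4_lv.2.2.2.1]; norm_num) (by rw [f4_rank]; norm_num), f4_cart.2.2.2] at k
      have k2 := mul_left_cancel₀ hne k
      simpa using k2
  apply torus_eq_one_of_simple chevF4 hF4 x d hd hx
  intro i hi
  rw [f4_rank] at hi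
  interval_cases i
  · rw [f4_simple.1]; exact hA.1
  · rw [f4_simple.2.1]; exact hB.1
  · rw [f4_simple.2.2.1]; exact hB.2
  · rw [f4_simple.2.2.2]; exact hA.2

/-- The normal core of `B¹` in `²F₄` is trivial. -/
theorem twistedF4_core [CharP K 2] (e : ℕ) (he : e ≠ 0) :
    ((chevF4.borelSubgroup K ⊓ twistedF4 K e).subgroupOf (twistedF4 K e)).normalCore = ⊥ := by
  have hL : ∀ i ∈ f4w0, i < chevF4.rank := by decide +kernel
  exact core_trivial_of chevF4 hF4 (twistedF4 K e) (nWordGL chevF4 hF4 f4w0) (n0_mem e he)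
    (nWordGL_mem_monomial chevF4 hF4 f4w0 hL) (nWordGL_conj_pos chevF4 hF4 f4w0 f4w0_chk)
    (f4_central e)

theorem charP_two [Fintype K] {n : ℕ} (hn : n ≠ 0) (hK : Fintype.card K = 2 ^ n) :
    CharP K 2 := by
  obtain ⟨p, hp⟩ := CharP.exists K
  have := hp
  obtain ⟨k, hpn, hcard⟩ := FiniteField.card K p
  have h2 : (2 : ℕ) ∣ p ^ (k : ℕ) := by
    rw [← hcard, hK]
    exact dvd_pow_self 2 hn
  have : p = 2 :=
    ((Nat.prime_dvd_prime_iff_eq Nat.prime_two hpn).1 (Nat.prime_two.dvd_of_dvd_pow h2)).symm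
  rw [← this]
  exact hp

end Cfsg.Agent.Lib.Helper24.TwF4C
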