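import Mathlib
import Cfsg.Agent.Lib.Helper24.TwF4C
import Cfsg.Agent.Lib.Helper24.RkSig
import Cfsg.Agent.Lib.Helper24.TwGen
import Cfsg.Agent.Lib.Helper24.TwSig

/-!
# The large Ree groups `²F₄(2^(2m+1))`, `m ≥ 1`, are perfect

`h(λ) = h_{p₁}(λ^θ) h_{p₄}(λ)` lies in `²F₄`; every generating word is a commutator `[h(λ), w]` or
a conjugate of one.
-/

set_option autoImplicit false
set_option maxHeartbeats 400000

namespace Cfsg.Agent.Lib.Helper24.TwF4P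

open Cfsg.Lie Matrix Cfsg.Agent.Lib.Helper24
open Cfsg.Agent.Lib.Helper25 (wPi wEta)
open Cfsg.Agent.Lib.Helper26.TF4 (hF4)
open Cfsg.Agent.Lib.Helper26.Chk2
open scoped commutatorElement

variable {K : Type*} [Field K]

local notation "X" => xGL chevF4 hF4

set_option maxRecDepth 1000000 in
theorem f4_cc : commuteChk chevF4 30 27 = true ∧ commuteChk chevF4 28 25 = true ∧
    commuteChk chevF4 30 25 = true ∧ commuteChk chevF4 30 28 = true ∧
    commuteChk chevF4 24 33 = true ∧ commuteChk chevF4 24 14 = true ∧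
    commuteChk chevF4 23 33 = true ∧ commuteChk chevF4 23 14 = true := by decide +kernel

set_option maxRecDepth 1000000 in
theorem c2827_chk : wEqChk2 chevF4 [(28, 1, (1, 0)), (27, 1, (0, 1))]
    [(27, 1, (0, 1)), (28, 1, (1, 0))] = true := by decide +kernel

theorem f4_W : W chevF4 33 33 = 2 ∧ W chevF4 24 33 = 0 ∧ W chevF4 33 24 = 0 ∧ W chevF4 24 24 = 2 ∧
    W chevF4 33 27 = -1 ∧ W chevF4 24 27 = 0 ∧ W chevF4 33 25 = 0 ∧ W chevF4 24 25 = -1 ∧
    W chevF4 33 28 = -1 ∧ W chevF4 24 28 = -1 ∧ W chevF4 33 30 = -2 ∧ W chevF4 24 30 = -1 := by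
  decide +kernel

theorem f4_wp1 : wPi chevF4 [0, 3] 33 = 14 ∧ wPi chevF4 [0, 3] 24 = 23 := by decide +kernel

theorem f4_wp2 : wPi chevF4 [1, 2, 1, 2] 27 = 20 ∧ wPi chevF4 [1, 2, 1, 2] 25 = 22 ∧
    wPi chevF4 [1, 2, 1, 2] 28 = 19 ∧ wPi chevF4 [1, 2, 1, 2] 30 = 17 := by decide +kernel

theorem f4_neg2 : chevF4.neg 33 = 14 ∧ chevF4.neg 24 = 23 := by decide +kernel

theorem tail_of_comm {G : Type*} [Group G] {A B : G} (h : A * B = B * A) (Z : G) :
    A * (B * Z) = B * (A * Z) := by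
  rw [← mul_assoc, h, mul_assoc]

theorem merge (r : ℕ) (hr : r < chevF4.nroots) (p q : K) (Z : GL chevF4.Idx K) :
    X r p * (X r q * Z) = X r (p + q) * Z := by
  rw [← mul_assoc, ← xGL_add chevF4 hF4 r hr]

section rel

variable [CharP K 2]

theorem T25_27 (p c : K) (Z : GL chevF4.Idx K) :
    X 25 p * (X 27 c * Z) = X 27 c * (X 25 p * (X 28 (c * p) * (X 30 (c ^ 2 * p) * Z))) := by
  by_cases hc : c = 0
  · subst hc
    simp only [zero_mul, ne_eq, OfNat.ofNat_ne_zero, not_false_eq_true, zero_pow, xGL_zero,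
      one_mul]
  · have key := wEq2_sound (F := K) chevF4 preChk_F4 _ _ f4_b2pos_chk c p hc
    simp only [wEval2, List.map_cons, List.map_nil, evalM, Int.cast_one, one_mul,
      zpow_zero, zpow_one, zpow_ofNat, pow_zero, pow_one, mul_one] at key
    have h : X 25 p * X 27 c = X 27 c * (X 25 p * (X 28 (c * p) * X 30 (c ^ 2 * p))) := by
      apply Units.ext
      simp only [Units.val_mul, xGL_val]
      simpa only [wmat_cons, wmat_nil, Matrix.mul_one] using key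
    rw [← mul_assoc, h]
    simp only [mul_assoc]

theorem C28_27 (p c : K) : X 28 p * X 27 c = X 27 c * X 28 p := by
  by_cases hp : p = 0
  · subst hp
    simp only [xGL_zero, one_mul, mul_one]
  · have key := wEq2_sound (F := K) chevF4 preChk_F4 _ _ c2827_chk p c hp
    simp only [wEval2, List.map_cons, List.map_nil, evalM, Int.cast_one, one_mul,
      zpow_zero, zpow_one, pow_zero, pow_one, mul_one] at key
    apply Units.ext
    simp only [Units.val_mul, xGL_val]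
    simpa only [wmat_cons, wmat_nil, Matrix.mul_one] using key

/-- the product of two words of the `B₂`-class -/
theorem bw_mul_tail (a t A B c t' A' B' : K) (Z : GL chevF4.Idx K) :
    X 27 a * (X 25 t * (X 28 A * (X 30 B * (X 27 c * (X 25 t' * (X 28 A' * (X 30 B' * Z))))))) =
      X 27 (a + c) * (X 25 (t + t') * (X 28 (c * t + A + A') *
        (X 30 (c ^ 2 * t + B + B') * Z))) := by
  have c30_27 : ∀ (p q : K) (W : GL chevF4.Idx K), X 30 p * (X 27 q * W) = X 27 q * (X 30 p * W) :=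
    fun p q W => tail_of_comm (commute_of_chk chevF4 hF4 30 27 f4_cc.1 p q).eq W
  have c28_27 : ∀ (p q : K) (W : GL chevF4.Idx K), X 28 p * (X 27 q * W) = X 27 q * (X 28 p * W) :=
    fun p q W => tail_of_comm (C28_27 p q) W
  have c28_25 : ∀ (p q : K) (W : GL chevF4.Idx K), X 28 p * (X 25 q * W) = X 25 q * (X 28 p * W) :=
    fun p q W => tail_of_comm (commute_of_chk chevF4 hF4 28 25 f4_cc.2.1 p q).eq W
  have c30_25 : ∀ (p q : K) (W : GL chevF4.Idx K), X 30 p * (X 25 q * W) = X 25 q * (X 30 p * W) :=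
    fun p q W => tail_of_comm (commute_of_chk chevF4 hF4 30 25 f4_cc.2.2.1 p q).eq W
  have c30_28 : ∀ (p q : K) (W : GL chevF4.Idx K), X 30 p * (X 28 q * W) = X 28 q * (X 30 p * W) :=
    fun p q W => tail_of_comm (commute_of_chk chevF4 hF4 30 28 f4_cc.2.2.2.1 p q).eq W
  rw [c30_27, c28_27, T25_27, c30_25, c28_25, c30_25, c28_25, c30_28, c30_28, c30_28,
    merge 27 TwF4C.f4_lt.2.1, merge 25 TwF4C.f4_lt.2.2.1, merge 28 TwF4C.f4_lt.2.2.2.2.1,
    merge 28 TwF4C.f4_lt.2.2.2.2.1, merge 30 TwF4C.f4_lt.2.2.2.2.2,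
    merge 30 TwF4C.f4_lt.2.2.2.2.2]

end rel

/-! ### the generating words -/

/-- the positive pair word -/
def Pw (e : ℕ) (t : K) : GL chevF4.Idx K := wGL chevF4 hF4 [(33, t ^ e), (24, t)]

/-- the negative pair word -/
def Pn (e : ℕ) (t : K) : GL chevF4.Idx K := wGL chevF4 hF4 [(14, t ^ e), (23, t)]

/-- the positive word of the `B₂`-class -/
def Bw (e : ℕ) (t u : K) : GL chevF4.Idx K :=
  wGL chevF4 hF4 [(27, t ^ e), (25, t), (28, t ^ (e + 1) + u), (30, u ^ (2 * e))]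

/-- the negative word of the `B₂`-class -/
def Bn (e : ℕ) (t u : K) : GL chevF4.Idx K :=
  wGL chevF4 hF4 [(20, t ^ e), (22, t), (19, t ^ (e + 1) + u), (17, u ^ (2 * e))]

theorem Pw_mem (e : ℕ) (t : K) : Pw e t ∈ twistedF4 K e := by
  have h := wGL_mem_gen chevF4 hF4 (f4Words K e) (f4PairWord e f4p1 f4p4 t)
    (Or.inl ⟨t, Or.inl rfl⟩)
  unfold twistedF4 Pw
  simpa only [f4PairWord, f4p1, f4p4] using h

theorem Pn_mem (e : ℕ) (t : K) : Pn e t ∈ twistedF4 K e := by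
  have h := wGL_mem_gen chevF4 hF4 (f4Words K e) (f4PairWord e f4m1 f4m4 t)
    (Or.inl ⟨t, Or.inr rfl⟩)
  unfold twistedF4 Pn
  simpa only [f4PairWord, f4m1, f4m4] using h

theorem Bw_mem (e : ℕ) (t u : K) : Bw e t u ∈ twistedF4 K e := TwF4C.b2_pos_mem e t u

theorem Bn_mem (e : ℕ) (t u : K) : Bn e t u ∈ twistedF4 K e := TwF4C.b2_neg_mem e t u

theorem c24_33 (s t : K) : Commute (X 24 s) (X 33 t) :=
  commute_of_chk chevF4 hF4 24 33 f4_cc.2.2.2.2.1 s t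

theorem c24_14 (s t : K) : Commute (X 24 s) (X 14 t) :=
  commute_of_chk chevF4 hF4 24 14 f4_cc.2.2.2.2.2.1 s t

theorem c23_33 (s t : K) : Commute (X 23 s) (X 33 t) :=
  commute_of_chk chevF4 hF4 23 33 f4_cc.2.2.2.2.2.2.1 s t

theorem c23_14 (s t : K) : Commute (X 23 s) (X 14 t) :=
  commute_of_chk chevF4 hF4 23 14 f4_cc.2.2.2.2.2.2.2 s t

theorem Pw_mul (e : ℕ) (hadd : ∀ x y : K, (x + y) ^ e = x ^ e + y ^ e) (t t' : K) :
    Pw e t * Pw e t' = Pw e (t + t') := by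
  unfold Pw
  simp only [wGL_cons, wGL_nil, mul_one]
  rw [hadd, mul_assoc, tail_of_comm (c24_33 t (t' ^ e)).eq, ← mul_assoc,
    ← xGL_add chevF4 hF4 33 TwF4C.f4_lt.1, ← xGL_add chevF4 hF4 24 TwF4C.f4_lt.2.2.2.1]

theorem Bw_mul [CharP K 2] (e : ℕ) (hadd : ∀ x y : K, (x + y) ^ e = x ^ e + y ^ e)
    (hF : ∀ x : K, (x ^ e) ^ (2 * e) = x) (t u t' u' : K) :
    Bw e t u * Bw e t' u' = Bw e (t + t') (u + u' + t ^ e * t') := by
  have h := bw_mul_tail (t ^ e) t (t ^ (e + 1) + u) (u ^ (2 * e)) (t' ^ e) t' (t' ^ (e + 1) + u')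
    (u' ^ (2 * e)) 1
  have e2 : (t + t') ^ (e + 1) + (u + u' + t ^ e * t') =
      t' ^ e * t + (t ^ (e + 1) + u) + (t' ^ (e + 1) + u') := by
    rw [pow_succ (t + t'), hadd, pow_succ t, pow_succ t']
    have h2 : t ^ e * t' + t ^ e * t' = 0 := CharTwo.add_self_eq_zero _
    linear_combination h2
  have hadd2 : ∀ x y : K, (x + y) ^ (2 * e) = x ^ (2 * e) + y ^ (2 * e) := by
    intro x y
    rw [mul_comm 2 e, pow_mul, pow_mul, pow_mul, hadd, CharTwo.add_sq]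
  have e3 : (u + u' + t ^ e * t') ^ (2 * e) = (t' ^ e) ^ 2 * t + u ^ (2 * e) + u' ^ (2 * e) := by
    rw [hadd2, hadd2, mul_pow, hF]
    ring
  unfold Bw
  simp only [wGL_cons, wGL_nil, mul_one] at h ⊢
  rw [mul_assoc, mul_assoc, mul_assoc, h, hadd, e2, e3]

/-! ### the torus elements `h(y) = h_{p₁}(y^θ) h_{p₄}(y)` -/

theorem n33_eq (c : K) : wGL chevF4 hF4 (chevF4.nWord 33 c) = X 33 c * (X 14 (-c⁻¹) * X 33 c) := by
  unfold ChevalleyDatum.nWord
  rw [f4_neg2.1]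
  simp only [wGL_cons, wGL_nil, mul_one]

theorem n24_eq (c : K) : wGL chevF4 hF4 (chevF4.nWord 24 c) = X 24 c * (X 23 (-c⁻¹) * X 24 c) := by
  unfold ChevalleyDatum.nWord
  rw [f4_neg2.2]
  simp only [wGL_cons, wGL_nil, mul_one]

theorem comm_n24_n33 (s t : K) : Commute (wGL chevF4 hF4 (chevF4.nWord 24 s))
    (wGL chevF4 hF4 (chevF4.nWord 33 t)) := by
  rw [n33_eq, n24_eq]
  have hA : ∀ a : K, Commute (X 24 a) (X 33 t * (X 14 (-t⁻¹) * X 33 t)) := fun a =>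
    (c24_33 a t).mul_right ((c24_14 a _).mul_right (c24_33 a t))
  have hB : ∀ a : K, Commute (X 23 a) (X 33 t * (X 14 (-t⁻¹) * X 33 t)) := fun a =>
    (c23_33 a t).mul_right ((c23_14 a _).mul_right (c23_33 a t))
  exact (hA s).mul_left ((hB _).mul_left (hA s))

theorem rearr {G : Type*} [Group G] (a b c d : G) (h1 : Commute b c) (h2 : Commute d a)
    (h3 : Commute b a) :
    a * (b * (c * (d * (a * b)))) = (a * (c * a)) * (b * (d * b)) := by
  calc a * (b * (c * (d * (a * b)))) = a * ((b * c) * ((d * a) * b)) := by simp only [mul_assoc]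
    _ = a * ((c * b) * ((a * d) * b)) := by rw [h1.eq, h2.eq]
    _ = a * (c * ((b * a) * (d * b))) := by simp only [mul_assoc]
    _ = a * (c * ((a * b) * (d * b))) := by rw [h3.eq]
    _ = _ := by simp only [mul_assoc]

/-- `n(y) = n_{p₁}(y^θ) n_{p₄}(y)` lies in `²F₄`. -/
theorem ny_mem [CharP K 2] (e : ℕ) (y : K) :
    wGL chevF4 hF4 (chevF4.nWord 33 (y ^ e)) * wGL chevF4 hF4 (chevF4.nWord 24 y) ∈
      twistedF4 K e := by
  have hU := Pw_mem (K := K) e y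
  have hV := Pn_mem (K := K) e y⁻¹
  unfold Pw at hU
  unfold Pn at hV
  simp only [wGL_cons, wGL_nil, mul_one] at hU hV
  have e1 : wGL chevF4 hF4 (chevF4.nWord 33 (y ^ e)) * wGL chevF4 hF4 (chevF4.nWord 24 y) =
      (X 33 (y ^ e) * X 24 y) * ((X 14 (y⁻¹ ^ e) * X 23 y⁻¹) * (X 33 (y ^ e) * X 24 y)) := by
    rw [n33_eq, n24_eq, inv_pow, CharTwo.neg_eq, CharTwo.neg_eq]
    have h := rearr (X 33 (y ^ e)) (X 24 y) (X 14 ((y ^ e)⁻¹))
      (X 23 (y⁻¹)) (c24_14 _ _) (c23_33 _ _) (c24_33 _ _)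
    rw [← h]
    simp only [mul_assoc]
  rw [e1]
  exact Subgroup.mul_mem _ hU (Subgroup.mul_mem _ hV hU)

theorem nW_inv (r : ℕ) (hr : r < chevF4.nroots) :
    (wGL (F := K) chevF4 hF4 (chevF4.nWord r 1))⁻¹ = wGL chevF4 hF4 (chevF4.nWord r (-1)) :=
  (eq_inv_of_mul_eq_one_left (ASig.rk_nW_neg_mul (F := K) (hD := hF4) r hr)).symm

/-- the element `h(y) = h_{p₁}(y^e) h_{p₄}(y)` -/
def hy (e : ℕ) (y : K) : GL chevF4.Idx K :=
  (wGL chevF4 hF4 (chevF4.nWord 33 (y ^ e)) * wGL chevF4 hF4 (chevF4.nWord 33 (-1))) *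
    (wGL chevF4 hF4 (chevF4.nWord 24 y) * wGL chevF4 hF4 (chevF4.nWord 24 (-1)))

theorem hy_eq (e : ℕ) (y : K) : hy e y =
    (wGL chevF4 hF4 (chevF4.nWord 33 (y ^ e)) * wGL chevF4 hF4 (chevF4.nWord 24 y)) *
      (wGL chevF4 hF4 (chevF4.nWord 33 ((1 : K) ^ e)) *
        wGL chevF4 hF4 (chevF4.nWord 24 (1 : K)))⁻¹ := by
  unfold hy
  rw [one_pow, _root_.mul_inv_rev, nW_inv 33 TwF4C.f4_lt.1, nW_inv 24 TwF4C.f4_lt.2.2.2.1]
  have c1 := comm_n24_n33 (K := K) y (-1)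
  have c2 := comm_n24_n33 (K := K) (-1) (-1)
  have c3 : Commute (wGL chevF4 hF4 (chevF4.nWord 24 y) *
      wGL chevF4 hF4 (chevF4.nWord 24 (-1 : K))) (wGL chevF4 hF4 (chevF4.nWord 33 (-1 : K))) :=
    c1.mul_left c2
  calc wGL chevF4 hF4 (chevF4.nWord 33 (y ^ e)) * wGL chevF4 hF4 (chevF4.nWord 33 (-1)) *
        (wGL chevF4 hF4 (chevF4.nWord 24 y) * wGL chevF4 hF4 (chevF4.nWord 24 (-1)))
      = wGL chevF4 hF4 (chevF4.nWord 33 (y ^ e)) * (wGL chevF4 hF4 (chevF4.nWord 33 (-1)) *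
        (wGL chevF4 hF4 (chevF4.nWord 24 y) * wGL chevF4 hF4 (chevF4.nWord 24 (-1)))) := by
        rw [mul_assoc]
    _ = wGL chevF4 hF4 (chevF4.nWord 33 (y ^ e)) * ((wGL chevF4 hF4 (chevF4.nWord 24 y) *
        wGL chevF4 hF4 (chevF4.nWord 24 (-1))) * wGL chevF4 hF4 (chevF4.nWord 33 (-1))) := by
        rw [c3.eq]
    _ = _ := by simp only [mul_assoc]

theorem hy_mem [CharP K 2] (e : ℕ) (y : K) : hy e y ∈ twistedF4 K e := by
  rw [hy_eq]
  exact Subgroup.mul_mem _ (ny_mem e y) (Subgroup.inv_mem _ (ny_mem e 1))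

theorem hy_diag (e : ℕ) (y : K) (hy0 : y ≠ 0) : hy e y ∈ chevF4.diagonalSubgroup K := by
  unfold hy
  exact Subgroup.mul_mem _
    (ASig.rk_hW_mem (F := K) (hD := hF4) 33 TwF4C.f4_lt.1 (y ^ e) (pow_ne_zero _ hy0))
    (ASig.rk_hW_mem (F := K) (hD := hF4) 24 TwF4C.f4_lt.2.2.2.1 y hy0)

theorem hW_val (r : ℕ) (c : K) : ((wGL chevF4 hF4 (chevF4.nWord r c) *
    wGL chevF4 hF4 (chevF4.nWord r (-1)) : GL chevF4.Idx K) : Matrix chevF4.Idx chevF4.Idx K) =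
      chevF4.hMat K r c := by
  rw [Units.val_mul, wGL_val, wGL_val, hMat_eq_nMat_mul]
  rfl

theorem hy_val (e : ℕ) (y : K) (hy0 : y ≠ 0) :
    ((hy e y : GL chevF4.Idx K) : Matrix chevF4.Idx chevF4.Idx K) =
      torus K chevF4 (fun s => (y ^ e) ^ W chevF4 33 s * y ^ W chevF4 24 s) := by
  unfold hy
  rw [Units.val_mul, hW_val, hW_val,
    hMat_eq_torus chevF4 hF4 33 TwF4C.f4_lt.1 (y ^ e) (pow_ne_zero _ hy0),
    hMat_eq_torus chevF4 hF4 24 TwF4C.f4_lt.2.2.2.1 y hy0, torus_mul_torus]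

theorem hy_graded (e : ℕ) (y : K) (hy0 : y ≠ 0) :
    ∃ d : ℕ → K, MulGraded chevF4 d ∧
      ((hy e y : GL chevF4.Idx K) : Matrix chevF4.Idx chevF4.Idx K) = torus K chevF4 d ∧
      d 33 = (y ^ e) ^ 2 ∧ d 24 = y ^ 2 ∧ d 27 = (y ^ e)⁻¹ ∧ d 25 = y⁻¹ ∧
      d 28 = (y ^ e)⁻¹ * y⁻¹ ∧ d 30 = ((y ^ e) ^ 2)⁻¹ * y⁻¹ := by
  obtain ⟨d, hd, hx⟩ := diagonalSubgroup_le_gradedTorus chevF4 hF4 (hy_diag e y hy0)
  have hv := hy_val e y hy0
  have key : ∀ r, r < chevF4.nroots → d r = (y ^ e) ^ W chevF4 33 r * y ^ W chevF4 24 r := by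
    intro r hr
    have h1 := torus_apply_rv (F := K) chevF4 d r hr
    rw [← hx, hv, torus_apply_rv] at h1
    exact h1.symm
  obtain ⟨w1, w2, w3, w4, w5, w6, w7, w8, w9, w10, w11, w12⟩ := f4_W
  refine ⟨d, hd, hx, ?_, ?_, ?_, ?_, ?_, ?_⟩
  · rw [key 33 TwF4C.f4_lt.1, w1, w2, zpow_zero, mul_one, zpow_ofNat]
  · rw [key 24 TwF4C.f4_lt.2.2.2.1, w3, w4, zpow_zero, one_mul, zpow_ofNat]
  · rw [key 27 TwF4C.f4_lt.2.1, w5, w6, zpow_zero, mul_one, _root_.zpow_neg_one]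
  · rw [key 25 TwF4C.f4_lt.2.2.1, w7, w8, zpow_zero, one_mul, _root_.zpow_neg_one]
  · rw [key 28 TwF4C.f4_lt.2.2.2.2.1, w9, w10, _root_.zpow_neg_one, _root_.zpow_neg_one]
  · rw [key 30 TwF4C.f4_lt.2.2.2.2.2, w11, w12, _root_.zpow_neg_one, _root_.zpow_neg, zpow_ofNat]

theorem torus_conj (x : GL chevF4.Idx K) (d : ℕ → K) (hd : MulGraded chevF4 d)
    (hx : (x : Matrix chevF4.Idx chevF4.Idx K) = torus K chevF4 d) (w : List (ℕ × K))
    (hw : ∀ p ∈ w, p.1 < chevF4.nroots) :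
    x * wGL chevF4 hF4 w * x⁻¹ = wGL chevF4 hF4 (w.map fun p => (p.1, d p.1 * p.2)) := by
  rw [mul_inv_eq_iff_eq_mul]
  apply Units.ext
  rw [Units.val_mul, Units.val_mul, wGL_val, wGL_val, hx, torus_mul_wordMat chevF4 d hd w hw]

theorem hy_conj_P (e : ℕ) (y : K) (hy0 : y ≠ 0) (a b : K) :
    hy e y * wGL chevF4 hF4 [(33, a), (24, b)] * (hy e y)⁻¹ =
      wGL chevF4 hF4 [(33, (y ^ e) ^ 2 * a), (24, y ^ 2 * b)] := by
  obtain ⟨d, hd, hx, h33, h24, -, -, -, -⟩ := hy_graded e y hy0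
  rw [torus_conj _ d hd hx _ (by
    intro p hp
    simp only [List.mem_cons, List.not_mem_nil, or_false] at hp
    rcases hp with rfl | rfl
    · exact TwF4C.f4_lt.1
    · exact TwF4C.f4_lt.2.2.2.1)]
  simp only [List.map_cons, List.map_nil, h33, h24]

theorem hy_conj_B (e : ℕ) (y : K) (hy0 : y ≠ 0) (a b c f : K) :
    hy e y * wGL chevF4 hF4 [(27, a), (25, b), (28, c), (30, f)] * (hy e y)⁻¹ =
      wGL chevF4 hF4 [(27, (y ^ e)⁻¹ * a), (25, y⁻¹ * b), (28, (y ^ e)⁻¹ * y⁻¹ * c),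
        (30, ((y ^ e) ^ 2)⁻¹ * y⁻¹ * f)] := by
  obtain ⟨d, hd, hx, -, -, h27, h25, h28, h30⟩ := hy_graded e y hy0
  rw [torus_conj _ d hd hx _ (by
    intro p hp
    simp only [List.mem_cons, List.not_mem_nil, or_false] at hp
    rcases hp with rfl | rfl | rfl | rfl
    · exact TwF4C.f4_lt.2.1
    · exact TwF4C.f4_lt.2.2.1
    · exact TwF4C.f4_lt.2.2.2.2.1
    · exact TwF4C.f4_lt.2.2.2.2.2)]
  simp only [List.map_cons, List.map_nil, h27, h25, h28, h30]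

/-! ### the negative words are conjugates of the positive ones -/

theorem eta_one [CharP K 2] (L : List ℕ) (s : ℕ) : ((wEta chevF4 L s : ℤ) : K) = 1 := by
  rcases Cfsg.Agent.Lib.Helper25.wEta_cases chevF4 L s with h | h
  · rw [h, Int.cast_one]
  · rw [h, Int.cast_neg, Int.cast_one, CharTwo.neg_eq]

theorem Pn_eq [CharP K 2] (e : ℕ) (t : K) :
    Pn e t = nWordGL chevF4 hF4 [0, 3] * Pw e t * (nWordGL chevF4 hF4 [0, 3])⁻¹ := by
  unfold Pn Pw
  rw [nWordGL_conj_wGL chevF4 hF4 [0, 3] (by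
    rw [TwF4C.f4_rank]
    intro i hi
    simp only [List.mem_cons, List.not_mem_nil, or_false] at hi
    omega) _ (by
    intro p hp
    simp only [List.mem_cons, List.not_mem_nil, or_false] at hp
    rcases hp with rfl | rfl
    · exact TwF4C.f4_lt.1
    · exact TwF4C.f4_lt.2.2.2.1)]
  simp only [List.map_cons, List.map_nil, f4_wp1.1, f4_wp1.2, eta_one, one_mul]

theorem Bn_eq [CharP K 2] (e : ℕ) (t u : K) :
    Bn e t u = nWordGL chevF4 hF4 [1, 2, 1, 2] * Bw e t u *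
      (nWordGL chevF4 hF4 [1, 2, 1, 2])⁻¹ := by
  unfold Bn Bw
  rw [nWordGL_conj_wGL chevF4 hF4 [1, 2, 1, 2] (by
    rw [TwF4C.f4_rank]
    intro i hi
    simp only [List.mem_cons, List.not_mem_nil, or_false] at hi
    omega) _ (by
    intro p hp
    simp only [List.mem_cons, List.not_mem_nil, or_false] at hp
    rcases hp with rfl | rfl | rfl | rfl
    · exact TwF4C.f4_lt.2.1
    · exact TwF4C.f4_lt.2.2.1
    · exact TwF4C.f4_lt.2.2.2.2.1
    · exact TwF4C.f4_lt.2.2.2.2.2)]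
  simp only [List.map_cons, List.map_nil, f4_wp2.1, f4_wp2.2.1, f4_wp2.2.2.1, f4_wp2.2.2.2,
    eta_one, one_mul]

/-! ### perfectness -/

/-- `²F₄(2^(2m+1))` is perfect for `m ≥ 1`. -/
theorem twistedF4_perfect [Fintype K] {m : ℕ} (hK : Fintype.card K = 2 ^ (2 * m + 1))
    (hm : 1 ≤ m) : commutator ↥(twistedF4 K (2 ^ m)) = ⊤ := by
  classical
  have : CharP K 2 := TwF4C.charP_two (by omega) hK
  have : Fact (Nat.Prime 2) := ⟨Nat.prime_two⟩
  have hadd : ∀ x y : K, (x + y) ^ 2 ^ m = x ^ 2 ^ m + y ^ 2 ^ m :=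
    fun x y => add_pow_char_pow x y 2 m
  have hF : ∀ x : K, (x ^ 2 ^ m) ^ (2 * 2 ^ m) = x := by
    intro x
    have h := FiniteField.pow_card x
    rw [hK] at h
    rw [← pow_mul]
    have e : 2 ^ m * (2 * 2 ^ m) = 2 ^ (2 * m + 1) := by ring
    rw [e]
    exact h
  have he4 : 2 ^ 1 ≤ 2 ^ m := Nat.pow_le_pow_right (by norm_num) hm
  have hq : Fintype.card K = 2 * (2 ^ m * 2 ^ m) := by
    rw [hK]
    ring
  generalize 2 ^ m = e at hadd hF he4 hq ⊢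
  have he : e ≠ 0 := by omega
  -- a field element
  obtain ⟨y, hy0, hy1, hy2⟩ : ∃ y : K, y ≠ 0 ∧ y ≠ 1 ∧ y ^ (e + 1) ≠ 1 := by
    obtain ⟨g, hg⟩ := IsCyclic.exists_ofOrder_eq_natCard (α := Kˣ)
    rw [Nat.card_units, Nat.card_eq_fintype_card, hq] at hg
    have hlt : e + 1 < 2 * (e * e) - 1 := by
      have : 2 * e ≤ e * e := Nat.mul_le_mul_right e he4
      omega
    refine ⟨(g : K), g.ne_zero, ?_, ?_⟩
    · intro h1
      have : g = 1 := Units.ext h1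
      rw [this, orderOf_one] at hg
      omega
    · intro h1
      have h2 : g ^ (e + 1) = 1 := Units.ext (by rw [Units.val_pow_eq_pow_val, h1, Units.val_one])
      have h3 := Nat.le_of_dvd (Nat.succ_pos e) (orderOf_dvd_of_pow_eq_one h2)
      omega
  have hh := hy_mem (K := K) e y
  have hy0' : y⁻¹ ≠ 0 := inv_ne_zero hy0
  have hk1 : y⁻¹ + 1 ≠ 0 := by
    intro h
    have h1 : y⁻¹ = 1 := by
      have := CharTwo.add_eq_zero.1 h
      exact this
    exact hy1 (inv_eq_one.1 h1)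
  have hk2 : y⁻¹ ^ (e + 1) + 1 ≠ 0 := by
    intro h
    have h1 : y⁻¹ ^ (e + 1) = 1 := CharTwo.add_eq_zero.1 h
    rw [inv_pow, inv_eq_one] at h1
    exact hy2 h1
  have hk3 : y ^ 2 + 1 ≠ 0 := by
    intro h
    have h1 : (y + 1) ^ 2 = 0 := by
      rw [CharTwo.add_sq, one_pow]
      exact h
    have h2 : y + 1 = 0 := by simpa using h1
    exact hy1 (CharTwo.add_eq_zero.1 h2)
  -- the positive words are commutators
  have hP : ∀ T : K, Pw e T ∈ ⁅twistedF4 K e, twistedF4 K e⁆ := by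
    intro T
    obtain ⟨s, hs⟩ : ∃ s : K, T = y ^ 2 * s + s := ⟨T / (y ^ 2 + 1), by field_simp⟩
    have e1 : Pw e T * Pw e s = hy e y * Pw e s * (hy e y)⁻¹ := by
      rw [Pw_mul e hadd]
      unfold Pw
      rw [hy_conj_P e y hy0, hs, add_assoc, CharTwo.add_self_eq_zero, add_zero, mul_pow,
        ← pow_mul, ← pow_mul, mul_comm 2 e]
    have e2 : Pw e T = ⁅hy e y, Pw e s⁆ := by
      rw [commutatorElement_def, ← e1, mul_inv_cancel_right]
    rw [e2]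
    exact Subgroup.commutator_mem_commutator hh (Pw_mem e s)
  have hB : ∀ T U : K, Bw e T U ∈ ⁅twistedF4 K e, twistedF4 K e⁆ := by
    intro T U
    obtain ⟨s, hs⟩ : ∃ s : K, T = y⁻¹ * s + s := by
      refine ⟨T / (y⁻¹ + 1), ?_⟩
      have h := (eq_div_iff hk1).1 (rfl : T / (y⁻¹ + 1) = T / (y⁻¹ + 1))
      linear_combination -h
    obtain ⟨v, hv⟩ : ∃ v : K, U + T ^ e * s = y⁻¹ ^ (e + 1) * v + v := by
      refine ⟨(U + T ^ e * s) / (y⁻¹ ^ (e + 1) + 1), ?_⟩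
      have h := (eq_div_iff hk2).1
        (rfl : (U + T ^ e * s) / (y⁻¹ ^ (e + 1) + 1) = (U + T ^ e * s) / (y⁻¹ ^ (e + 1) + 1))
      linear_combination -h
    have e1 : Bw e T U * Bw e s v = hy e y * Bw e s v * (hy e y)⁻¹ := by
      rw [Bw_mul e hadd hF]
      have a1 : T + s = y⁻¹ * s := by
        rw [hs, add_assoc, CharTwo.add_self_eq_zero, add_zero]
      have a2 : U + v + T ^ e * s = y⁻¹ ^ (e + 1) * v := by
        have : U + v + T ^ e * s = (U + T ^ e * s) + v := by ring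
        rw [this, hv, add_assoc, CharTwo.add_self_eq_zero, add_zero]
      rw [a1, a2]
      unfold Bw
      rw [hy_conj_B e y hy0]
      have b1 : (y⁻¹ * s) ^ e = (y ^ e)⁻¹ * s ^ e := by rw [mul_pow, inv_pow]
      have b3 : (y⁻¹ * s) ^ (e + 1) + y⁻¹ ^ (e + 1) * v =
          (y ^ e)⁻¹ * y⁻¹ * (s ^ (e + 1) + v) := by
        rw [mul_pow, pow_succ y⁻¹, inv_pow]
        ring
      have b4 : (y⁻¹ ^ (e + 1) * v) ^ (2 * e) = ((y ^ e) ^ 2)⁻¹ * y⁻¹ * v ^ (2 * e) := by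
        have c1 : y⁻¹ ^ (2 * e) = ((y ^ e) ^ 2)⁻¹ := by rw [inv_pow, mul_comm 2 e, pow_mul]
        rw [mul_pow, pow_succ, mul_pow, hF, c1]
        ring
      rw [b1, b3, b4]
    have e2 : Bw e T U = ⁅hy e y, Bw e s v⁆ := by
      rw [commutatorElement_def, ← e1, mul_inv_cancel_right]
    rw [e2]
    exact Subgroup.commutator_mem_commutator hh (Bw_mem e s v)
  have hCle : ⁅twistedF4 K e, twistedF4 K e⁆ ≤ twistedF4 K e := by
    rw [Subgroup.commutator_le]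
    intro a ha b hb
    rw [commutatorElement_def]
    exact Subgroup.mul_mem _ (Subgroup.mul_mem _ (Subgroup.mul_mem _ ha hb)
      (Subgroup.inv_mem _ ha)) (Subgroup.inv_mem _ hb)
  have hconj : ∀ n x : GL chevF4.Idx K, n ∈ twistedF4 K e →
      x ∈ ⁅twistedF4 K e, twistedF4 K e⁆ → n * x * n⁻¹ ∈ ⁅twistedF4 K e, twistedF4 K e⁆ := by
    intro n x hn hx
    have e1 : n * x * n⁻¹ = ⁅n, x⁆ * x := by
      rw [commutatorElement_def]
      group
    rw [e1]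
    exact Subgroup.mul_mem _ (Subgroup.commutator_mem_commutator hn (hCle hx)) hx
  apply gen_perfect chevF4 hF4
  rintro w (⟨t, rfl | rfl⟩ | ⟨t, u, rfl | rfl⟩)
  · exact hP t
  · have h := hconj _ _ (TwF4C.n1_mem (K := K) e) (hP t)
    rw [← Pn_eq] at h
    exact h
  · exact hB t u
  · have h := hconj _ _ (TwF4C.n2_mem (K := K) e he) (hB t u)
    rw [← Bn_eq] at h
    exact h

end Cfsg.Agent.Lib.Helper24.TwF4P
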