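import Mathlib
import Cfsg.Agent.Lib.Helper24.TwF4C
import Cfsg.Agent.Lib.Helper24.TwK
import Cfsg.Agent.Lib.Helper26.TwF4Fact

/-!
# The Weyl group of `²F₄(2^(2m+1))` is dihedral of order `16`

Every element of `N¹ = N ∩ ²F₄` permutes the root subgroups through a word `L` of fundamental
reflections; being fixed by the twisting endomorphism, its root permutation commutes with the
permutation `ρ` of the graph automorphism, and then it agrees on the fundamental roots with one of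
the `16` words in `n₁ = n_{p₁} n_{p₄}` and `n₂ = (n_{p₂} n_{p₃})²`.
-/

set_option autoImplicit false
set_option maxHeartbeats 400000

namespace Cfsg.Agent.Lib.Helper24.TwF4W

open Cfsg.Lie Matrix Cfsg.Agent.Lib.Helper24
open Cfsg.Agent.Lib.Helper25 (wPi wEta)
open Cfsg.Agent.Lib.Helper26.TF4

theorem f4_nroots : chevF4.nroots = 48 := by decide +kernel

theorem rho_vals : rho 33 = 24 ∧ rho 27 = 25 := by decide +kernel

open Cfsg.Agent.Lib.Helper25 in
/-- Root elements of distinct roots with non-zero parameter are distinct. -/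
theorem x_root_inj2 {F : Type*} [Field F] (D : ChevalleyDatum)
    (hD : D ∈ [chevG2, chevB2, chevD4, chevF4, chevE6, chevE7, chevE8]) (r s : ℕ)
    (hr : r < D.nroots) (hs : s < D.nroots) (c c' : F) (hc : c ≠ 0)
    (h : D.x F r c = D.x F s c') : r = s := by
  have hD' : D ∈ chevList := hD
  by_contra hne
  obtain ⟨i, hi, L, hL, hLr, -⟩ := orb_all D hD r hr
  obtain ⟨m, hmval, -⟩ := exists_nWordGL (F := F) D hD L hL
  have hp := simple_lt D hD' i hi
  have hpos := (upChk_all D hD i hi).1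
  have hLr' : ∀ j ∈ L.reverse, j < D.rank := fun j hj => hL j (List.mem_reverse.1 hj)
  have hs'lt : wPi D L.reverse s < D.nroots := wPi_lt D hD L.reverse hLr' s hs
  have hs's : wPi D L (wPi D L.reverse s) = s := wPi_reverse_cancel D hD L hL s hs
  have hs'ne : wPi D L.reverse s ≠ D.simple i := by
    intro e
    apply hne
    rw [← hLr, ← hs's, e]
  obtain ⟨y, hy⟩ := exists_xGL (F := F) D hD (D.simple i) hp
    (((wEta D L (D.simple i) : ℤ) : F) * c)
  have h1 : (m : Matrix D.Idx D.Idx F) *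
      D.x F (D.simple i) (((wEta D L (D.simple i) : ℤ) : F) * c) =
      D.x F r c * (m : Matrix D.Idx D.Idx F) := by
    rw [hmval, nWordMat_conj D hD L hL _ hp, hLr, ← mul_assoc,
      sign_sq (F := F) _ (wEta_cases D L (D.simple i)), one_mul]
  obtain ⟨y', hy'⟩ := exists_xGL (F := F) D hD (wPi D L.reverse s) hs'lt
    (((wEta D L (wPi D L.reverse s) : ℤ) : F) * c')
  have h2 : (m : Matrix D.Idx D.Idx F) *
      D.x F (wPi D L.reverse s) (((wEta D L (wPi D L.reverse s) : ℤ) : F) * c') =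
      D.x F s c' * (m : Matrix D.Idx D.Idx F) := by
    rw [hmval, nWordMat_conj D hD L hL _ hs'lt, hs's, ← mul_assoc,
      sign_sq (F := F) _ (wEta_cases D L (wPi D L.reverse s)), one_mul]
  have hyy' : y = y' := by
    have e1 : m * y = m * y' := by
      apply Units.ext
      rw [Units.val_mul, Units.val_mul, hy, hy', h1, h2, h]
    exact mul_left_cancel e1
  have hy1 : y ≠ 1 := by
    intro e
    have e2 : D.x F (D.simple i) (((wEta D L (D.simple i) : ℤ) : F) * c) = 1 := by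
      rw [← hy, e, Units.val_one]
    refine x_ne_one D hD _ hp _ ?_ e2
    apply mul_ne_zero _ hc
    rcases wEta_cases D L (D.simple i) with h' | h' <;> rw [h'] <;> simp
  apply hy1
  have hyX : y ∈ D.rootSubgroup F (D.simple i) := Subgroup.subset_closure ⟨_, hy⟩
  rcases (sign_facts D hD _ hs'lt).1 with hp' | hn'
  · have hyU : y ∈ Subgroup.closure (upSet F D (D.simple i)) := by
      rw [hyy']
      exact Subgroup.subset_closure ⟨wPi D L.reverse s, _, hp', hs'ne, hy'⟩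
    have hmem : y ∈ Subgroup.closure (upSet F D (D.simple i)) ⊓ D.rootSubgroup F (D.simple i) :=
      Subgroup.mem_inf.2 ⟨hyU, hyX⟩
    rw [up_inf_rootSubgroup D hD i hi, Subgroup.mem_bot] at hmem
    exact hmem
  · have hyV : y ∈ D.negUnipotent F := by
      rw [hyy']
      exact Subgroup.subset_closure ⟨wPi D L.reverse s, _, hn', hy'⟩
    have hyB : y ∈ D.borelSubgroup F :=
      Subgroup.mem_sup_left (Subgroup.subset_closure ⟨D.simple i, _, hpos, hy⟩)
    have hmem : y ∈ D.borelSubgroup F ⊓ D.negUnipotent F := Subgroup.mem_inf.2 ⟨hyB, hyV⟩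
    rw [borel_inf_negUnipotent D hD', Subgroup.mem_bot] at hmem
    exact hmem

variable {K : Type*} [Field K]

/-! ### elements acting on the root subgroups through a word -/

/-- `n` acts on the root subgroups through the word `L`. -/
def Act (n : GL chevF4.Idx K) (L : List ℕ) : Prop :=
  ∀ s < chevF4.nroots, ∃ c : K, c ≠ 0 ∧ ∀ t : K,
    (n : Matrix chevF4.Idx chevF4.Idx K) * chevF4.x K s t =
      chevF4.x K (wPi chevF4 L s) (c * t) * (n : Matrix chevF4.Idx chevF4.Idx K)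

theorem act_mul {a b : GL chevF4.Idx K} {A B : List ℕ} (ha : Act a A) (hb : Act b B)
    (hB : ∀ i ∈ B, i < chevF4.rank) : Act (a * b) (A ++ B) := by
  intro s hs
  obtain ⟨c, hc, h1⟩ := hb s hs
  obtain ⟨c', hc', h2⟩ := ha (wPi chevF4 B s)
    (Cfsg.Agent.Lib.Helper25.wPi_lt chevF4 hF4 B hB s hs)
  refine ⟨c' * c, mul_ne_zero hc' hc, fun t => ?_⟩
  rw [Units.val_mul, Matrix.mul_assoc, h1 t, ← Matrix.mul_assoc, h2 (c * t), Matrix.mul_assoc,
    Cfsg.Agent.Lib.Helper25.wPi_append, mul_assoc]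

theorem act_inv_nWord (P : List ℕ) (hP : ∀ i ∈ P, i < chevF4.rank) :
    Act ((nWordGL (F := K) chevF4 hF4 P)⁻¹) P.reverse := by
  induction P with
  | nil =>
    have e : (nWordGL (F := K) chevF4 hF4 [])⁻¹ = 1 := by
      unfold nWordGL
      simp
    rw [e]
    intro s hs
    refine ⟨1, one_ne_zero, fun t => ?_⟩
    rw [Units.val_one, Matrix.one_mul, Matrix.mul_one, one_mul]
    rfl
  | cons i P ih =>
    have hi : i < chevF4.rank := hP i (by simp)
    have ih' := ih (fun j hj => hP j (by simp [hj]))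
    have e : (nWordGL (F := K) chevF4 hF4 (i :: P))⁻¹ =
        1 * (nWordGL chevF4 hF4 P)⁻¹ * (nGL chevF4 hF4 (chevF4.simple i))⁻¹ := by
      have : nWordGL (F := K) chevF4 hF4 (i :: P) =
          nGL chevF4 hF4 (chevF4.simple i) * nWordGL chevF4 hF4 P := by
        unfold nWordGL
        rw [List.map_cons, List.prod_cons]
      rw [this, _root_.mul_inv_rev, one_mul]
    rw [e, List.reverse_cons]
    have ih'' : Act (1 * (nWordGL (F := K) chevF4 hF4 P)⁻¹) P.reverse := by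
      rw [one_mul]
      exact ih'
    exact Cfsg.Agent.Lib.Helper25.act_snoc chevF4 hF4 P.reverse i hi
      (nGL chevF4 hF4 (chevF4.simple i)) (nGL_val chevF4 hF4 (chevF4.simple i)) _ ih''

/-- the root permutation of a `σ`-fixed element of `N` commutes with `ρ` -/
theorem act_rho {e : ℕ} {σ : ↥(chevF4.group K) →* ↥(chevF4.group K)} (hσ : IsSig K e σ)
    (n : GL chevF4.Idx K) (hn : n ∈ sigFix σ) (L : List ℕ) (hL : ∀ i ∈ L, i < chevF4.rank)
    (hact : Act n L) (r : ℕ) (hr : r < chevF4.nroots) :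
    wPi chevF4 L (rho r) = rho (wPi chevF4 L r) := by
  obtain ⟨hg, hfix⟩ := (mem_sigFix σ n).1 hn
  have hwr := Cfsg.Agent.Lib.Helper25.wPi_lt chevF4 hF4 L hL r hr
  have hρr := rho_tab.2.1 r hr
  obtain ⟨c, hc, ha⟩ := hact r hr
  obtain ⟨c', hc', ha'⟩ := hact (rho r) hρr
  have k1 : (⟨n, hg⟩ : ↥(chevF4.group K)) * xG chevF4 hF4 r 1 =
      xG chevF4 hF4 (wPi chevF4 L r) (c * 1) * ⟨n, hg⟩ := by
    apply Subtype.ext
    show n * xGL chevF4 hF4 r 1 = xGL chevF4 hF4 (wPi chevF4 L r) (c * 1) * n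
    apply Units.ext
    rw [Units.val_mul, Units.val_mul, xGL_val, xGL_val]
    exact ha 1
  have k2 := congrArg σ k1
  rw [map_mul, map_mul, hfix, hσ r hr, hσ _ hwr] at k2
  have k3 : n * xGL chevF4 hF4 (rho r) (1 ^ pw e r) =
      xGL chevF4 hF4 (rho (wPi chevF4 L r)) ((c * 1) ^ pw e (wPi chevF4 L r)) * n :=
    congrArg Subtype.val k2
  have k4 : n * xGL chevF4 hF4 (rho r) (1 ^ pw e r) =
      xGL chevF4 hF4 (wPi chevF4 L (rho r)) (c' * 1 ^ pw e r) * n := by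
    apply Units.ext
    rw [Units.val_mul, Units.val_mul, xGL_val, xGL_val]
    exact ha' _
  have k5 : xGL chevF4 hF4 (rho (wPi chevF4 L r)) ((c * 1) ^ pw e (wPi chevF4 L r)) =
      xGL chevF4 hF4 (wPi chevF4 L (rho r)) (c' * 1 ^ pw e r) :=
    mul_right_cancel (k3.symm.trans k4)
  have k6 : chevF4.x K (rho (wPi chevF4 L r)) ((c * 1) ^ pw e (wPi chevF4 L r)) =
      chevF4.x K (wPi chevF4 L (rho r)) (c' * 1 ^ pw e r) := by
    rw [← xGL_val chevF4 hF4, ← xGL_val chevF4 hF4, k5]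
  exact (x_root_inj2 chevF4 hF4 _ _ (rho_tab.2.1 _ hwr)
    (Cfsg.Agent.Lib.Helper25.wPi_lt chevF4 hF4 L hL _ hρr) _ _
    (pow_ne_zero _ (mul_ne_zero hc one_ne_zero)) k6).symm

/-! ### the pairing is invariant -/

set_option maxRecDepth 1000000 in
set_option maxHeartbeats 4000000 in
theorem refl_W : ∀ i < 4, ∀ a < 48, ∀ b < 48,
    W chevF4 (chevF4.reflectRoot i a) (chevF4.reflectRoot i b) = W chevF4 a b := by decide +kernel

theorem wPi_W (L : List ℕ) (hL : ∀ i ∈ L, i < chevF4.rank) (a b : ℕ) (ha : a < chevF4.nroots)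
    (hb : b < chevF4.nroots) : W chevF4 (wPi chevF4 L a) (wPi chevF4 L b) = W chevF4 a b := by
  induction L with
  | nil => rfl
  | cons i L ih =>
    have hL' : ∀ j ∈ L, j < chevF4.rank := fun j hj => hL j (List.mem_cons_of_mem _ hj)
    have hi : i < 4 := by
      have := hL i List.mem_cons_self
      rwa [TwF4C.f4_rank] at this
    have h1 := Cfsg.Agent.Lib.Helper25.wPi_lt chevF4 hF4 L hL' a ha
    have h2 := Cfsg.Agent.Lib.Helper25.wPi_lt chevF4 hF4 L hL' b hb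
    rw [f4_nroots] at h1 h2
    rw [Cfsg.Agent.Lib.Helper25.wPi_cons, Cfsg.Agent.Lib.Helper25.wPi_cons,
      refl_W i hi _ h1 _ h2, ih hL']

/-! ### the sixteen words -/

/-- the word of `(n₁ n₂)^a` -/
def rotW (a : ℕ) : List ℕ := (List.replicate a [0, 3, 1, 2, 1, 2]).flatten

/-- the words of the sixteen elements of the Weyl group -/
def wd : DihedralGroup 8 → List ℕ
  | .r i => rotW i.val
  | .sr i => [0, 3] ++ rotW i.val

set_option maxRecDepth 1000000 in
set_option maxHeartbeats 4000000 in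
set_option synthInstance.maxSize 4000 in
set_option synthInstance.maxHeartbeats 400000 in
theorem lemB : ∀ r < 48, ∀ s < 48,
    (W chevF4 r s = W chevF4 33 27 ∧ W chevF4 s r = W chevF4 27 33 ∧
     W chevF4 r (rho s) = W chevF4 33 25 ∧ W chevF4 (rho s) r = W chevF4 25 33 ∧
     W chevF4 r (rho r) = W chevF4 33 24 ∧ W chevF4 (rho r) r = W chevF4 24 33 ∧
     W chevF4 s (rho s) = W chevF4 27 25 ∧ W chevF4 (rho s) s = W chevF4 25 27 ∧
     W chevF4 s (rho r) = W chevF4 27 24 ∧ W chevF4 (rho r) s = W chevF4 24 27 ∧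
     W chevF4 (rho s) (rho r) = W chevF4 25 24 ∧ W chevF4 (rho r) (rho s) = W chevF4 24 25) →
    ∃ k : DihedralGroup 8, wPi chevF4 (wd k) 33 = r ∧ wPi chevF4 (wd k) 27 = s ∧
      wPi chevF4 (wd k) 25 = rho s ∧ wPi chevF4 (wd k) 24 = rho r := by decide +kernel

set_option maxRecDepth 1000000 in
set_option maxHeartbeats 4000000 in
theorem wd_inj : ∀ k j : DihedralGroup 8, wPi chevF4 (wd k) 33 = wPi chevF4 (wd j) 33 →
    wPi chevF4 (wd k) 27 = wPi chevF4 (wd j) 27 → k = j := by decide +kernel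

set_option maxRecDepth 1000000 in
theorem wd_lt : ∀ k : DihedralGroup 8, ∀ i ∈ wd k, i < 4 := by decide +kernel

theorem wd_one : wd 1 = [] := by decide +kernel

/-- the root permutations of the words `rotW a` -/
def tabR : List (List ℕ) := [
  [0, 1, 2, 3, 4, 5, 6, 7, 8, 9, 10, 11, 12, 13, 14, 15, 16, 17, 18, 19, 20, 21, 22, 23, 24, 25, 26,
    27, 28, 29, 30, 31, 32, 33, 34, 35, 36, 37, 38, 39, 40, 41, 42, 43, 44, 45, 46, 47],
  [1, 17, 15, 7, 2, 0, 16, 19, 10, 8, 33, 3, 20, 18, 9, 24, 22, 42, 12, 36, 34, 6, 26, 4, 43, 21,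
    41, 13, 11, 35, 5, 25, 23, 38, 29, 27, 44, 14, 39, 37, 28, 31, 47, 45, 40, 32, 30, 46],
  [17, 42, 24, 19, 15, 1, 22, 36, 33, 10, 38, 7, 34, 12, 8, 43, 26, 47, 20, 44, 29, 16, 41, 2, 45,
    6, 31, 18, 3, 27, 0, 21, 4, 39, 35, 13, 40, 9, 37, 14, 11, 25, 46, 32, 28, 23, 5, 30],
  [42, 47, 43, 36, 24, 17, 26, 44, 38, 33, 39, 19, 29, 20, 10, 45, 41, 46, 34, 40, 35, 22, 31, 15,
    32, 16, 25, 12, 7, 13, 1, 6, 2, 37, 27, 18, 28, 8, 14, 9, 3, 21, 30, 23, 11, 4, 0, 5],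
  [47, 46, 45, 44, 43, 42, 41, 40, 39, 38, 37, 36, 35, 34, 33, 32, 31, 30, 29, 28, 27, 26, 25, 24,
    23, 22, 21, 20, 19, 18, 17, 16, 15, 14, 13, 12, 11, 10, 9, 8, 7, 6, 5, 4, 3, 2, 1, 0],
  [46, 30, 32, 40, 45, 47, 31, 28, 37, 39, 14, 44, 27, 29, 38, 23, 25, 5, 35, 11, 13, 41, 21, 43, 4,
    26, 6, 34, 36, 12, 42, 22, 24, 9, 18, 20, 3, 33, 8, 10, 19, 16, 0, 2, 7, 15, 17, 1],
  [30, 5, 23, 28, 32, 46, 25, 11, 14, 37, 9, 40, 13, 35, 39, 4, 21, 0, 27, 3, 18, 31, 6, 45, 2, 41,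
    16, 29, 44, 20, 47, 26, 43, 8, 12, 34, 7, 38, 10, 33, 36, 22, 1, 15, 19, 24, 42, 17],
  [5, 0, 4, 11, 23, 30, 21, 3, 9, 14, 8, 28, 18, 27, 37, 2, 6, 1, 13, 7, 12, 25, 16, 32, 15, 31, 22,
    35, 40, 34, 46, 41, 45, 10, 20, 29, 19, 39, 33, 38, 44, 26, 17, 24, 36, 43, 47, 42]]

/-- the root permutations of the words `[0, 3] ++ rotW a` -/
def tabS : List (List ℕ) := [
  [1, 0, 2, 7, 15, 17, 16, 3, 8, 10, 9, 19, 18, 20, 33, 4, 6, 5, 12, 11, 13, 22, 21, 24, 23, 26, 25,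
    34, 36, 35, 42, 41, 43, 14, 27, 29, 28, 38, 37, 39, 44, 31, 30, 32, 40, 45, 47, 46],
  [0, 5, 4, 3, 2, 1, 6, 11, 9, 8, 14, 7, 13, 12, 10, 23, 21, 30, 18, 28, 27, 16, 25, 15, 32, 22, 31,
    20, 19, 29, 17, 26, 24, 37, 35, 34, 40, 33, 39, 38, 36, 41, 46, 45, 44, 43, 42, 47],
  [5, 30, 23, 11, 4, 0, 21, 28, 14, 9, 37, 3, 27, 18, 8, 32, 25, 46, 13, 40, 35, 6, 31, 2, 45, 16,
    41, 12, 7, 34, 1, 22, 15, 39, 29, 20, 44, 10, 38, 33, 19, 26, 47, 43, 36, 24, 17, 42],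
  [30, 46, 32, 28, 23, 5, 25, 40, 37, 14, 39, 11, 35, 13, 9, 45, 31, 47, 27, 44, 29, 21, 41, 4, 43,
    6, 26, 18, 3, 20, 0, 16, 2, 38, 34, 12, 36, 8, 33, 10, 7, 22, 42, 24, 19, 15, 1, 17],
  [46, 47, 45, 40, 32, 30, 31, 44, 39, 37, 38, 28, 29, 27, 14, 43, 41, 42, 35, 36, 34, 25, 26, 23,
    24, 21, 22, 13, 11, 12, 5, 6, 4, 33, 20, 18, 19, 9, 10, 8, 3, 16, 17, 15, 7, 2, 0, 1],
  [47, 42, 43, 44, 45, 46, 41, 36, 38, 39, 33, 40, 34, 35, 37, 24, 26, 17, 29, 19, 20, 31, 22, 32,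
    15, 25, 16, 27, 28, 18, 30, 21, 23, 10, 12, 13, 7, 14, 8, 9, 11, 6, 1, 2, 3, 4, 5, 0],
  [42, 17, 24, 36, 43, 47, 26, 19, 33, 38, 10, 44, 20, 29, 39, 15, 22, 1, 34, 7, 12, 41, 16, 45, 2,
    31, 6, 35, 40, 13, 46, 25, 32, 8, 18, 27, 3, 37, 9, 14, 28, 21, 0, 4, 11, 23, 30, 5],
  [17, 1, 15, 19, 24, 42, 22, 7, 10, 33, 8, 36, 12, 34, 38, 2, 16, 0, 20, 3, 18, 26, 6, 43, 4, 41,
    21, 29, 44, 27, 47, 31, 45, 9, 13, 35, 11, 39, 14, 37, 40, 25, 5, 23, 28, 32, 46, 30]]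

/-- the root permutation of `wd k`, tabulated -/
def tb : DihedralGroup 8 → List ℕ
  | .r i => tabR.getD i.val []
  | .sr i => tabS.getD i.val []

set_option maxRecDepth 1000000 in
set_option maxHeartbeats 4000000 in
theorem tb_eq : ∀ k : DihedralGroup 8, ∀ r < 48, wPi chevF4 (wd k) r = (tb k).getD r 0 := by
  decide +kernel

set_option maxRecDepth 1000000 in
set_option maxHeartbeats 4000000 in
theorem tb_mul : ∀ k j : DihedralGroup 8, ∀ r < 48,
    (tb k).getD ((tb j).getD r 0) 0 = (tb (k * j)).getD r 0 := by decide +kernel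

theorem wd_lt' (k : DihedralGroup 8) : ∀ i ∈ wd k, i < chevF4.rank := by
  rw [TwF4C.f4_rank]
  exact wd_lt k

theorem wd_mul (k j : DihedralGroup 8) (r : ℕ) (hr : r < chevF4.nroots) :
    wPi chevF4 (wd k ++ wd j) r = wPi chevF4 (wd (k * j)) r := by
  have h1 := Cfsg.Agent.Lib.Helper25.wPi_lt chevF4 hF4 (wd j) (wd_lt' j) r hr
  rw [f4_nroots] at hr h1
  rw [Cfsg.Agent.Lib.Helper25.wPi_append, tb_eq k _ h1, tb_eq j r hr, tb_eq (k * j) r hr,
    tb_mul k j r hr]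

/-! ### the words lie in `²F₄` -/

theorem rot_mem [CharP K 2] (e : ℕ) (he : e ≠ 0) (a : ℕ) :
    nWordGL chevF4 hF4 (rotW a) ∈ twistedF4 K e := by
  induction a with
  | zero => exact Subgroup.one_mem _
  | succ a ih =>
    have e1 : rotW (a + 1) = [0, 3] ++ ([1, 2, 1, 2] ++ rotW a) := by
      unfold rotW
      rw [List.replicate_succ, List.flatten_cons]
      rfl
    rw [e1, nWordGL_append, nWordGL_append]
    exact Subgroup.mul_mem _ (TwF4C.n1_mem e) (Subgroup.mul_mem _ (TwF4C.n2_mem e he) ih)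

theorem wd_mem [CharP K 2] (e : ℕ) (he : e ≠ 0) (k : DihedralGroup 8) :
    nWordGL chevF4 hF4 (wd k) ∈ twistedF4 K e := by
  cases k with
  | r i => exact rot_mem e he _
  | sr i =>
    show nWordGL chevF4 hF4 ([0, 3] ++ rotW i.val) ∈ twistedF4 K e
    rw [nWordGL_append]
    exact Subgroup.mul_mem _ (TwF4C.n1_mem e) (rot_mem e he _)

/-! ### the Weyl group -/

/-- `N¹/H¹` is dihedral of order `16`. -/
theorem twistedF4_weyl [Fintype K] {m : ℕ} (hK : Fintype.card K = 2 ^ (2 * m + 1)) :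
    ∃ φ : ↥(chevF4.monomialSubgroup K ⊓ twistedF4 K (2 ^ m)) →* DihedralGroup 8,
      Function.Surjective φ ∧
      φ.ker = (chevF4.diagonalSubgroup K ⊓ twistedF4 K (2 ^ m)).subgroupOf
        (chevF4.monomialSubgroup K ⊓ twistedF4 K (2 ^ m)) := by
  classical
  have : CharP K 2 := Cfsg.Agent.Lib.Helper26.TF4.charP_two K (2 * m + 1) hK
  obtain ⟨hF, hadd⟩ := field_facts K m hK
  have he : 2 ^ m ≠ 0 := by positivity
  obtain ⟨σ, hσ⟩ := exists_sig K m hK
  have hle := tw_le_sigFix hσ hF hadd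
  generalize 2 ^ m = e at hF hadd he hσ hle ⊢
  have hnN : ∀ k : DihedralGroup 8, nWordGL chevF4 hF4 (wd k) ∈ chevF4.monomialSubgroup K :=
    fun k => nWordGL_mem_monomial chevF4 hF4 (wd k) (wd_lt' k)
  have hnorm : ∀ a h : GL chevF4.Idx K, a ∈ chevF4.monomialSubgroup K →
      h ∈ chevF4.diagonalSubgroup K → a⁻¹ * h * a ∈ chevF4.diagonalSubgroup K := by
    intro a h ha hh
    have hn := monomial_le_normalizer_diagonal chevF4 hF4 (Subgroup.inv_mem _ ha)
    have h1 := ((Subgroup.mem_set_normalizer_iff.1 hn) h).1 hh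
    rwa [inv_inv] at h1
  -- existence
  have hex : ∀ n : GL chevF4.Idx K, n ∈ chevF4.monomialSubgroup K → n ∈ twistedF4 K e →
      ∃ k : DihedralGroup 8, (nWordGL chevF4 hF4 (wd k))⁻¹ * n ∈ chevF4.diagonalSubgroup K := by
    intro n hnN' hnG
    obtain ⟨L, hL, hact⟩ := Cfsg.Agent.Lib.Helper25.monomial_act chevF4 hF4
      (Cfsg.Agent.Lib.Helper25.orb_all chevF4 hF4) n hnN'
    obtain ⟨l33, l27, l25, l24, -, -⟩ := TwF4C.f4_lt
    have c1 := act_rho hσ n (hle hnG) L hL hact 33 l33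
    have c2 := act_rho hσ n (hle hnG) L hL hact 27 l27
    rw [rho_vals.1] at c1
    rw [rho_vals.2] at c2
    have hr := Cfsg.Agent.Lib.Helper25.wPi_lt chevF4 hF4 L hL 33 l33
    have hs := Cfsg.Agent.Lib.Helper25.wPi_lt chevF4 hF4 L hL 27 l27
    rw [f4_nroots] at hr hs
    obtain ⟨k, k1, k2, k3, k4⟩ := lemB _ hr _ hs (by
      rw [← c1, ← c2]
      exact ⟨wPi_W L hL _ _ l33 l27, wPi_W L hL _ _ l27 l33, wPi_W L hL _ _ l33 l25,
        wPi_W L hL _ _ l25 l33, wPi_W L hL _ _ l33 l24, wPi_W L hL _ _ l24 l33,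
        wPi_W L hL _ _ l27 l25, wPi_W L hL _ _ l25 l27, wPi_W L hL _ _ l27 l24,
        wPi_W L hL _ _ l24 l27, wPi_W L hL _ _ l25 l24, wPi_W L hL _ _ l24 l25⟩)
    rw [← c2] at k3
    rw [← c1] at k4
    refine ⟨k, ?_⟩
    have hrev : ∀ i ∈ (wd k).reverse, i < chevF4.rank :=
      fun i hi => wd_lt' k i (List.mem_reverse.1 hi)
    have hact' : Act ((nWordGL chevF4 hF4 (wd k))⁻¹ * n) ((wd k).reverse ++ L) :=
      act_mul (act_inv_nWord (wd k) (wd_lt' k)) hact hL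
    have hcancel : ∀ s < chevF4.nroots, wPi chevF4 (wd k).reverse (wPi chevF4 (wd k) s) = s := by
      intro s hs
      have := Cfsg.Agent.Lib.Helper25.wPi_reverse_cancel chevF4 hF4 (wd k).reverse hrev s hs
      rwa [List.reverse_reverse] at this
    refine mono_mem_diag_of_pos chevF4 hF4 _
      (Subgroup.mul_mem _ (Subgroup.inv_mem _ (hnN k)) hnN') ((wd k).reverse ++ L) ?_ hact' ?_
    · intro i hi
      rcases List.mem_append.1 hi with h | h
      · exact hrev i h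
      · exact hL i h
    · intro i hi
      have hfix : wPi chevF4 ((wd k).reverse ++ L) (chevF4.simple i) = chevF4.simple i := by
        rw [Cfsg.Agent.Lib.Helper25.wPi_append]
        rw [TwF4C.f4_rank] at hi
        interval_cases i
        · rw [TwF4C.f4_simple.1, ← k1, hcancel 33 l33]
        · rw [TwF4C.f4_simple.2.1, ← k2, hcancel 27 l27]
        · rw [TwF4C.f4_simple.2.2.1, ← k3, hcancel 25 l25]
        · rw [TwF4C.f4_simple.2.2.2, ← k4, hcancel 24 l24]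
      rw [hfix]
      exact (Cfsg.Agent.Lib.Helper25.upChk_all chevF4 hF4 i hi).1
  -- uniqueness
  have huniq : ∀ (n : GL chevF4.Idx K) (k j : DihedralGroup 8),
      (nWordGL chevF4 hF4 (wd k))⁻¹ * n ∈ chevF4.diagonalSubgroup K →
      (nWordGL chevF4 hF4 (wd j))⁻¹ * n ∈ chevF4.diagonalSubgroup K → k = j := by
    intro n k j h1 h2
    have h3 : (nWordGL (F := K) chevF4 hF4 (wd k))⁻¹ * nWordGL chevF4 hF4 (wd j) ∈
        chevF4.diagonalSubgroup K := by
      have e1 : (nWordGL (F := K) chevF4 hF4 (wd k))⁻¹ * nWordGL chevF4 hF4 (wd j) =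
          ((nWordGL chevF4 hF4 (wd k))⁻¹ * n) * ((nWordGL chevF4 hF4 (wd j))⁻¹ * n)⁻¹ := by group
      rw [e1]
      exact Subgroup.mul_mem _ h1 (Subgroup.inv_mem _ h2)
    have h4 := wPi_eq_of_inv_mul_mem_diag chevF4 hF4 (wd k) (wd j) (wd_lt' k) (wd_lt' j) h3
    exact wd_inj k j (h4 33 TwF4C.f4_lt.1) (h4 27 TwF4C.f4_lt.2.1)
  -- multiplicativity
  have hmulP : ∀ (n n' : GL chevF4.Idx K) (k j : DihedralGroup 8),
      (nWordGL chevF4 hF4 (wd k))⁻¹ * n ∈ chevF4.diagonalSubgroup K →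
      (nWordGL chevF4 hF4 (wd j))⁻¹ * n' ∈ chevF4.diagonalSubgroup K →
      (nWordGL chevF4 hF4 (wd (k * j)))⁻¹ * (n * n') ∈ chevF4.diagonalSubgroup K := by
    intro n n' k j h1 h2
    have h3 := nWordGL_mul_inv_mem_diag (F := K) chevF4 hF4 (wd k ++ wd j) (wd (k * j))
      (by
        intro i hi
        rcases List.mem_append.1 hi with h | h
        · exact wd_lt' k i h
        · exact wd_lt' j i h) (wd_lt' (k * j)) (fun r hr => wd_mul k j r hr)
    rw [nWordGL_append] at h3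
    have h4 := hnorm _ _ (hnN (k * j)) h3
    have h5 := hnorm _ _ (hnN j) h1
    have e1 : (nWordGL (F := K) chevF4 hF4 (wd (k * j)))⁻¹ * (n * n') =
        ((nWordGL chevF4 hF4 (wd (k * j)))⁻¹ * (nWordGL chevF4 hF4 (wd k) *
          nWordGL chevF4 hF4 (wd j) * (nWordGL chevF4 hF4 (wd (k * j)))⁻¹) *
            nWordGL chevF4 hF4 (wd (k * j))) *
        ((nWordGL chevF4 hF4 (wd j))⁻¹ * ((nWordGL chevF4 hF4 (wd k))⁻¹ * n) *
          nWordGL chevF4 hF4 (wd j)) * ((nWordGL chevF4 hF4 (wd j))⁻¹ * n') := by group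
    rw [e1]
    exact Subgroup.mul_mem _ (Subgroup.mul_mem _ h4 h5) h2
  choose f hf using (fun n : ↥(chevF4.monomialSubgroup K ⊓ twistedF4 K e) =>
    hex (n : GL chevF4.Idx K) (Subgroup.mem_inf.1 n.2).1 (Subgroup.mem_inf.1 n.2).2)
  let φ : ↥(chevF4.monomialSubgroup K ⊓ twistedF4 K e) →* DihedralGroup 8 :=
    MonoidHom.mk' f (fun a b => huniq _ _ _ (hf (a * b)) (by
      rw [Subgroup.coe_mul]
      exact hmulP _ _ _ _ (hf a) (hf b)))
  refine ⟨φ, ?_, ?_⟩
  · intro k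
    refine ⟨⟨nWordGL chevF4 hF4 (wd k), Subgroup.mem_inf.2 ⟨hnN k, wd_mem e he k⟩⟩, ?_⟩
    refine huniq _ _ _ (hf _) ?_
    rw [inv_mul_cancel]
    exact Subgroup.one_mem _
  · ext n
    rw [MonoidHom.mem_ker, Subgroup.mem_subgroupOf, Subgroup.mem_inf]
    have h1 : (nWordGL (F := K) chevF4 hF4 (wd 1))⁻¹ = 1 := by
      rw [wd_one]
      unfold nWordGL
      simp
    constructor
    · intro hn
      have h2 := hf n
      have h3 : f n = 1 := hn
      rw [h3, h1, one_mul] at h2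
      exact ⟨h2, (Subgroup.mem_inf.1 n.2).2⟩
    · intro hn
      refine huniq _ _ _ (hf n) ?_
      rw [h1, one_mul]
      exact hn.1

end Cfsg.Agent.Lib.Helper24.TwF4W
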