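import Mathlib
import Cfsg.Agent.Lib.Helper24.TwF4W
import Cfsg.Agent.Lib.Helper24.TwF4P
import Cfsg.Agent.Lib.Helper24.RkSigB
import Cfsg.Agent.Lib.Helper8.BN
import Cfsg.Agent.S0309
import Cfsg.Agent.S0319

/-!
# The `(B, N)`-pair of `²F₄(2^(2m+1))`

An element of `²F₄` is fixed by the twisting endomorphism, so the factors of its Bruhat normal form
are fixed; `U ∩ Fix σ = U ∩ ²F₄` by the orders, and a fixed element of `N` is one of the sixteen
words times an element of `H`.  The double coset condition follows from the one of `F₄(K)`.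
-/

set_option autoImplicit false
set_option maxHeartbeats 400000

namespace Cfsg.Agent.Lib.Helper24.TwF4BN

open Cfsg.Lie Matrix Cfsg.Agent.Lib.Helper24
open Cfsg.Agent.Lib.Helper25 (wPi wEta chevBN)
open Cfsg.Agent.Lib.Helper26.TF4
open Cfsg.Agent.Lib.Helper24.TwF4W

/-! ### checks -/

set_option maxRecDepth 1000000 in
theorem sq_chk : (∀ r < 48, wPi chevF4 [0, 3, 0, 3] r = r) ∧
    (∀ r < 48, wPi chevF4 [1, 2, 1, 2, 1, 2, 1, 2] r = r) := by decide +kernel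

theorem ne_chk : wPi chevF4 [0, 3] 33 ≠ wPi chevF4 [1, 2, 1, 2] 33 ∧
    wPi chevF4 [0, 3, 1, 2, 1, 2] 33 ≠ wPi chevF4 [1, 2, 1, 2, 0, 3] 33 := by decide +kernel

set_option maxRecDepth 1000000 in
set_option maxHeartbeats 4000000 in
theorem sub1 : ∀ j k : DihedralGroup 8, ∀ L' ∈ [0, 3].sublists,
    (∀ r ∈ [33, 27, 25, 24], wPi chevF4 L' ((tb j).getD r 0) = (tb k).getD r 0) →
    k = j ∨ k = DihedralGroup.sr 0 * j := by decide +kernel

set_option maxRecDepth 1000000 in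
set_option maxHeartbeats 4000000 in
theorem sub2 : ∀ j k : DihedralGroup 8, ∀ L' ∈ [1, 2, 1, 2].sublists,
    (∀ r ∈ [33, 27, 25, 24], wPi chevF4 L' ((tb j).getD r 0) = (tb k).getD r 0) →
    k = j ∨ k = DihedralGroup.sr 1 * j := by decide +kernel

set_option maxRecDepth 1000000 in
set_option maxHeartbeats 4000000 in
theorem mulL : (∀ j : DihedralGroup 8, ∀ r < 48,
      wPi chevF4 [0, 3] ((tb j).getD r 0) = (tb (DihedralGroup.sr 0 * j)).getD r 0) ∧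
    (∀ j : DihedralGroup 8, ∀ r < 48,
      wPi chevF4 [1, 2, 1, 2] ((tb j).getD r 0) = (tb (DihedralGroup.sr 1 * j)).getD r 0) := by
  decide +kernel

theorem neg_chk : chevF4.IsNegRoot 14 ∧ chevF4.IsNegRoot 23 ∧ chevF4.IsNegRoot 20 ∧
    chevF4.IsNegRoot 22 ∧ chevF4.IsNegRoot 19 ∧ chevF4.IsNegRoot 17 := by decide +kernel

variable {K : Type*} [Field K]

/-! ### fixed elements of `N` -/

/-- a `σ`-fixed element of `N` is one of the sixteen words times an element of `H` -/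
theorem N1_word {e : ℕ} {σ : ↥(chevF4.group K) →* ↥(chevF4.group K)} (hσ : IsSig K e σ)
    (n : GL chevF4.Idx K) (hnN : n ∈ chevF4.monomialSubgroup K) (hnF : n ∈ sigFix σ) :
    ∃ k : DihedralGroup 8, (nWordGL chevF4 hF4 (wd k))⁻¹ * n ∈ chevF4.diagonalSubgroup K := by
  obtain ⟨L, hL, hact⟩ := Cfsg.Agent.Lib.Helper25.monomial_act chevF4 hF4
    (Cfsg.Agent.Lib.Helper25.orb_all chevF4 hF4) n hnN
  obtain ⟨l33, l27, l25, l24, -, -⟩ := TwF4C.f4_lt
  have c1 := act_rho hσ n hnF L hL hact 33 l33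
  have c2 := act_rho hσ n hnF L hL hact 27 l27
  rw [rho_vals.1] at c1
  rw [rho_vals.2] at c2
  have hr := Cfsg.Agent.Lib.Helper25.wPi_lt chevF4 hF4 L hL 33 l33
  have hs := Cfsg.Agent.Lib.Helper25.wPi_lt chevF4 hF4 L hL 27 l27
  rw [f4_nroots] at hr hs
  obtain ⟨k, k1, k2, k3, k4⟩ := lemB _ hr _ hs (by
    rw [← c1, ← c2]
    exact ⟨wPi_W L hL _ _ l33 l27, wPi_W L hL _ _ l27 l33, wPi_W L hL _ _ l33 l25,
      wPi_W L hL _ _ l25 l33, wPi_W L hL _ _ l33 l24, wPi_W L hL _ _ l24 l33,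
      wPi_W L hL _ _ l27 l25, wPi_W L hL _ _ l25 l27, wPi_W L hL _ _ l27 l24,
      wPi_W L hL _ _ l24 l27, wPi_W L hL _ _ l25 l24, wPi_W L hL _ _ l24 l25⟩)
  rw [← c2] at k3
  rw [← c1] at k4
  refine ⟨k, ?_⟩
  have hrev : ∀ i ∈ (wd k).reverse, i < chevF4.rank :=
    fun i hi => wd_lt' k i (List.mem_reverse.1 hi)
  have hact' : Act ((nWordGL chevF4 hF4 (wd k))⁻¹ * n) ((wd k).reverse ++ L) :=
    act_mul (act_inv_nWord (wd k) (wd_lt' k)) hact hL
  have hcancel : ∀ s < chevF4.nroots, wPi chevF4 (wd k).reverse (wPi chevF4 (wd k) s) = s := by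
    intro s hs
    have := Cfsg.Agent.Lib.Helper25.wPi_reverse_cancel chevF4 hF4 (wd k).reverse hrev s hs
    rwa [List.reverse_reverse] at this
  refine mono_mem_diag_of_pos chevF4 hF4 _
    (Subgroup.mul_mem _ (Subgroup.inv_mem _
      (nWordGL_mem_monomial chevF4 hF4 (wd k) (wd_lt' k))) hnN) ((wd k).reverse ++ L) ?_ hact' ?_
  · intro i hi
    rcases List.mem_append.1 hi with h | h
    · exact hrev i h
    · exact hL i h
  · intro i hi
    have hfix : wPi chevF4 ((wd k).reverse ++ L) (chevF4.simple i) = chevF4.simple i := by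
      rw [Cfsg.Agent.Lib.Helper25.wPi_append]
      rw [TwF4C.f4_rank] at hi
      interval_cases i
      · rw [TwF4C.f4_simple.1, ← k1, hcancel 33 l33]
      · rw [TwF4C.f4_simple.2.1, ← k2, hcancel 27 l27]
      · rw [TwF4C.f4_simple.2.2.1, ← k3, hcancel 25 l25]
      · rw [TwF4C.f4_simple.2.2.2, ← k4, hcancel 24 l24]
    rw [hfix]
    exact (Cfsg.Agent.Lib.Helper25.upChk_all chevF4 hF4 i hi).1

/-! ### double cosets of `F₄(K)` -/

/-- the double coset condition of `F₄(K)`, in `GL` -/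
theorem bn5 (i : ℕ) (hi : i < chevF4.rank) (n b : GL chevF4.Idx K)
    (hn : n ∈ chevF4.monomialSubgroup K) (hb : b ∈ chevF4.borelSubgroup K) :
    (∃ c₁ ∈ chevF4.borelSubgroup K, ∃ c₂ ∈ chevF4.borelSubgroup K,
      nGL chevF4 hF4 (chevF4.simple i) * b * n =
        c₁ * (nGL chevF4 hF4 (chevF4.simple i) * n) * c₂) ∨
    (∃ c₁ ∈ chevF4.borelSubgroup K, ∃ c₂ ∈ chevF4.borelSubgroup K,
      nGL chevF4 hF4 (chevF4.simple i) * b * n = c₁ * n * c₂) := by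
  have hBG := borelSubgroup_le_group (F := K) chevF4 hF4
  have hNG := monomialSubgroup_le_group (F := K) chevF4 hF4
  have hsN : nGL (F := K) chevF4 hF4 (chevF4.simple i) ∈ chevF4.monomialSubgroup K :=
    nGL_mem_monomial chevF4 hF4 _ (simple_lt chevF4 hF4 i hi)
  have h := (chevBN (F := K) chevF4 hF4).mul_mem_union
    ⟨nGL chevF4 hF4 (chevF4.simple i), hNG hsN⟩ ⟨i, hi, nGL_val chevF4 hF4 _⟩
    ⟨n, hNG hn⟩ (Subgroup.mem_subgroupOf.2 hn) ⟨b, hBG hb⟩ (Subgroup.mem_subgroupOf.2 hb)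
  rcases h with h | h
  · left
    rw [DoubleCoset.mem_doubleCoset] at h
    obtain ⟨c₁, hc₁, c₂, hc₂, e⟩ := h
    exact ⟨c₁, Subgroup.mem_subgroupOf.1 hc₁, c₂, Subgroup.mem_subgroupOf.1 hc₂,
      congrArg Subtype.val e⟩
  · right
    rw [DoubleCoset.mem_doubleCoset] at h
    obtain ⟨c₁, hc₁, c₂, hc₂, e⟩ := h
    exact ⟨c₁, Subgroup.mem_subgroupOf.1 hc₁, c₂, Subgroup.mem_subgroupOf.1 hc₂,
      congrArg Subtype.val e⟩

/-- multiplying a double coset by a word -/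
theorem T3_nWord (L : List ℕ) (hL : ∀ i ∈ L, i < chevF4.rank) (n : GL chevF4.Idx K)
    (hn : n ∈ chevF4.monomialSubgroup K) (b₁ b₂ : GL chevF4.Idx K)
    (hb₁ : b₁ ∈ chevF4.borelSubgroup K) (hb₂ : b₂ ∈ chevF4.borelSubgroup K) :
    ∃ L' : List ℕ, L'.Sublist L ∧ ∃ c₁ ∈ chevF4.borelSubgroup K,
      ∃ c₂ ∈ chevF4.borelSubgroup K,
        nWordGL chevF4 hF4 L * (b₁ * n * b₂) = c₁ * (nWordGL chevF4 hF4 L' * n) * c₂ := by
  induction L with
  | nil =>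
    refine ⟨[], List.Sublist.slnil, b₁, hb₁, b₂, hb₂, ?_⟩
    unfold nWordGL
    simp
  | cons i L ih =>
    obtain ⟨L', hsub, c₁, hc₁, c₂, hc₂, e⟩ := ih (fun j hj => hL j (List.mem_cons_of_mem _ hj))
    have hi : i < chevF4.rank := hL i List.mem_cons_self
    have hL' : ∀ j ∈ L', j < chevF4.rank :=
      fun j hj => hL j (List.mem_cons_of_mem _ (hsub.subset hj))
    have hn' : nWordGL chevF4 hF4 L' * n ∈ chevF4.monomialSubgroup K :=
      Subgroup.mul_mem _ (nWordGL_mem_monomial chevF4 hF4 L' hL') hn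
    have e1 : nWordGL (F := K) chevF4 hF4 (i :: L) =
        nGL chevF4 hF4 (chevF4.simple i) * nWordGL chevF4 hF4 L := by
      unfold nWordGL
      rw [List.map_cons, List.prod_cons]
    have e2 : nWordGL (F := K) chevF4 hF4 (i :: L') =
        nGL chevF4 hF4 (chevF4.simple i) * nWordGL chevF4 hF4 L' := by
      unfold nWordGL
      rw [List.map_cons, List.prod_cons]
    have e3 : nWordGL chevF4 hF4 (i :: L) * (b₁ * n * b₂) =
        nGL chevF4 hF4 (chevF4.simple i) * c₁ * (nWordGL chevF4 hF4 L' * n) * c₂ := by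
      rw [e1, mul_assoc, e]
      simp only [mul_assoc]
    rcases bn5 i hi _ c₁ hn' hc₁ with ⟨d₁, hd₁, d₂, hd₂, e4⟩ | ⟨d₁, hd₁, d₂, hd₂, e4⟩
    · refine ⟨i :: L', List.Sublist.cons_cons i hsub, d₁, hd₁, d₂ * c₂, Subgroup.mul_mem _ hd₂ hc₂, ?_⟩
      rw [e3, e4, e2]
      simp only [mul_assoc]
    · refine ⟨L', List.Sublist.cons i hsub, d₁, hd₁, d₂ * c₂, Subgroup.mul_mem _ hd₂ hc₂, ?_⟩
      rw [e3, e4]
      simp only [mul_assoc]

/-- the double coset determines the element of `N` modulo `H` -/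
theorem dc_unique (n₁ n₂ c₁ c₂ d₁ d₂ : GL chevF4.Idx K)
    (hn₁ : n₁ ∈ chevF4.monomialSubgroup K) (hn₂ : n₂ ∈ chevF4.monomialSubgroup K)
    (hc₁ : c₁ ∈ chevF4.borelSubgroup K) (hc₂ : c₂ ∈ chevF4.borelSubgroup K)
    (hd₁ : d₁ ∈ chevF4.borelSubgroup K) (hd₂ : d₂ ∈ chevF4.borelSubgroup K)
    (e : c₁ * n₁ * c₂ = d₁ * n₂ * d₂) : n₁⁻¹ * n₂ ∈ chevF4.diagonalSubgroup K := by
  have hBG := borelSubgroup_le_group (F := K) chevF4 hF4
  have hNG := monomialSubgroup_le_group (F := K) chevF4 hF4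
  have hgG : c₁ * n₁ * c₂ ∈ chevF4.group K :=
    Subgroup.mul_mem _ (Subgroup.mul_mem _ (hBG hc₁) (hNG hn₁)) (hBG hc₂)
  have h1 : (⟨c₁ * n₁ * c₂, hgG⟩ : ↥(chevF4.group K)) ∈ DoubleCoset.doubleCoset
      (⟨n₁, hNG hn₁⟩ : ↥(chevF4.group K)) ((chevBN (F := K) chevF4 hF4).B : Set ↥(chevF4.group K))
      (chevBN (F := K) chevF4 hF4).B := by
    rw [DoubleCoset.mem_doubleCoset]
    exact ⟨⟨c₁, hBG hc₁⟩, Subgroup.mem_subgroupOf.2 hc₁, ⟨c₂, hBG hc₂⟩,
      Subgroup.mem_subgroupOf.2 hc₂, rfl⟩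
  have h2 : (⟨c₁ * n₁ * c₂, hgG⟩ : ↥(chevF4.group K)) ∈ DoubleCoset.doubleCoset
      (⟨n₂, hNG hn₂⟩ : ↥(chevF4.group K)) ((chevBN (F := K) chevF4 hF4).B : Set ↥(chevF4.group K))
      (chevBN (F := K) chevF4 hF4).B := by
    rw [DoubleCoset.mem_doubleCoset]
    exact ⟨⟨d₁, hBG hd₁⟩, Subgroup.mem_subgroupOf.2 hd₁, ⟨d₂, hBG hd₂⟩,
      Subgroup.mem_subgroupOf.2 hd₂, Subtype.ext e⟩
  have h3 := (DoubleCoset.doubleCoset_eq_of_mem h1).symm.trans
    (DoubleCoset.doubleCoset_eq_of_mem h2)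
  have h4 := (Cfsg.Agent.S0309.result (chevBN (F := K) chevF4 hF4)
    (n := ⟨n₁, hNG hn₁⟩) (n' := ⟨n₂, hNG hn₂⟩) (Subgroup.mem_subgroupOf.2 hn₁)
    (Subgroup.mem_subgroupOf.2 hn₂)).1 h3
  have h5 : n₁⁻¹ * n₂ ∈ chevF4.borelSubgroup K := Subgroup.mem_subgroupOf.1 h4
  rw [← borel_inf_monomial chevF4 hF4]
  exact Subgroup.mem_inf.2 ⟨h5, Subgroup.mul_mem _ (Subgroup.inv_mem _ hn₁) hn₂⟩

theorem wGL_neg_mem (w : List (ℕ × K)) (hw : ∀ p ∈ w, chevF4.IsNegRoot p.1) :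
    wGL chevF4 hF4 w ∈ chevF4.negUnipotent K := by
  induction w with
  | nil => exact Subgroup.one_mem _
  | cons p w ih =>
    rw [wGL_cons]
    exact Subgroup.mul_mem _
      (Subgroup.subset_closure ⟨p.1, p.2, hw p List.mem_cons_self, xGL_val chevF4 hF4 _ _⟩)
      (ih (fun p' hp' => hw p' (List.mem_cons_of_mem _ hp')))

/-- a product of two root elements of distinct roots, the first with non-zero parameter, is not
trivial -/
theorem two_ne_one (a b : ℕ) (ha : a < chevF4.nroots) (hb : b < chevF4.nroots) (hab : a ≠ b)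
    (s t : K) (hs : s ≠ 0) : xGL chevF4 hF4 a s * xGL chevF4 hF4 b t ≠ 1 := by
  intro h
  have h1 : xGL chevF4 hF4 a s = xGL chevF4 hF4 b (-t) := by
    rw [← xGL_inv chevF4 hF4 b t]
    exact eq_inv_of_mul_eq_one_left h
  have h2 : chevF4.x K a s = chevF4.x K b (-t) := by
    rw [← xGL_val chevF4 hF4, ← xGL_val chevF4 hF4, h1]
  exact hab (x_root_inj2 chevF4 hF4 a b ha hb s (-t) hs h2)

/-! ### the subgroups `B¹` and `N¹` -/

/-- `B¹` as a subgroup of `²F₄` -/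
def B1 (K : Type*) [Field K] (e : ℕ) : Subgroup ↥(twistedF4 K e) :=
  (chevF4.borelSubgroup K ⊓ twistedF4 K e).subgroupOf (twistedF4 K e)

/-- `N¹` as a subgroup of `²F₄` -/
def N1 (K : Type*) [Field K] (e : ℕ) : Subgroup ↥(twistedF4 K e) :=
  (chevF4.monomialSubgroup K ⊓ twistedF4 K e).subgroupOf (twistedF4 K e)

theorem mem_B1 {e : ℕ} (x : ↥(twistedF4 K e)) :
    x ∈ B1 K e ↔ (x : GL chevF4.Idx K) ∈ chevF4.borelSubgroup K := by
  unfold B1
  rw [Subgroup.mem_subgroupOf, Subgroup.mem_inf]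
  exact ⟨fun h => h.1, fun h => ⟨h, x.2⟩⟩

theorem mem_N1 {e : ℕ} (x : ↥(twistedF4 K e)) :
    x ∈ N1 K e ↔ (x : GL chevF4.Idx K) ∈ chevF4.monomialSubgroup K := by
  unfold N1
  rw [Subgroup.mem_subgroupOf, Subgroup.mem_inf]
  exact ⟨fun h => h.1, fun h => ⟨h, x.2⟩⟩

section main

variable [CharP K 2] {e : ℕ} {σ : ↥(chevF4.group K) →* ↥(chevF4.group K)}
  (hσ : IsSig K e σ) (hF : ∀ x : K, (x ^ e) ^ (2 * e) = x) (he : e ≠ 0)
  (hle : twistedF4 K e ≤ sigFix σ)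
  (hU : ∀ u ∈ chevF4.posUnipotent K, u ∈ sigFix σ → u ∈ twistedF4 K e)

include hσ hF he hle hU in
/-- the normal form of an element of `²F₄` -/
theorem L1 (g : GL chevF4.Idx K) (hg : g ∈ twistedF4 K e) :
    ∃ (u₁ : GL chevF4.Idx K) (k : DihedralGroup 8) (h u : GL chevF4.Idx K),
      u₁ ∈ chevF4.posUnipotent K ∧ u₁ ∈ twistedF4 K e ∧ h ∈ chevF4.diagonalSubgroup K ∧
      h ∈ twistedF4 K e ∧ u ∈ chevF4.posUnipotent K ∧ u ∈ twistedF4 K e ∧
      g = u₁ * nWordGL chevF4 hF4 (wd k) * h * u := by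
  obtain ⟨hgG, hfix⟩ := (mem_sigFix σ g).1 (hle hg)
  obtain ⟨u₁, m, u, hu₁, hm, hu, f1, f2, f3, e1⟩ := (f4Sig hσ hF).fixed_bruhat ⟨g, hgG⟩ hfix
  have hu' : (u : GL chevF4.Idx K) ∈ chevF4.posUnipotent K := rk_uNeg_le chevF4 _ hu
  have hu₁G : (u₁ : GL chevF4.Idx K) ∈ twistedF4 K e :=
    hU _ hu₁ ((mem_sigFix σ _).2 ⟨u₁.2, f1⟩)
  have huG : (u : GL chevF4.Idx K) ∈ twistedF4 K e := hU _ hu' ((mem_sigFix σ _).2 ⟨u.2, f3⟩)
  have e2 : g = (u₁ : GL chevF4.Idx K) * (m : GL chevF4.Idx K) * (u : GL chevF4.Idx K) :=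
    congrArg Subtype.val e1
  have hmG : (m : GL chevF4.Idx K) ∈ twistedF4 K e := by
    have e3 : (m : GL chevF4.Idx K) =
        (u₁ : GL chevF4.Idx K)⁻¹ * g * (u : GL chevF4.Idx K)⁻¹ := by
      rw [e2]
      group
    rw [e3]
    exact Subgroup.mul_mem _ (Subgroup.mul_mem _ (Subgroup.inv_mem _ hu₁G) hg)
      (Subgroup.inv_mem _ huG)
  obtain ⟨k, hk⟩ := N1_word hσ (m : GL chevF4.Idx K) hm ((mem_sigFix σ _).2 ⟨m.2, f2⟩)
  refine ⟨(u₁ : GL chevF4.Idx K), k, (nWordGL chevF4 hF4 (wd k))⁻¹ * (m : GL chevF4.Idx K),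
    (u : GL chevF4.Idx K), hu₁, hu₁G, hk,
    Subgroup.mul_mem _ (Subgroup.inv_mem _ (wd_mem e he k)) hmG, hu', huG, ?_⟩
  rw [e2]
  group

include hσ hF he hle hU in
/-- the double coset condition of `²F₄` -/
theorem union_claim (Ls : List ℕ) (c : DihedralGroup 8) (hLs : ∀ i ∈ Ls, i < chevF4.rank)
    (hsub : ∀ j k : DihedralGroup 8, ∀ L' ∈ Ls.sublists,
      (∀ r ∈ [33, 27, 25, 24], wPi chevF4 L' ((tb j).getD r 0) = (tb k).getD r 0) →
        k = j ∨ k = c * j)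
    (hmul : ∀ j : DihedralGroup 8, ∀ r < 48,
      wPi chevF4 Ls ((tb j).getD r 0) = (tb (c * j)).getD r 0)
    (hsG : nWordGL chevF4 hF4 Ls ∈ twistedF4 K e)
    (n b : GL chevF4.Idx K) (hnN : n ∈ chevF4.monomialSubgroup K) (hnG : n ∈ twistedF4 K e)
    (hbB : b ∈ chevF4.borelSubgroup K) (hbG : b ∈ twistedF4 K e) :
    (∃ c₁ c₂ : GL chevF4.Idx K, c₁ ∈ chevF4.borelSubgroup K ∧ c₁ ∈ twistedF4 K e ∧
      c₂ ∈ chevF4.borelSubgroup K ∧ c₂ ∈ twistedF4 K e ∧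
      nWordGL chevF4 hF4 Ls * b * n = c₁ * (nWordGL chevF4 hF4 Ls * n) * c₂) ∨
    (∃ c₁ c₂ : GL chevF4.Idx K, c₁ ∈ chevF4.borelSubgroup K ∧ c₁ ∈ twistedF4 K e ∧
      c₂ ∈ chevF4.borelSubgroup K ∧ c₂ ∈ twistedF4 K e ∧
      nWordGL chevF4 hF4 Ls * b * n = c₁ * n * c₂) := by
  have hUB : chevF4.posUnipotent K ≤ chevF4.borelSubgroup K := le_sup_left
  have hHB : chevF4.diagonalSubgroup K ≤ chevF4.borelSubgroup K := le_sup_right
  have hHN : chevF4.diagonalSubgroup K ≤ chevF4.monomialSubgroup K := by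
    unfold ChevalleyDatum.monomialSubgroup
    exact le_sup_left
  have hgG : nWordGL chevF4 hF4 Ls * b * n ∈ twistedF4 K e :=
    Subgroup.mul_mem _ (Subgroup.mul_mem _ hsG hbG) hnG
  obtain ⟨u₁, k, h, u, hu₁, hu₁G, hh, hhG, hu, huG, eg⟩ := L1 hσ hF he hle hU _ hgG
  obtain ⟨j, hj⟩ := N1_word hσ n hnN (hle hnG)
  have hnkN := nWordGL_mem_monomial (F := K) chevF4 hF4 (wd k) (wd_lt' k)
  have hnjG := wd_mem (K := K) e he j
  have hjG : (nWordGL chevF4 hF4 (wd j))⁻¹ * n ∈ twistedF4 K e :=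
    Subgroup.mul_mem _ (Subgroup.inv_mem _ hnjG) hnG
  obtain ⟨L', hsubl, d₁, hd₁, d₂, hd₂, e3⟩ :=
    T3_nWord Ls hLs n hnN b 1 hbB (Subgroup.one_mem _)
  have hL' : ∀ i ∈ L', i < chevF4.rank := fun i hi => hLs i (hsubl.subset hi)
  have e4 : u₁ * (nWordGL chevF4 hF4 (wd k) * h) * u =
      d₁ * (nWordGL chevF4 hF4 L' * n) * d₂ := by
    have e5 : nWordGL chevF4 hF4 Ls * (b * n) = nWordGL chevF4 hF4 Ls * b * n :=
      (mul_assoc _ _ _).symm
    rw [← e3, mul_one, e5, eg]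
    simp only [mul_assoc]
  have h5 := dc_unique (nWordGL chevF4 hF4 (wd k) * h) (nWordGL chevF4 hF4 L' * n) u₁ u d₁ d₂
    (Subgroup.mul_mem _ hnkN (hHN hh))
    (Subgroup.mul_mem _ (nWordGL_mem_monomial chevF4 hF4 L' hL') hnN) (hUB hu₁) (hUB hu) hd₁ hd₂ e4
  have hLj : ∀ i ∈ L' ++ wd j, i < chevF4.rank := by
    intro i hi
    rcases List.mem_append.1 hi with h | h
    · exact hL' i h
    · exact wd_lt' j i h
  have h6 : (nWordGL (F := K) chevF4 hF4 (wd k))⁻¹ * nWordGL chevF4 hF4 (L' ++ wd j) ∈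
      chevF4.diagonalSubgroup K := by
    have e5 : (nWordGL (F := K) chevF4 hF4 (wd k))⁻¹ * nWordGL chevF4 hF4 (L' ++ wd j) =
        h * ((nWordGL chevF4 hF4 (wd k) * h)⁻¹ * (nWordGL chevF4 hF4 L' * n)) *
          ((nWordGL chevF4 hF4 (wd j))⁻¹ * n)⁻¹ := by
      rw [nWordGL_append]
      group
    rw [e5]
    exact Subgroup.mul_mem _ (Subgroup.mul_mem _ hh h5) (Subgroup.inv_mem _ hj)
  have h7 := wPi_eq_of_inv_mul_mem_diag chevF4 hF4 (wd k) (L' ++ wd j) (wd_lt' k) hLj h6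
  have h8 : ∀ r ∈ [33, 27, 25, 24], wPi chevF4 L' ((tb j).getD r 0) = (tb k).getD r 0 := by
    intro r hr
    have hr48 : r < 48 := by
      simp only [List.mem_cons, List.not_mem_nil, or_false] at hr
      omega
    have h9 := h7 r (by rw [f4_nroots]; exact hr48)
    rw [Cfsg.Agent.Lib.Helper25.wPi_append, tb_eq k r hr48, tb_eq j r hr48] at h9
    exact h9.symm
  have hc₂B : ((nWordGL chevF4 hF4 (wd j))⁻¹ * n)⁻¹ * h * u ∈ chevF4.borelSubgroup K :=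
    Subgroup.mul_mem _ (Subgroup.mul_mem _ (hHB (Subgroup.inv_mem _ hj)) (hHB hh)) (hUB hu)
  have hc₂G : ((nWordGL chevF4 hF4 (wd j))⁻¹ * n)⁻¹ * h * u ∈ twistedF4 K e :=
    Subgroup.mul_mem _ (Subgroup.mul_mem _ (Subgroup.inv_mem _ hjG) hhG) huG
  rcases hsub j k L' (List.mem_sublists.2 hsubl) h8 with hk | hk
  · right
    refine ⟨u₁, ((nWordGL chevF4 hF4 (wd j))⁻¹ * n)⁻¹ * h * u, hUB hu₁, hu₁G, hc₂B, hc₂G, ?_⟩
    rw [eg, hk]
    group
  · left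
    have hLs' : ∀ i ∈ Ls ++ wd j, i < chevF4.rank := by
      intro i hi
      rcases List.mem_append.1 hi with h | h
      · exact hLs i h
      · exact wd_lt' j i h
    have h9 := nWordGL_mul_inv_mem_diag (F := K) chevF4 hF4 (Ls ++ wd j) (wd (c * j)) hLs'
      (wd_lt' (c * j)) (fun r hr => by
        rw [f4_nroots] at hr
        have h1 := Cfsg.Agent.Lib.Helper25.wPi_lt chevF4 hF4 (wd j) (wd_lt' j) r
          (by rw [f4_nroots]; exact hr)
        rw [Cfsg.Agent.Lib.Helper25.wPi_append, tb_eq j r hr, tb_eq (c * j) r hr, hmul j r hr])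
    rw [nWordGL_append, ← hk] at h9
    have h9G : nWordGL chevF4 hF4 Ls * nWordGL chevF4 hF4 (wd j) *
        (nWordGL chevF4 hF4 (wd k))⁻¹ ∈ twistedF4 K e :=
      Subgroup.mul_mem _ (Subgroup.mul_mem _ hsG hnjG) (Subgroup.inv_mem _ (wd_mem e he k))
    refine ⟨u₁ * (nWordGL chevF4 hF4 Ls * nWordGL chevF4 hF4 (wd j) *
        (nWordGL chevF4 hF4 (wd k))⁻¹)⁻¹, ((nWordGL chevF4 hF4 (wd j))⁻¹ * n)⁻¹ * h * u,
      Subgroup.mul_mem _ (hUB hu₁) (hHB (Subgroup.inv_mem _ h9)),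
      Subgroup.mul_mem _ hu₁G (Subgroup.inv_mem _ h9G), hc₂B, hc₂G, ?_⟩
    rw [eg]
    group

end main

/-! ### the `(B, N)`-pair -/

theorem hL1 : ∀ i ∈ [0, 3], i < chevF4.rank := by
  rw [TwF4C.f4_rank]
  decide

theorem hL2 : ∀ i ∈ [1, 2, 1, 2], i < chevF4.rank := by
  rw [TwF4C.f4_rank]
  decide

/-- the first distinguished generator -/
def s1 [CharP K 2] (e : ℕ) : ↥(twistedF4 K e) := ⟨nWordGL chevF4 hF4 [0, 3], TwF4C.n1_mem e⟩

/-- the second distinguished generator -/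
def s2 [CharP K 2] (e : ℕ) (he : e ≠ 0) : ↥(twistedF4 K e) :=
  ⟨nWordGL chevF4 hF4 [1, 2, 1, 2], TwF4C.n2_mem e he⟩

theorem rot_clos [CharP K 2] (e : ℕ) (he : e ≠ 0) (a : ℕ) :
    (⟨nWordGL chevF4 hF4 (rotW a), rot_mem e he a⟩ : ↥(twistedF4 K e)) ∈
      Subgroup.closure {s1 e, s2 e he} := by
  induction a with
  | zero =>
    have e0 : (⟨nWordGL chevF4 hF4 (rotW 0), rot_mem e he 0⟩ : ↥(twistedF4 K e)) = 1 :=
      Subtype.ext rfl
    rw [e0]
    exact Subgroup.one_mem _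
  | succ a ih =>
    have e1 : rotW (a + 1) = [0, 3] ++ ([1, 2, 1, 2] ++ rotW a) := by
      unfold rotW
      rw [List.replicate_succ, List.flatten_cons]
      rfl
    have e2 : (⟨nWordGL chevF4 hF4 (rotW (a + 1)), rot_mem e he (a + 1)⟩ : ↥(twistedF4 K e)) =
        s1 e * (s2 e he * ⟨nWordGL chevF4 hF4 (rotW a), rot_mem e he a⟩) := by
      apply Subtype.ext
      show nWordGL chevF4 hF4 (rotW (a + 1)) = nWordGL chevF4 hF4 [0, 3] *
        (nWordGL chevF4 hF4 [1, 2, 1, 2] * nWordGL chevF4 hF4 (rotW a))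
      rw [e1, nWordGL_append, nWordGL_append]
    rw [e2]
    exact Subgroup.mul_mem _ (Subgroup.subset_closure (Set.mem_insert _ _))
      (Subgroup.mul_mem _ (Subgroup.subset_closure (Set.mem_insert_of_mem _ rfl)) ih)

theorem wd_clos [CharP K 2] (e : ℕ) (he : e ≠ 0) (k : DihedralGroup 8) :
    (⟨nWordGL chevF4 hF4 (wd k), wd_mem e he k⟩ : ↥(twistedF4 K e)) ∈
      Subgroup.closure {s1 e, s2 e he} := by
  cases k with
  | r i => exact rot_clos e he i.val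
  | sr i =>
    have e2 : (⟨nWordGL chevF4 hF4 (wd (DihedralGroup.sr i)), wd_mem e he (DihedralGroup.sr i)⟩ :
        ↥(twistedF4 K e)) = s1 e * ⟨nWordGL chevF4 hF4 (rotW i.val), rot_mem e he i.val⟩ := by
      apply Subtype.ext
      show nWordGL chevF4 hF4 ([0, 3] ++ rotW i.val) = nWordGL chevF4 hF4 [0, 3] *
        nWordGL chevF4 hF4 (rotW i.val)
      rw [nWordGL_append]
    rw [e2]
    exact Subgroup.mul_mem _ (Subgroup.subset_closure (Set.mem_insert _ _)) (rot_clos e he i.val)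

section main2

variable [CharP K 2] {e : ℕ} {σ : ↥(chevF4.group K) →* ↥(chevF4.group K)}
  (hσ : IsSig K e σ) (hF : ∀ x : K, (x ^ e) ^ (2 * e) = x) (he : e ≠ 0)
  (hle : twistedF4 K e ≤ sigFix σ)
  (hU : ∀ u ∈ chevF4.posUnipotent K, u ∈ sigFix σ → u ∈ twistedF4 K e)

include hσ hF he hle hU in
/-- the `(B, N)`-pair of `²F₄` -/
theorem exists_bn : ∃ P : Cfsg.BNPair ↥(twistedF4 K e),
    P.B = B1 K e ∧ P.N = N1 K e ∧ P.Irreducible := by
  have hUB : chevF4.posUnipotent K ≤ chevF4.borelSubgroup K := le_sup_left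
  have hHB : chevF4.diagonalSubgroup K ≤ chevF4.borelSubgroup K := le_sup_right
  have hHN : chevF4.diagonalSubgroup K ≤ chevF4.monomialSubgroup K := by
    unfold ChevalleyDatum.monomialSubgroup
    exact le_sup_left
  have hn1N := nWordGL_mem_monomial (F := K) chevF4 hF4 [0, 3] hL1
  have hn2N := nWordGL_mem_monomial (F := K) chevF4 hF4 [1, 2, 1, 2] hL2
  have hBN : ∀ x : GL chevF4.Idx K, x ∈ chevF4.borelSubgroup K → x ∈ chevF4.monomialSubgroup K →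
      x ∈ chevF4.diagonalSubgroup K := by
    intro x h1 h2
    rw [← borel_inf_monomial chevF4 hF4]
    exact Subgroup.mem_inf.2 ⟨h1, h2⟩
  have happ : ∀ A B : List ℕ, (∀ i ∈ A, i < chevF4.rank) → (∀ i ∈ B, i < chevF4.rank) →
      ∀ i ∈ A ++ B, i < chevF4.rank := by
    intro A B hA hB i hi
    rcases List.mem_append.1 hi with h | h
    · exact hA i h
    · exact hB i h
  have hsq1 : nWordGL (F := K) chevF4 hF4 [0, 3] * nWordGL chevF4 hF4 [0, 3] ∈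
      chevF4.diagonalSubgroup K := by
    rw [← nWordGL_append]
    exact (nWordGL_mem_diag_iff chevF4 hF4 _ (happ _ _ hL1 hL1)).2
      (fun r hr => sq_chk.1 r (by rwa [f4_nroots] at hr))
  have hsq2 : nWordGL (F := K) chevF4 hF4 [1, 2, 1, 2] * nWordGL chevF4 hF4 [1, 2, 1, 2] ∈
      chevF4.diagonalSubgroup K := by
    rw [← nWordGL_append]
    exact (nWordGL_mem_diag_iff chevF4 hF4 _ (happ _ _ hL2 hL2)).2
      (fun r hr => sq_chk.2 r (by rwa [f4_nroots] at hr))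
  have hne12 : (nWordGL (F := K) chevF4 hF4 [0, 3])⁻¹ * nWordGL chevF4 hF4 [1, 2, 1, 2] ∉
      chevF4.diagonalSubgroup K := fun h =>
    ne_chk.1 (wPi_eq_of_inv_mul_mem_diag chevF4 hF4 [0, 3] [1, 2, 1, 2] hL1 hL2 h 33
      TwF4C.f4_lt.1)
  have hne21 : (nWordGL (F := K) chevF4 hF4 [1, 2, 1, 2])⁻¹ * nWordGL chevF4 hF4 [0, 3] ∉
      chevF4.diagonalSubgroup K := fun h =>
    ne_chk.1 (wPi_eq_of_inv_mul_mem_diag chevF4 hF4 [1, 2, 1, 2] [0, 3] hL2 hL1 h 33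
      TwF4C.f4_lt.1).symm
  -- the fields
  have f_sup : B1 K e ⊔ N1 K e = ⊤ := by
    rw [eq_top_iff]
    intro x _
    obtain ⟨u₁, k, h, u, hu₁, hu₁G, hh, hhG, hu, huG, eg⟩ := L1 hσ hF he hle hU x.1 x.2
    have ex : x = (⟨u₁, hu₁G⟩ : ↥(twistedF4 K e)) * ⟨nWordGL chevF4 hF4 (wd k), wd_mem e he k⟩ *
        ⟨h, hhG⟩ * ⟨u, huG⟩ := Subtype.ext eg
    rw [ex]
    exact Subgroup.mul_mem _ (Subgroup.mul_mem _ (Subgroup.mul_mem _
      (Subgroup.mem_sup_left ((mem_B1 _).2 (hUB hu₁)))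
      (Subgroup.mem_sup_right ((mem_N1 _).2 (nWordGL_mem_monomial chevF4 hF4 (wd k) (wd_lt' k)))))
      (Subgroup.mem_sup_left ((mem_B1 _).2 (hHB hh))))
      (Subgroup.mem_sup_left ((mem_B1 _).2 (hUB hu)))
  have f_conj : ∀ n ∈ N1 K e, ∀ t ∈ B1 K e ⊓ N1 K e, n * t * n⁻¹ ∈ B1 K e := by
    intro n hn t ht
    have hnN := (mem_N1 n).1 hn
    have htH := hBN _ ((mem_B1 t).1 (Subgroup.mem_inf.1 ht).1) ((mem_N1 t).1 (Subgroup.mem_inf.1 ht).2)
    rw [mem_B1]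
    show (n : GL chevF4.Idx K) * (t : GL chevF4.Idx K) * (n : GL chevF4.Idx K)⁻¹ ∈
      chevF4.borelSubgroup K
    exact hHB (((Subgroup.mem_set_normalizer_iff.1
      (monomial_le_normalizer_diagonal chevF4 hF4 hnN)) _).1 htH)
  have f_subset : ({s1 e, s2 e he} : Set ↥(twistedF4 K e)) ⊆ (N1 K e : Set ↥(twistedF4 K e)) := by
    rintro s (rfl | rfl)
    · exact (mem_N1 _).2 hn1N
    · exact (mem_N1 _).2 hn2N
  have f_sq : ∀ s ∈ ({s1 e, s2 e he} : Set ↥(twistedF4 K e)), s * s ∈ B1 K e := by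
    rintro s (rfl | rfl)
    · exact (mem_B1 _).2 (hHB hsq1)
    · exact (mem_B1 _).2 (hHB hsq2)
  have f_inj : ∀ s ∈ ({s1 e, s2 e he} : Set ↥(twistedF4 K e)),
      ∀ s' ∈ ({s1 e, s2 e he} : Set ↥(twistedF4 K e)), s⁻¹ * s' ∈ B1 K e → s = s' := by
    rintro s (rfl | rfl) s' (rfl | rfl) h
    · rfl
    · exact absurd (hBN _ ((mem_B1 _).1 h)
        (Subgroup.mul_mem _ (Subgroup.inv_mem _ hn1N) hn2N)) hne12
    · exact absurd (hBN _ ((mem_B1 _).1 h)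
        (Subgroup.mul_mem _ (Subgroup.inv_mem _ hn2N) hn1N)) hne21
    · rfl
  have f_clos : Subgroup.closure ({s1 e, s2 e he} : Set ↥(twistedF4 K e)) ⊔
      (B1 K e ⊓ N1 K e) = N1 K e := by
    apply le_antisymm
    · exact sup_le ((Subgroup.closure_le _).2 f_subset) inf_le_right
    · intro n hn
      have hnN := (mem_N1 n).1 hn
      obtain ⟨k, hk⟩ := N1_word hσ n.1 hnN (hle n.2)
      have hkG : (nWordGL chevF4 hF4 (wd k))⁻¹ * (n : GL chevF4.Idx K) ∈ twistedF4 K e :=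
        Subgroup.mul_mem _ (Subgroup.inv_mem _ (wd_mem e he k)) n.2
      have en : n = (⟨nWordGL chevF4 hF4 (wd k), wd_mem e he k⟩ : ↥(twistedF4 K e)) *
          ⟨(nWordGL chevF4 hF4 (wd k))⁻¹ * (n : GL chevF4.Idx K), hkG⟩ :=
        Subtype.ext (mul_inv_cancel_left _ _).symm
      rw [en]
      exact Subgroup.mul_mem _ (Subgroup.mem_sup_left (wd_clos e he k))
        (Subgroup.mem_sup_right (Subgroup.mem_inf.2 ⟨(mem_B1 _).2 (hHB hk), (mem_N1 _).2 (hHN hk)⟩))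
  have f_union : ∀ s ∈ ({s1 e, s2 e he} : Set ↥(twistedF4 K e)), ∀ n ∈ N1 K e, ∀ b ∈ B1 K e,
      s * b * n ∈ DoubleCoset.doubleCoset (s * n) (B1 K e : Set ↥(twistedF4 K e)) (B1 K e) ∪
        DoubleCoset.doubleCoset n (B1 K e : Set ↥(twistedF4 K e)) (B1 K e) := by
    rintro s (rfl | rfl) n hn b hb
    · rcases union_claim hσ hF he hle hU [0, 3] (DihedralGroup.sr 0) hL1 sub1 mulL.1
        (TwF4C.n1_mem e) n.1 b.1 ((mem_N1 n).1 hn) n.2 ((mem_B1 b).1 hb) b.2 with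
        ⟨c₁, c₂, h1, h1G, h2, h2G, eq⟩ | ⟨c₁, c₂, h1, h1G, h2, h2G, eq⟩
      · exact Or.inl (DoubleCoset.mem_doubleCoset.2 ⟨⟨c₁, h1G⟩, (mem_B1 _).2 h1, ⟨c₂, h2G⟩,
          (mem_B1 _).2 h2, Subtype.ext eq⟩)
      · exact Or.inr (DoubleCoset.mem_doubleCoset.2 ⟨⟨c₁, h1G⟩, (mem_B1 _).2 h1, ⟨c₂, h2G⟩,
          (mem_B1 _).2 h2, Subtype.ext eq⟩)
    · rcases union_claim hσ hF he hle hU [1, 2, 1, 2] (DihedralGroup.sr 1) hL2 sub2 mulL.2
        (TwF4C.n2_mem e he) n.1 b.1 ((mem_N1 n).1 hn) n.2 ((mem_B1 b).1 hb) b.2 with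
        ⟨c₁, c₂, h1, h1G, h2, h2G, eq⟩ | ⟨c₁, c₂, h1, h1G, h2, h2G, eq⟩
      · exact Or.inl (DoubleCoset.mem_doubleCoset.2 ⟨⟨c₁, h1G⟩, (mem_B1 _).2 h1, ⟨c₂, h2G⟩,
          (mem_B1 _).2 h2, Subtype.ext eq⟩)
      · exact Or.inr (DoubleCoset.mem_doubleCoset.2 ⟨⟨c₁, h1G⟩, (mem_B1 _).2 h1, ⟨c₂, h2G⟩,
          (mem_B1 _).2 h2, Subtype.ext eq⟩)
  have f_ne : ∀ s ∈ ({s1 e, s2 e he} : Set ↥(twistedF4 K e)),
      (fun b : ↥(twistedF4 K e) => s * b * s) '' (B1 K e : Set ↥(twistedF4 K e)) ≠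
        (B1 K e : Set ↥(twistedF4 K e)) := by
    rintro s (rfl | rfl) heq
    · have hPU : TwF4P.Pw e (1 : K) ∈ chevF4.posUnipotent K := by
        unfold TwF4P.Pw
        apply wGL_mem_pos
        intro p hp
        simp only [List.mem_cons, List.not_mem_nil, or_false] at hp
        rcases hp with rfl | rfl
        · exact TwF4C.f4_pos.1
        · exact TwF4C.f4_pos.2.2.2.1
      have hb : (⟨TwF4P.Pw e 1, TwF4P.Pw_mem e 1⟩ : ↥(twistedF4 K e)) ∈ B1 K e :=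
        (mem_B1 _).2 (hUB hPU)
      have hx : s1 e * ⟨TwF4P.Pw e 1, TwF4P.Pw_mem e 1⟩ * s1 e ∈
          (B1 K e : Set ↥(twistedF4 K e)) := by
        rw [← heq]
        exact ⟨_, hb, rfl⟩
      have hx' : nWordGL chevF4 hF4 [0, 3] * TwF4P.Pw e (1 : K) * nWordGL chevF4 hF4 [0, 3] ∈
          chevF4.borelSubgroup K := (mem_B1 _).1 hx
      have e1 : nWordGL chevF4 hF4 [0, 3] * TwF4P.Pw e (1 : K) * nWordGL chevF4 hF4 [0, 3] =
          TwF4P.Pn e 1 * (nWordGL chevF4 hF4 [0, 3] * nWordGL chevF4 hF4 [0, 3]) := by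
        rw [TwF4P.Pn_eq]
        group
      rw [e1] at hx'
      have hPnB : TwF4P.Pn e (1 : K) ∈ chevF4.borelSubgroup K := by
        have h3 := Subgroup.mul_mem _ hx' (Subgroup.inv_mem _ (hHB hsq1))
        rwa [mul_inv_cancel_right] at h3
      have hPnV : TwF4P.Pn e (1 : K) ∈ chevF4.negUnipotent K := by
        unfold TwF4P.Pn
        apply wGL_neg_mem
        intro p hp
        simp only [List.mem_cons, List.not_mem_nil, or_false] at hp
        rcases hp with rfl | rfl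
        · exact neg_chk.1
        · exact neg_chk.2.1
      have h1 : TwF4P.Pn e (1 : K) = 1 := by
        have hm : TwF4P.Pn e (1 : K) ∈ chevF4.borelSubgroup K ⊓ chevF4.negUnipotent K :=
          Subgroup.mem_inf.2 ⟨hPnB, hPnV⟩
        rw [borel_inf_negUnipotent chevF4 hF4, Subgroup.mem_bot] at hm
        exact hm
      unfold TwF4P.Pn at h1
      rw [wGL_cons, wGL_cons, wGL_nil, mul_one] at h1
      exact two_ne_one 14 23 neg_chk.1.1 neg_chk.2.1.1 (by decide) _ _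
        (pow_ne_zero _ one_ne_zero) h1
    · have hPU : TwF4P.Bw e (0 : K) 1 ∈ chevF4.posUnipotent K := by
        unfold TwF4P.Bw
        apply wGL_mem_pos
        intro p hp
        simp only [List.mem_cons, List.not_mem_nil, or_false] at hp
        rcases hp with rfl | rfl | rfl | rfl
        · exact TwF4C.f4_pos.2.1
        · exact TwF4C.f4_pos.2.2.1
        · exact TwF4C.f4_pos.2.2.2.2.1
        · exact TwF4C.f4_pos.2.2.2.2.2
      have hb : (⟨TwF4P.Bw e 0 1, TwF4P.Bw_mem e 0 1⟩ : ↥(twistedF4 K e)) ∈ B1 K e :=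
        (mem_B1 _).2 (hUB hPU)
      have hx : s2 e he * ⟨TwF4P.Bw e 0 1, TwF4P.Bw_mem e 0 1⟩ * s2 e he ∈
          (B1 K e : Set ↥(twistedF4 K e)) := by
        rw [← heq]
        exact ⟨_, hb, rfl⟩
      have hx' : nWordGL chevF4 hF4 [1, 2, 1, 2] * TwF4P.Bw e (0 : K) 1 *
          nWordGL chevF4 hF4 [1, 2, 1, 2] ∈ chevF4.borelSubgroup K := (mem_B1 _).1 hx
      have e1 : nWordGL chevF4 hF4 [1, 2, 1, 2] * TwF4P.Bw e (0 : K) 1 *
          nWordGL chevF4 hF4 [1, 2, 1, 2] =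
          TwF4P.Bn e 0 1 * (nWordGL chevF4 hF4 [1, 2, 1, 2] * nWordGL chevF4 hF4 [1, 2, 1, 2]) := by
        rw [TwF4P.Bn_eq]
        group
      rw [e1] at hx'
      have hPnB : TwF4P.Bn e (0 : K) 1 ∈ chevF4.borelSubgroup K := by
        have h3 := Subgroup.mul_mem _ hx' (Subgroup.inv_mem _ (hHB hsq2))
        rwa [mul_inv_cancel_right] at h3
      have hPnV : TwF4P.Bn e (0 : K) 1 ∈ chevF4.negUnipotent K := by
        unfold TwF4P.Bn
        apply wGL_neg_mem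
        intro p hp
        simp only [List.mem_cons, List.not_mem_nil, or_false] at hp
        rcases hp with rfl | rfl | rfl | rfl
        · exact neg_chk.2.2.1
        · exact neg_chk.2.2.2.1
        · exact neg_chk.2.2.2.2.1
        · exact neg_chk.2.2.2.2.2
      have h1 : TwF4P.Bn e (0 : K) 1 = 1 := by
        have hm : TwF4P.Bn e (0 : K) 1 ∈ chevF4.borelSubgroup K ⊓ chevF4.negUnipotent K :=
          Subgroup.mem_inf.2 ⟨hPnB, hPnV⟩
        rw [borel_inf_negUnipotent chevF4 hF4, Subgroup.mem_bot] at hm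
        exact hm
      unfold TwF4P.Bn at h1
      simp only [wGL_cons, wGL_nil, mul_one, zero_pow he, zero_pow (Nat.succ_ne_zero e), xGL_zero,
        one_mul, zero_add, one_pow] at h1
      exact two_ne_one 19 17 neg_chk.2.2.2.2.1.1 neg_chk.2.2.2.2.2.1 (by decide) _ _
        one_ne_zero h1
  let P : Cfsg.BNPair ↥(twistedF4 K e) :=
    { B := B1 K e
      N := N1 K e
      S := {s1 e, s2 e he}
      sup_eq_top := f_sup
      conj_mem := f_conj
      subset := f_subset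
      sq_mem := f_sq
      inj := f_inj
      closure_sup := f_clos
      mul_mem_union := f_union
      conj_ne := f_ne }
  refine ⟨P, rfl, rfl, ?_⟩
  -- irreducibility
  intro J hJ hJne hSJne
  obtain ⟨s, hs⟩ := hJne
  obtain ⟨s', hs'⟩ := hSJne
  refine ⟨s, hs, s', hs', ?_⟩
  have hsS : s = s1 e ∨ s = s2 e he := hJ hs
  have hs'S : s' = s1 e ∨ s' = s2 e he := hs'.1
  have hs'J : s' ∉ J := hs'.2
  intro hmem
  have hmem' : ((s * s' * s⁻¹ * s'⁻¹ : ↥(twistedF4 K e)) : GL chevF4.Idx K) ∈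
      chevF4.borelSubgroup K := (mem_B1 _).1 hmem
  rcases hsS with rfl | rfl <;> rcases hs'S with rfl | rfl
  · exact hs'J hs
  · have h1 : nWordGL (F := K) chevF4 hF4 [0, 3] * nWordGL chevF4 hF4 [1, 2, 1, 2] *
        (nWordGL chevF4 hF4 [0, 3])⁻¹ * (nWordGL chevF4 hF4 [1, 2, 1, 2])⁻¹ ∈
        chevF4.borelSubgroup K := hmem'
    have h2 : nWordGL (F := K) chevF4 hF4 ([0, 3] ++ [1, 2, 1, 2]) *
        (nWordGL chevF4 hF4 ([1, 2, 1, 2] ++ [0, 3]))⁻¹ ∈ chevF4.diagonalSubgroup K := by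
      rw [nWordGL_append, nWordGL_append, _root_.mul_inv_rev, ← mul_assoc]
      exact hBN _ h1 (Subgroup.mul_mem _ (Subgroup.mul_mem _ (Subgroup.mul_mem _ hn1N hn2N)
        (Subgroup.inv_mem _ hn1N)) (Subgroup.inv_mem _ hn2N))
    exact ne_chk.2 (wPi_eq_of_mul_inv_mem_diag chevF4 hF4 _ _ (happ _ _ hL1 hL2)
      (happ _ _ hL2 hL1) h2 33 TwF4C.f4_lt.1)
  · have h1 : nWordGL (F := K) chevF4 hF4 [1, 2, 1, 2] * nWordGL chevF4 hF4 [0, 3] *
        (nWordGL chevF4 hF4 [1, 2, 1, 2])⁻¹ * (nWordGL chevF4 hF4 [0, 3])⁻¹ ∈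
        chevF4.borelSubgroup K := hmem'
    have h2 : nWordGL (F := K) chevF4 hF4 ([1, 2, 1, 2] ++ [0, 3]) *
        (nWordGL chevF4 hF4 ([0, 3] ++ [1, 2, 1, 2]))⁻¹ ∈ chevF4.diagonalSubgroup K := by
      rw [nWordGL_append, nWordGL_append, _root_.mul_inv_rev, ← mul_assoc]
      exact hBN _ h1 (Subgroup.mul_mem _ (Subgroup.mul_mem _ (Subgroup.mul_mem _ hn2N hn1N)
        (Subgroup.inv_mem _ hn2N)) (Subgroup.inv_mem _ hn1N))
    exact ne_chk.2 (wPi_eq_of_mul_inv_mem_diag chevF4 hF4 _ _ (happ _ _ hL2 hL1)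
      (happ _ _ hL1 hL2) h2 33 TwF4C.f4_lt.1).symm
  · exact hs'J hs

end main2

/-! ### the statements -/

/-- `²F₄(2^(2m+1))` has a `(B, N)`-pair, which is irreducible. -/
theorem twistedF4_bn [Fintype K] {m : ℕ} (hK : Fintype.card K = 2 ^ (2 * m + 1)) :
    ∃ P : Cfsg.BNPair ↥(twistedF4 K (2 ^ m)),
      P.B = (chevF4.borelSubgroup K ⊓ twistedF4 K (2 ^ m)).subgroupOf (twistedF4 K (2 ^ m)) ∧
      P.N = (chevF4.monomialSubgroup K ⊓ twistedF4 K (2 ^ m)).subgroupOf (twistedF4 K (2 ^ m)) ∧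
      P.Irreducible := by
  classical
  have : CharP K 2 := Cfsg.Agent.Lib.Helper26.TF4.charP_two K (2 * m + 1) hK
  obtain ⟨hF, hadd⟩ := field_facts K m hK
  have he : 2 ^ m ≠ 0 := by positivity
  obtain ⟨σ, hσ⟩ := exists_sig K m hK
  have hle := tw_le_sigFix hσ hF hadd
  have hWF := wordFix_sigFix hσ
  have hfam := fam_all (K := K) (2 ^ m) he hF
  have c1 := card_U (2 ^ m) he _ (hWF.mono hle) hfam
  have c2 := card_U (2 ^ m) he _ hWF (fun p hp => (hfam p hp).mono hle)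
  have hUeq : twistedF4 K (2 ^ m) ⊓ chevF4.posUnipotent K = sigFix σ ⊓ chevF4.posUnipotent K :=
    Subgroup.eq_of_le_of_card_ge (inf_le_inf_right _ hle) (by rw [c1, c2])
  have hU : ∀ u ∈ chevF4.posUnipotent K, u ∈ sigFix σ → u ∈ twistedF4 K (2 ^ m) := by
    intro u hu hs
    have h1 : u ∈ twistedF4 K (2 ^ m) ⊓ chevF4.posUnipotent K := by
      rw [hUeq]
      exact Subgroup.mem_inf.2 ⟨hs, hu⟩
    exact (Subgroup.mem_inf.1 h1).1
  exact exists_bn hσ hF he hle hU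

/-- `²F₄(2^(2m+1))`, `m ≥ 1`, is simple and not commutative. -/
theorem twistedF4_simple [Fintype K] {m : ℕ} (hm : 1 ≤ m)
    (hK : Fintype.card K = 2 ^ (2 * m + 1)) :
    IsSimpleGroup ↥(twistedF4 K (2 ^ m)) ∧ ¬ IsMulCommutative ↥(twistedF4 K (2 ^ m)) := by
  have : CharP K 2 := Cfsg.Agent.Lib.Helper26.TF4.charP_two K (2 * m + 1) hK
  have he : 2 ^ m ≠ 0 := by positivity
  obtain ⟨P, hB, -, hirr⟩ := twistedF4_bn hK
  have hperf : commutator ↥(twistedF4 K (2 ^ m)) = ⊤ := TwF4P.twistedF4_perfect hK hm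
  have hnt : Nontrivial ↥(twistedF4 K (2 ^ m)) := by
    refine ⟨⟨⟨TwF4P.Pw (2 ^ m) 1, TwF4P.Pw_mem _ 1⟩, 1, ?_⟩⟩
    intro h
    have h1 : TwF4P.Pw (2 ^ m) (1 : K) = 1 := congrArg Subtype.val h
    unfold TwF4P.Pw at h1
    rw [wGL_cons, wGL_cons, wGL_nil, mul_one] at h1
    exact two_ne_one 33 24 TwF4C.f4_lt.1 TwF4C.f4_lt.2.2.2.1 (by decide) _ _
      (pow_ne_zero _ one_ne_zero) h1
  have hsolv : Group.IsSolvable ↥P.B := by
    rw [hB]
    have hs : Group.IsSolvable ↥(chevF4.borelSubgroup K) := borel_isSolvable chevF4 hF4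
    let f : ↥((chevF4.borelSubgroup K ⊓ twistedF4 K (2 ^ m)).subgroupOf (twistedF4 K (2 ^ m))) →*
        ↥(chevF4.borelSubgroup K) :=
      { toFun := fun x => ⟨((x : ↥(twistedF4 K (2 ^ m))) : GL chevF4.Idx K),
          (Subgroup.mem_inf.1 (Subgroup.mem_subgroupOf.1 x.2)).1⟩
        map_one' := rfl
        map_mul' := fun _ _ => rfl }
    refine Group.isSolvable_of_isSolvable_injective (f := f) (fun x y h => ?_)
    have h1 : ((f x : ↥(chevF4.borelSubgroup K)) : GL chevF4.Idx K) =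
        (f y : ↥(chevF4.borelSubgroup K)) := congrArg Subtype.val h
    exact Subtype.ext (Subtype.ext h1)
  have hcore : P.B.normalCore = ⊥ := by
    rw [hB]
    exact TwF4C.twistedF4_core _ he
  constructor
  · exact Cfsg.Agent.S0319.result P hirr hsolv hperf hcore
  · intro hcomm
    have hc : commutator ↥(twistedF4 K (2 ^ m)) = ⊥ := by
      rw [commutator_eq_bot_iff_center_eq_top]
      exact Subgroup.center_eq_top
    rw [hc] at hperf
    obtain ⟨a, b, hab⟩ := exists_pair_ne ↥(twistedF4 K (2 ^ m))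
    have ha : a ∈ (⊥ : Subgroup ↥(twistedF4 K (2 ^ m))) := by
      rw [hperf]; exact Subgroup.mem_top a
    have hb : b ∈ (⊥ : Subgroup ↥(twistedF4 K (2 ^ m))) := by
      rw [hperf]; exact Subgroup.mem_top b
    rw [Subgroup.mem_bot] at ha hb
    exact hab (ha.trans hb.symm)

end Cfsg.Agent.Lib.Helper24.TwF4BN
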