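import Mathlib
import Cfsg.Agent.Lib.Helper24.TwF4BN
import Cfsg.Agent.Lib.Helper25.ChevFix
import Cfsg.Agent.Lib.Helper25.ChevOrder
import Cfsg.Agent.Lib.Helper26.TwF4H
import Cfsg.Agent.Lib.Helper26.TwF4J1

/-!
# The order of `²F₄(2^(2m+1))`: the counting part

The Bruhat normal form gives `|G¹| = |U¹| |H¹| ∑_w |(U_w⁻)^σ|` over the sixteen elements of the
Weyl group; the fixed points of `U_w⁻` are peeled off block by block.
-/

set_option autoImplicit false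
set_option maxHeartbeats 400000

namespace Cfsg.Agent.Lib.Helper24.TwF4Ord

open Cfsg.Lie Matrix Cfsg.Agent.Lib.Helper24
open Cfsg.Agent.Lib.Helper25 (wPi wEta negSet uMinus)
open Cfsg.Agent.Lib.Helper26.TF4
open Cfsg.Agent.Lib.Helper24.TwF4W

/-! ### a product decomposition and the fixed points of a partial endomorphism -/

theorem card_fixed_prod {G : Type*} [Group G] (Γ : Subgroup G) (σ : ↥Γ →* ↥Γ)
    (K A X Fx : Subgroup G) (n : G)
    (hFx : ∀ g, g ∈ Fx ↔ ∃ h : g ∈ Γ, σ ⟨g, h⟩ = ⟨g, h⟩)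
    (hAΓ : A ≤ Γ) (hXΓ : X ≤ Γ)
    (hA : ∀ a ∈ A, n⁻¹ * a * n ∈ K) (hX : X ≤ K)
    (hfac : ∀ u ∈ K, ∃ a ∈ A, ∃ y ∈ X, u = n⁻¹ * a * n * y)
    (huniq : ∀ a ∈ A, ∀ a' ∈ A, ∀ y ∈ X, ∀ y' ∈ X,
      n⁻¹ * a * n * y = n⁻¹ * a' * n * y' → a = a' ∧ y = y')
    (hn : n ∈ Fx) (hσA : ∀ a : ↥Γ, (a : G) ∈ A → (σ a : G) ∈ A)
    (hσX : ∀ y : ↥Γ, (y : G) ∈ X → (σ y : G) ∈ X) :
    Nat.card ↥(K ⊓ Fx) = Nat.card ↥(A ⊓ Fx) * Nat.card ↥(X ⊓ Fx) := by
  obtain ⟨hnΓ, hnf⟩ := (hFx n).1 hn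
  have hmem : ∀ a ∈ A ⊓ Fx, ∀ y ∈ X ⊓ Fx, n⁻¹ * a * n * y ∈ K ⊓ Fx := by
    intro a ha y hy
    obtain ⟨ha1, ha2⟩ := Subgroup.mem_inf.1 ha
    obtain ⟨hy1, hy2⟩ := Subgroup.mem_inf.1 hy
    exact Subgroup.mem_inf.2 ⟨mul_mem (hA a ha1) (hX hy1),
      mul_mem (mul_mem (mul_mem (inv_mem hn) ha2) hn) hy2⟩
  rw [← Nat.card_prod]
  symm
  refine Nat.card_congr (Equiv.ofBijective
    (fun p : ↥(A ⊓ Fx) × ↥(X ⊓ Fx) =>
      (⟨n⁻¹ * (p.1 : G) * n * (p.2 : G), hmem _ p.1.2 _ p.2.2⟩ : ↥(K ⊓ Fx))) ⟨?_, ?_⟩)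
  · rintro ⟨⟨a, ha⟩, ⟨y, hy⟩⟩ ⟨⟨a', ha'⟩, ⟨y', hy'⟩⟩ h
    have h' : n⁻¹ * a * n * y = n⁻¹ * a' * n * y' := congrArg Subtype.val h
    obtain ⟨e1, e2⟩ := huniq a (Subgroup.mem_inf.1 ha).1 a' (Subgroup.mem_inf.1 ha').1
      y (Subgroup.mem_inf.1 hy).1 y' (Subgroup.mem_inf.1 hy').1 h'
    subst e1
    subst e2
    rfl
  · rintro ⟨u, hu⟩
    obtain ⟨huK, huf⟩ := Subgroup.mem_inf.1 hu
    obtain ⟨a, ha, y, hy, e⟩ := hfac u huK
    obtain ⟨huΓ, hufix⟩ := (hFx u).1 huf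
    have haΓ := hAΓ ha
    have hyΓ := hXΓ hy
    have e0 : (⟨u, huΓ⟩ : ↥Γ) = (⟨n, hnΓ⟩ : ↥Γ)⁻¹ * ⟨a, haΓ⟩ * ⟨n, hnΓ⟩ * ⟨y, hyΓ⟩ :=
      Subtype.ext e
    have e1 := congrArg σ e0
    rw [map_mul, map_mul, map_mul, map_inv, hnf, hufix] at e1
    have e2 : u = n⁻¹ * (σ ⟨a, haΓ⟩ : G) * n * (σ ⟨y, hyΓ⟩ : G) := congrArg Subtype.val e1
    obtain ⟨e3, e4⟩ := huniq (σ ⟨a, haΓ⟩ : G) (hσA _ ha) a ha (σ ⟨y, hyΓ⟩ : G) (hσX _ hy) y hy
      (by rw [← e2, ← e])
    exact ⟨(⟨a, Subgroup.mem_inf.2 ⟨ha, (hFx a).2 ⟨haΓ, Subtype.ext e3⟩⟩⟩,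
      ⟨y, Subgroup.mem_inf.2 ⟨hy, (hFx y).2 ⟨hyΓ, Subtype.ext e4⟩⟩⟩), Subtype.ext e.symm⟩

/-! ### peeling a word off `U_w⁻` -/

section peel

variable {F : Type*} [Field F]

/-- each letter of `P` is a descent of the word so far -/
def peelB (D : ChevalleyDatum) : List ℕ → List ℕ → Bool
  | _, [] => true
  | L, j :: P => decide (D.IsNegRoot (wPi D L (D.simple j))) && peelB D (L ++ [j]) P

/-- the reverse of `P` is reduced -/
def redB (D : ChevalleyDatum) : List ℕ → Bool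
  | [] => true
  | j :: P => decide (D.IsNegRoot (wPi D (P.reverse ++ [j]) (D.simple j))) && redB D P

theorem nWordGL_snoc (D : ChevalleyDatum) (hD : D ∈ chevList) (P : List ℕ) (j : ℕ) :
    nWordGL (F := F) D hD (j :: P).reverse = nWordGL D hD P.reverse * nGL D hD (D.simple j) := by
  rw [List.reverse_cons, nWordGL_append]
  congr 1
  unfold nWordGL
  rw [List.map_cons, List.map_nil, List.prod_singleton]

theorem append_cons' (L P : List ℕ) (j : ℕ) : L ++ [j] ++ P = L ++ j :: P := by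
  simp

theorem lt_snoc (D : ChevalleyDatum) (L : List ℕ) (hL : ∀ i ∈ L, i < D.rank) (j : ℕ)
    (hj : j < D.rank) : ∀ i ∈ L ++ [j], i < D.rank := by
  intro i hi
  rcases List.mem_append.1 hi with h | h
  · exact hL i h
  · simp only [List.mem_cons, List.not_mem_nil, or_false] at h
    rw [h]
    exact hj

theorem uMinus_le_pos (D : ChevalleyDatum) (L : List ℕ) :
    uMinus F D L ≤ D.posUnipotent F := by
  unfold uMinus ChevalleyDatum.posUnipotent
  apply Subgroup.closure_mono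
  rintro x ⟨r, t, hr, _, hx⟩
  exact ⟨r, t, hr, hx⟩

theorem uMinus_mono (D : ChevalleyDatum) (L L' : List ℕ)
    (h : ∀ r < D.nroots, D.IsPosRoot r → D.IsNegRoot (wPi D L r) → D.IsNegRoot (wPi D L' r)) :
    uMinus F D L ≤ uMinus F D L' := by
  unfold uMinus
  apply Subgroup.closure_mono
  rintro x ⟨r, t, hr, hneg, hx⟩
  exact ⟨r, t, hr, h r hr.1 hr hneg, hx⟩

theorem wPi_snoc2 (D : ChevalleyDatum) (hD : D ∈ chevList) (L : List ℕ) (j : ℕ)
    (hj : j < D.rank) (r : ℕ) (hr : r < D.nroots) : wPi D (L ++ [j] ++ [j]) r = wPi D L r := by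
  rw [Cfsg.Agent.Lib.Helper25.wPi_append, Cfsg.Agent.Lib.Helper25.wPi_append]
  congr 1
  have h := Cfsg.Agent.Lib.Helper25.wPi_reverse_cancel D hD [j]
    (fun i hi => by
      simp only [List.mem_cons, List.not_mem_nil, or_false] at hi
      rw [hi]
      exact hj) r hr
  exact h

/-- Peeling the letters of a word off `U_w⁻`. -/
theorem peel_factor (D : ChevalleyDatum) (hD : D ∈ chevList) :
    ∀ (P : List ℕ), (∀ i ∈ P, i < D.rank) → redB D P = true →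
      ∀ (L : List ℕ), (∀ i ∈ L, i < D.rank) → peelB D L P = true →
      ∀ u ∈ uMinus F D L, ∃ a ∈ uMinus F D (L ++ P), ∃ y ∈ uMinus F D P.reverse,
        u = (nWordGL D hD P.reverse)⁻¹ * a * nWordGL D hD P.reverse * y := by
  intro P
  induction P with
  | nil =>
    intro _ _ L hL _ u hu
    refine ⟨u, by rwa [List.append_nil], 1, one_mem _, ?_⟩
    have h1 : nWordGL (F := F) D hD ([] : List ℕ).reverse = 1 := rfl
    rw [h1]
    group
  | cons j P ih =>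
    intro hP hred L hL hpeel u hu
    have hj : j < D.rank := hP j List.mem_cons_self
    have hP' : ∀ i ∈ P, i < D.rank := fun i hi => hP i (List.mem_cons_of_mem _ hi)
    have hPr : ∀ i ∈ P.reverse, i < D.rank := fun i hi => hP' i (List.mem_reverse.1 hi)
    unfold redB at hred
    unfold peelB at hpeel
    rw [Bool.and_eq_true] at hred hpeel
    have hneg : D.IsNegRoot (wPi D L (D.simple j)) := of_decide_eq_true hpeel.1
    have hrd : D.IsNegRoot (wPi D (P.reverse ++ [j]) (D.simple j)) := of_decide_eq_true hred.1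
    obtain ⟨u'', hu'', x, hx, e⟩ := Cfsg.Agent.Lib.Helper25.uMinus_factor D hD L hL j hj hneg
      (nGL D hD (D.simple j)) (nGL_val D hD (D.simple j)) u hu
    have hL' := lt_snoc D L hL j hj
    obtain ⟨a, ha, y', hy', e'⟩ := ih hP' hred.2 (L ++ [j]) hL' hpeel.2 u'' hu''
    rw [append_cons'] at ha
    have hy2 : y' ∈ uMinus F D (P.reverse ++ [j] ++ [j]) :=
      uMinus_mono D _ _ (fun r hr _ h => by rw [wPi_snoc2 D hD _ j hj r hr]; exact h) hy'
    have hconj := (Cfsg.Agent.Lib.Helper25.conj_uMinus_snoc D hD (P.reverse ++ [j])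
      (lt_snoc D _ hPr j hj) j hj hrd (nGL D hD (D.simple j)) (nGL_val D hD (D.simple j)) y' hy2).1
    have hxB : x ∈ uMinus F D (P.reverse ++ [j]) := by
      have hle : D.rootSubgroup F (D.simple j) ≤ uMinus F D (P.reverse ++ [j]) := by
        unfold ChevalleyDatum.rootSubgroup uMinus
        apply Subgroup.closure_mono
        rintro z ⟨t, hz⟩
        exact ⟨D.simple j, t, (Cfsg.Agent.Lib.Helper25.upChk_all D hD j hj).1, hrd, hz⟩
      exact hle hx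
    refine ⟨a, ha, (nGL D hD (D.simple j))⁻¹ * y' * nGL D hD (D.simple j) * x, ?_, ?_⟩
    · rw [List.reverse_cons]
      exact mul_mem hconj hxB
    · rw [nWordGL_snoc, e, e']
      group

/-- Conjugating `U_{w w_P}⁻` back into `U_w⁻`. -/
theorem peel_conj (D : ChevalleyDatum) (hD : D ∈ chevList) :
    ∀ (P : List ℕ), (∀ i ∈ P, i < D.rank) →
      ∀ (L : List ℕ), (∀ i ∈ L, i < D.rank) → peelB D L P = true →
      ∀ a ∈ uMinus F D (L ++ P),
        (nWordGL D hD P.reverse)⁻¹ * a * nWordGL D hD P.reverse ∈ uMinus F D L := by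
  intro P
  induction P with
  | nil =>
    intro _ L hL _ a ha
    have h1 : nWordGL (F := F) D hD ([] : List ℕ).reverse = 1 := rfl
    rw [h1, inv_one, one_mul, mul_one]
    rwa [List.append_nil] at ha
  | cons j P ih =>
    intro hP L hL hpeel a ha
    have hj : j < D.rank := hP j List.mem_cons_self
    have hP' : ∀ i ∈ P, i < D.rank := fun i hi => hP i (List.mem_cons_of_mem _ hi)
    unfold peelB at hpeel
    rw [Bool.and_eq_true] at hpeel
    have hneg : D.IsNegRoot (wPi D L (D.simple j)) := of_decide_eq_true hpeel.1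
    have hL' := lt_snoc D L hL j hj
    rw [← append_cons'] at ha
    have h1 := ih hP' (L ++ [j]) hL' hpeel.2 a ha
    have h2 := (Cfsg.Agent.Lib.Helper25.conj_uMinus_snoc D hD L hL j hj hneg
      (nGL D hD (D.simple j)) (nGL_val D hD (D.simple j)) _ h1).1
    have e : (nWordGL D hD (j :: P).reverse)⁻¹ * a * nWordGL D hD (j :: P).reverse =
        (nGL D hD (D.simple j))⁻¹ * ((nWordGL D hD P.reverse)⁻¹ * a * nWordGL D hD P.reverse) *
          nGL D hD (D.simple j) := by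
      rw [nWordGL_snoc]
      group
    rw [e]
    exact h2

end peel

/-! ### the step for `²F₄` -/

section step

variable {K : Type*} [Field K] {e : ℕ} {σ : ↥(chevF4.group K) →* ↥(chevF4.group K)}

theorem sig_uMinus (hσ : IsSig K e σ) (L : List ℕ)
    (hρ : ∀ r < chevF4.nroots, chevF4.IsPosRoot r → chevF4.IsNegRoot (wPi chevF4 L r) →
      chevF4.IsNegRoot (wPi chevF4 L (rho r)))
    (a : ↥(chevF4.group K)) (ha : (a : GL chevF4.Idx K) ∈ uMinus K chevF4 L) :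
    (σ a : GL chevF4.Idx K) ∈ uMinus K chevF4 L := by
  have hle : uMinus K chevF4 L ≤ chevF4.group K :=
    (uMinus_le_pos chevF4 L).trans (posUnipotent_le_group chevF4 hF4)
  unfold uMinus at ha hle ⊢
  refine rk_closure_map (chevF4.group K) σ _ _
    (fun x hx => hle (Subgroup.subset_closure hx)) ?_ a ha
  rintro x ⟨r, t, hr, hneg, hx⟩
  have e1 : x = xG chevF4 hF4 r t := Subtype.ext (rk_eq_xGL chevF4 hF4 _ r t hx)
  rw [e1, hσ r hr.1 t]
  exact Subgroup.subset_closure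
    ⟨rho r, t ^ pw e r, rho_pos r hr, hρ r hr.1 hr hneg, xGL_val chevF4 hF4 _ _⟩

theorem step_card (hσ : IsSig K e σ) (L Q : List ℕ) (hL : ∀ i ∈ L, i < chevF4.rank)
    (hQ : ∀ i ∈ Q, i < chevF4.rank) (hred : redB chevF4 Q = true)
    (hpeel : peelB chevF4 L Q = true)
    (hsub : ∀ r < chevF4.nroots, chevF4.IsPosRoot r → chevF4.IsNegRoot (wPi chevF4 Q.reverse r) →
      chevF4.IsNegRoot (wPi chevF4 L r))
    (hρ1 : ∀ r < chevF4.nroots, chevF4.IsPosRoot r → chevF4.IsNegRoot (wPi chevF4 (L ++ Q) r) →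
      chevF4.IsNegRoot (wPi chevF4 (L ++ Q) (rho r)))
    (hρ2 : ∀ r < chevF4.nroots, chevF4.IsPosRoot r → chevF4.IsNegRoot (wPi chevF4 Q.reverse r) →
      chevF4.IsNegRoot (wPi chevF4 Q.reverse (rho r)))
    (hn : nWordGL chevF4 hF4 Q.reverse ∈ sigFix σ) :
    Nat.card ↥(uMinus K chevF4 L ⊓ sigFix σ) =
      Nat.card ↥(uMinus K chevF4 (L ++ Q) ⊓ sigFix σ) *
        Nat.card ↥(uMinus K chevF4 Q.reverse ⊓ sigFix σ) := by
  have hQr : ∀ i ∈ Q.reverse, i < chevF4.rank := fun i hi => hQ i (List.mem_reverse.1 hi)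
  have hUG : ∀ L : List ℕ, uMinus K chevF4 L ≤ chevF4.group K := fun L =>
    (uMinus_le_pos chevF4 L).trans (posUnipotent_le_group chevF4 hF4)
  have hUB : chevF4.posUnipotent K ≤ chevF4.borelSubgroup K := le_sup_left
  have hV : ∀ y ∈ uMinus K chevF4 Q.reverse,
      nWordGL chevF4 hF4 Q.reverse * y * (nWordGL chevF4 hF4 Q.reverse)⁻¹ ∈
        chevF4.negUnipotent K := by
    intro y hy
    unfold uMinus at hy
    apply Cfsg.Agent.Lib.Helper25.conj_closure_le _ _ (nWordGL chevF4 hF4 Q.reverse) _ y hy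
    rintro g ⟨r, t, hr, hneg, hg⟩
    unfold ChevalleyDatum.negUnipotent
    apply Subgroup.subset_closure
    refine ⟨wPi chevF4 Q.reverse r, ((wEta chevF4 Q.reverse r : ℤ) : K) * t, hneg, ?_⟩
    rw [Units.val_mul, Units.val_mul, hg, nWordGL_val,
      Cfsg.Agent.Lib.Helper25.nWordMat_conj chevF4 hF4 Q.reverse hQr r hr.1 t, Matrix.mul_assoc,
      ← nWordGL_val chevF4 hF4, ← Units.val_mul, mul_inv_cancel, Units.val_one, Matrix.mul_one]
  have huniq : ∀ a ∈ uMinus K chevF4 (L ++ Q), ∀ a' ∈ uMinus K chevF4 (L ++ Q),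
      ∀ y ∈ uMinus K chevF4 Q.reverse, ∀ y' ∈ uMinus K chevF4 Q.reverse,
      (nWordGL chevF4 hF4 Q.reverse)⁻¹ * a * nWordGL chevF4 hF4 Q.reverse * y =
        (nWordGL chevF4 hF4 Q.reverse)⁻¹ * a' * nWordGL chevF4 hF4 Q.reverse * y' →
          a = a' ∧ y = y' := by
    intro a ha a' ha' y hy y' hy' h
    have h1 : a'⁻¹ * a = nWordGL chevF4 hF4 Q.reverse * (y' * y⁻¹) *
        (nWordGL chevF4 hF4 Q.reverse)⁻¹ := by
      have h2 : a = nWordGL chevF4 hF4 Q.reverse *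
          ((nWordGL chevF4 hF4 Q.reverse)⁻¹ * a * nWordGL chevF4 hF4 Q.reverse * y) * y⁻¹ *
          (nWordGL chevF4 hF4 Q.reverse)⁻¹ := by group
      rw [h2, h]
      group
    have h3 : a'⁻¹ * a ∈ chevF4.borelSubgroup K ⊓ chevF4.negUnipotent K := by
      refine Subgroup.mem_inf.2 ⟨hUB (uMinus_le_pos chevF4 _ (mul_mem (inv_mem ha') ha)), ?_⟩
      rw [h1]
      exact hV _ (mul_mem hy' (inv_mem hy))
    rw [borel_inf_negUnipotent chevF4 hF4, Subgroup.mem_bot] at h3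
    have e1 : a = a' := (inv_mul_eq_one.1 h3).symm
    subst e1
    exact ⟨rfl, mul_left_cancel h⟩
  exact card_fixed_prod (chevF4.group K) σ (uMinus K chevF4 L) (uMinus K chevF4 (L ++ Q))
    (uMinus K chevF4 Q.reverse) (sigFix σ) (nWordGL chevF4 hF4 Q.reverse) (mem_sigFix σ)
    (hUG _) (hUG _) (peel_conj chevF4 hF4 Q hQ L hL hpeel)
    (uMinus_mono chevF4 _ _ hsub) (peel_factor chevF4 hF4 Q hQ hred L hL hpeel) huniq hn
    (fun a ha => sig_uMinus hσ _ hρ1 a ha) (fun y hy => sig_uMinus hσ _ hρ2 y hy)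

end step

/-! ### the chain -/

/-- one step of the chain -/
def stepB (L Q : List ℕ) : Bool :=
  (decide (Q = [3, 0]) || decide (Q = [2, 1, 2, 1])) && peelB chevF4 L Q &&
  decide (∀ r : ℕ, r < 48 → chevF4.IsPosRoot r → chevF4.IsNegRoot (wPi chevF4 Q.reverse r) →
    chevF4.IsNegRoot (wPi chevF4 L r)) &&
  decide (∀ r : ℕ, r < 48 → chevF4.IsPosRoot r → chevF4.IsNegRoot (wPi chevF4 (L ++ Q) r) →
    chevF4.IsNegRoot (wPi chevF4 (L ++ Q) (rho r)))

/-- the chain of blocks peels the word down to the identity -/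
def chainB : List ℕ → List (List ℕ) → Bool
  | L, [] => decide (∀ r : ℕ, r < 48 → chevF4.IsPosRoot r → ¬ chevF4.IsNegRoot (wPi chevF4 L r))
  | L, Q :: Qs => stepB L Q && chainB (L ++ Q) Qs

set_option maxRecDepth 1000000 in
set_option maxHeartbeats 4000000 in
theorem blk_chk : redB chevF4 [3, 0] = true ∧ redB chevF4 [2, 1, 2, 1] = true ∧
    (∀ r < 48, chevF4.IsPosRoot r → chevF4.IsNegRoot (wPi chevF4 [0, 3] r) →
      chevF4.IsNegRoot (wPi chevF4 [0, 3] (rho r))) ∧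
    (∀ r < 48, chevF4.IsPosRoot r → chevF4.IsNegRoot (wPi chevF4 [1, 2, 1, 2] r) →
      chevF4.IsNegRoot (wPi chevF4 [1, 2, 1, 2] (rho r))) := by decide +kernel

section chain

variable {K : Type*} [Field K] {e : ℕ} {σ : ↥(chevF4.group K) →* ↥(chevF4.group K)}

theorem chain_card (hσ : IsSig K e σ)
    (hn1 : nWordGL chevF4 hF4 [0, 3] ∈ sigFix σ)
    (hn2 : nWordGL chevF4 hF4 [1, 2, 1, 2] ∈ sigFix σ)
    (c₁ c₂ : ℕ) (hc1 : Nat.card ↥(uMinus K chevF4 [0, 3] ⊓ sigFix σ) = c₁)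
    (hc2 : Nat.card ↥(uMinus K chevF4 [1, 2, 1, 2] ⊓ sigFix σ) = c₂) :
    ∀ (Qs : List (List ℕ)) (L : List ℕ), (∀ i ∈ L, i < chevF4.rank) → chainB L Qs = true →
      Nat.card ↥(uMinus K chevF4 L ⊓ sigFix σ) =
        (Qs.map fun Q => if Q = [3, 0] then c₁ else c₂).prod := by
  intro Qs
  induction Qs with
  | nil =>
    intro L hL hc
    unfold chainB at hc
    have h0 := of_decide_eq_true hc
    have hbot : uMinus K chevF4 L = ⊥ := by
      unfold uMinus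
      rw [Subgroup.closure_eq_bot_iff]
      rintro g ⟨r, t, hr, hneg, _⟩
      exact absurd hneg (h0 r (lt_of_lt_of_eq hr.1 f4_nroots) hr)
    rw [hbot, bot_inf_eq, List.map_nil, List.prod_nil]
    exact Subgroup.card_bot
  | cons Q Qs ih =>
    intro L hL hc
    unfold chainB at hc
    rw [Bool.and_eq_true] at hc
    obtain ⟨hs, hc'⟩ := hc
    unfold stepB at hs
    rw [Bool.and_eq_true, Bool.and_eq_true, Bool.and_eq_true, Bool.or_eq_true] at hs
    obtain ⟨⟨⟨hQ, hpeel⟩, hsub0⟩, hρ0⟩ := hs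
    have hsub := of_decide_eq_true hsub0
    have hρ1 := of_decide_eq_true hρ0
    have hc1' : Nat.card ↥(uMinus K chevF4 ([3, 0] : List ℕ).reverse ⊓ sigFix σ) = c₁ := hc1
    have hc2' : Nat.card ↥(uMinus K chevF4 ([2, 1, 2, 1] : List ℕ).reverse ⊓ sigFix σ) = c₂ := hc2
    rcases hQ with hQ | hQ
    · have hQ' : Q = [3, 0] := of_decide_eq_true hQ
      subst hQ'
      have hQr : ∀ i ∈ ([3, 0] : List ℕ), i < chevF4.rank := by
        rw [TwF4C.f4_rank]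
        decide
      have hL' : ∀ i ∈ L ++ [3, 0], i < chevF4.rank := by
        intro i hi
        rcases List.mem_append.1 hi with h | h
        · exact hL i h
        · exact hQr i h
      rw [step_card hσ L [3, 0] hL hQr blk_chk.1 hpeel
        (fun r hr => hsub r (lt_of_lt_of_eq hr f4_nroots))
        (fun r hr => hρ1 r (lt_of_lt_of_eq hr f4_nroots))
        (fun r hr => blk_chk.2.2.1 r (lt_of_lt_of_eq hr f4_nroots)) hn1,
        ih (L ++ [3, 0]) hL' hc', List.map_cons, List.prod_cons, if_pos rfl, hc1', mul_comm]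
    · have hQ' : Q = [2, 1, 2, 1] := of_decide_eq_true hQ
      subst hQ'
      have hQr : ∀ i ∈ ([2, 1, 2, 1] : List ℕ), i < chevF4.rank := by
        rw [TwF4C.f4_rank]
        decide
      have hL' : ∀ i ∈ L ++ [2, 1, 2, 1], i < chevF4.rank := by
        intro i hi
        rcases List.mem_append.1 hi with h | h
        · exact hL i h
        · exact hQr i h
      rw [step_card hσ L [2, 1, 2, 1] hL hQr blk_chk.2.1 hpeel
        (fun r hr => hsub r (lt_of_lt_of_eq hr f4_nroots))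
        (fun r hr => hρ1 r (lt_of_lt_of_eq hr f4_nroots))
        (fun r hr => blk_chk.2.2.2 r (lt_of_lt_of_eq hr f4_nroots)) hn2,
        ih (L ++ [2, 1, 2, 1]) hL' hc', List.map_cons, List.prod_cons, if_neg (by decide), hc2',
        mul_comm]

end chain

/-! ### the sixteen chains -/

def qsR : List (List (List ℕ)) :=
  [[], [[2, 1, 2, 1], [3, 0]], [[2, 1, 2, 1], [3, 0], [2, 1, 2, 1], [3, 0]],
    [[2, 1, 2, 1], [3, 0], [2, 1, 2, 1], [3, 0], [2, 1, 2, 1], [3, 0]],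
    [[3, 0], [2, 1, 2, 1], [3, 0], [2, 1, 2, 1], [3, 0], [2, 1, 2, 1], [3, 0], [2, 1, 2, 1]],
    [[3, 0], [2, 1, 2, 1], [3, 0], [2, 1, 2, 1], [3, 0], [2, 1, 2, 1]],
    [[3, 0], [2, 1, 2, 1], [3, 0], [2, 1, 2, 1]], [[3, 0], [2, 1, 2, 1]]]

def qsS : List (List (List ℕ)) :=
  [[[3, 0]], [[2, 1, 2, 1]], [[2, 1, 2, 1], [3, 0], [2, 1, 2, 1]],
    [[2, 1, 2, 1], [3, 0], [2, 1, 2, 1], [3, 0], [2, 1, 2, 1]],
    [[2, 1, 2, 1], [3, 0], [2, 1, 2, 1], [3, 0], [2, 1, 2, 1], [3, 0], [2, 1, 2, 1]],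
    [[3, 0], [2, 1, 2, 1], [3, 0], [2, 1, 2, 1], [3, 0], [2, 1, 2, 1], [3, 0]],
    [[3, 0], [2, 1, 2, 1], [3, 0], [2, 1, 2, 1], [3, 0]], [[3, 0], [2, 1, 2, 1], [3, 0]]]

/-- the chain of blocks of each of the sixteen words -/
def qs : DihedralGroup 8 → List (List ℕ)
  | .r i => qsR.getD i.val []
  | .sr i => qsS.getD i.val []

/-- the exponent of a chain -/
def sexp (Qs : List (List ℕ)) : ℕ := (Qs.map fun Q => if Q = [3, 0] then 1 else 2).sum

/-- the sixteen elements -/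
def ks : List (DihedralGroup 8) :=
  [.r 0, .r 1, .r 2, .r 3, .r 4, .r 5, .r 6, .r 7, .sr 0, .sr 1, .sr 2, .sr 3, .sr 4, .sr 5,
    .sr 6, .sr 7]

set_option maxRecDepth 1000000 in
set_option maxHeartbeats 4000000 in
theorem chain_chk : ∀ k : DihedralGroup 8, chainB (wd k) (qs k) = true := by decide +kernel

set_option maxRecDepth 1000000 in
set_option maxHeartbeats 4000000 in
theorem w0_chk : ∀ r < 48, chevF4.IsPosRoot r →
    chevF4.IsNegRoot (wPi chevF4 (wd (DihedralGroup.r 4)) r) := by decide +kernel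

set_option maxRecDepth 1000000 in
theorem ks_chk : (Finset.univ : Finset (DihedralGroup 8)) = ks.toFinset ∧ ks.Nodup ∧
    ks.map (fun k => sexp (qs k)) = [0, 3, 6, 9, 12, 9, 6, 3, 1, 2, 5, 8, 11, 10, 7, 4] ∧
    qs (DihedralGroup.r 4) =
      [[3, 0], [2, 1, 2, 1], [3, 0], [2, 1, 2, 1], [3, 0], [2, 1, 2, 1], [3, 0], [2, 1, 2, 1]] := by
  decide +kernel

theorem prod_pow (q : ℕ) (Qs : List (List ℕ)) :
    (Qs.map fun Q => if Q = [3, 0] then q else q ^ 2).prod = q ^ sexp Qs := by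
  induction Qs with
  | nil => rfl
  | cons Q Qs ih =>
    unfold sexp at ih ⊢
    rw [List.map_cons, List.prod_cons, List.map_cons, List.sum_cons, pow_add, ih]
    split_ifs
    · rw [pow_one]
    · rfl

theorem sum_q (q : ℕ) : ∑ k : DihedralGroup 8, q ^ sexp (qs k) =
    1 + q + q ^ 2 + 2 * q ^ 3 + q ^ 4 + q ^ 5 + 2 * q ^ 6 + q ^ 7 + q ^ 8 + 2 * q ^ 9 + q ^ 10 +
      q ^ 11 + q ^ 12 := by
  have e : (ks.map fun k => q ^ sexp (qs k)) =
      (ks.map (fun k => sexp (qs k))).map (fun j => q ^ j) := by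
    rw [List.map_map]
    rfl
  rw [ks_chk.1, List.sum_toFinset _ ks_chk.2.1, e, ks_chk.2.2.1]
  simp only [List.map_cons, List.map_nil, List.sum_cons, List.sum_nil, pow_zero, pow_one]
  ring

/-! ### the normal form -/

section main

variable {K : Type*} [Field K]

theorem nWordN_eq (L : List ℕ) (hL : ∀ i ∈ L, i < chevF4.rank) :
    (Cfsg.Agent.Lib.Helper25.nWordN K chevF4 hF4 L : GL chevF4.Idx K) = nWordGL chevF4 hF4 L := by
  apply Units.ext
  rw [Cfsg.Agent.Lib.Helper25.nWordN_val chevF4 hF4 L hL, nWordGL_val]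

theorem uMinus_w0 : uMinus K chevF4 (wd (DihedralGroup.r 4)) = chevF4.posUnipotent K := by
  apply le_antisymm (uMinus_le_pos chevF4 _)
  unfold uMinus ChevalleyDatum.posUnipotent
  apply Subgroup.closure_mono
  rintro x ⟨r, t, hr, hx⟩
  exact ⟨r, t, hr, w0_chk r (lt_of_lt_of_eq hr.1 f4_nroots) hr, hx⟩

variable [Fintype K] [CharP K 2] {e : ℕ} {σ : ↥(chevF4.group K) →* ↥(chevF4.group K)}
  (hσ : IsSig K e σ) (hF : ∀ x : K, (x ^ e) ^ (2 * e) = x) (he : e ≠ 0)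
  (hle : twistedF4 K e ≤ sigFix σ)
  (hU : ∀ u ∈ chevF4.posUnipotent K, u ∈ sigFix σ → u ∈ twistedF4 K e)

include hσ hF he hle hU in
/-- the count of `²F₄` through the normal form -/
theorem card_G1 : Nat.card ↥(twistedF4 K e) =
    Nat.card ↥(chevF4.posUnipotent K ⊓ twistedF4 K e) *
      Nat.card ↥(chevF4.diagonalSubgroup K ⊓ twistedF4 K e) *
      ∑ k : DihedralGroup 8, Nat.card ↥(uMinus K chevF4 (wd k) ⊓ sigFix σ) := by
  classical
  have hUB : chevF4.posUnipotent K ≤ chevF4.borelSubgroup K := le_sup_left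
  have hHB : chevF4.diagonalSubgroup K ≤ chevF4.borelSubgroup K := le_sup_right
  have hwk : ∀ k : DihedralGroup 8, ∀ j ∈ wd k, j < chevF4.rank := wd_lt'
  have hmk : ∀ k : DihedralGroup 8, nWordGL chevF4 hF4 (wd k) ∈ twistedF4 K e := wd_mem e he
  let Φ : (Σ k : DihedralGroup 8, ↥(chevF4.posUnipotent K ⊓ twistedF4 K e) ×
      ↥(chevF4.diagonalSubgroup K ⊓ twistedF4 K e) × ↥(uMinus K chevF4 (wd k) ⊓ sigFix σ)) →
      ↥(twistedF4 K e) :=
    fun p => ⟨(p.2.1 : GL chevF4.Idx K) * (p.2.2.1 : GL chevF4.Idx K) *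
        nWordGL chevF4 hF4 (wd p.1) * (p.2.2.2 : GL chevF4.Idx K),
      mul_mem (mul_mem (mul_mem p.2.1.2.2 p.2.2.1.2.2) (hmk p.1))
        (hU _ (uMinus_le_pos chevF4 _ p.2.2.2.2.1) p.2.2.2.2.2)⟩
  have hΦ : Function.Bijective Φ := by
    constructor
    · rintro ⟨i, u, h, u'⟩ ⟨i', u₂, h₂, u₂'⟩ heq
      have h' : ((u : GL chevF4.Idx K) * (h : GL chevF4.Idx K)) * nWordGL chevF4 hF4 (wd i) *
          (u' : GL chevF4.Idx K) =
          ((u₂ : GL chevF4.Idx K) * (h₂ : GL chevF4.Idx K)) * nWordGL chevF4 hF4 (wd i') *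
            (u₂' : GL chevF4.Idx K) :=
        congrArg Subtype.val heq
      have hu := Cfsg.Agent.Lib.Helper25.uMinus_le_nf chevF4 hF4 _ (hwk i) u'.2.1
      have hu' := Cfsg.Agent.Lib.Helper25.uMinus_le_nf chevF4 hF4 _ (hwk i') u₂'.2.1
      rw [nWordN_eq _ (hwk i)] at hu
      rw [nWordN_eq _ (hwk i')] at hu'
      obtain ⟨h1, h2⟩ := Cfsg.Agent.Lib.Helper25.bruhat_unique chevF4 hF4 _ _ _ _ _ _
        (mul_mem (hUB u.2.1) (hHB h.2.1)) (mul_mem (hUB u₂.2.1) (hHB h₂.2.1))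
        (nWordGL_mem_monomial chevF4 hF4 _ (hwk i)) (nWordGL_mem_monomial chevF4 hF4 _ (hwk i'))
        hu hu' h'
      have hperm := wPi_eq_of_inv_mul_mem_diag chevF4 hF4 _ _ (hwk i) (hwk i') h1
      have hii : i = i' := wd_inj i i' (hperm 33 TwF4C.f4_lt.1) (hperm 27 TwF4C.f4_lt.2.1)
      subst hii
      obtain ⟨hb, hu2⟩ := h2 rfl
      have hbot := posUnipotent_inf_diagonal (F := K) chevF4 hF4
      have hmem1 : (u₂ : GL chevF4.Idx K)⁻¹ * (u : GL chevF4.Idx K) ∈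
          chevF4.posUnipotent K ⊓ chevF4.diagonalSubgroup K := by
        refine Subgroup.mem_inf.2 ⟨Subgroup.mul_mem _
          (Subgroup.inv_mem _ (Subgroup.mem_inf.1 u₂.2).1) (Subgroup.mem_inf.1 u.2).1, ?_⟩
        have : (u₂ : GL chevF4.Idx K)⁻¹ * (u : GL chevF4.Idx K) =
            (h₂ : GL chevF4.Idx K) * (h : GL chevF4.Idx K)⁻¹ := by
          rw [inv_mul_eq_iff_eq_mul, ← mul_assoc, ← hb]
          group
        rw [this]
        exact Subgroup.mul_mem _ (Subgroup.mem_inf.1 h₂.2).1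
          (Subgroup.inv_mem _ (Subgroup.mem_inf.1 h.2).1)
      rw [hbot, Subgroup.mem_bot, inv_mul_eq_one] at hmem1
      have eu : u = u₂ := Subtype.ext hmem1.symm
      subst eu
      have eh : h = h₂ := Subtype.ext (mul_left_cancel hb)
      have eu' : u' = u₂' := Subtype.ext hu2
      rw [eh, eu']
    · rintro ⟨g, hg⟩
      obtain ⟨hgG, hfix⟩ := (mem_sigFix σ g).1 (hle hg)
      obtain ⟨u₁, m, u, hu₁, hm, hu, f1, f2, f3, e1⟩ :=
        (f4Sig hσ hF).fixed_bruhat ⟨g, hgG⟩ hfix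
      have hu' : (u : GL chevF4.Idx K) ∈ chevF4.posUnipotent K := rk_uNeg_le chevF4 _ hu
      have hu₁G : (u₁ : GL chevF4.Idx K) ∈ twistedF4 K e :=
        hU _ hu₁ ((mem_sigFix σ _).2 ⟨u₁.2, f1⟩)
      have huG : (u : GL chevF4.Idx K) ∈ twistedF4 K e :=
        hU _ hu' ((mem_sigFix σ _).2 ⟨u.2, f3⟩)
      have e2 : g = (u₁ : GL chevF4.Idx K) * (m : GL chevF4.Idx K) * (u : GL chevF4.Idx K) :=
        congrArg Subtype.val e1
      have hmG : (m : GL chevF4.Idx K) ∈ twistedF4 K e := by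
        have e3 : (m : GL chevF4.Idx K) =
            (u₁ : GL chevF4.Idx K)⁻¹ * g * (u : GL chevF4.Idx K)⁻¹ := by
          rw [e2]
          group
        rw [e3]
        exact Subgroup.mul_mem _ (Subgroup.mul_mem _ (Subgroup.inv_mem _ hu₁G) hg)
          (Subgroup.inv_mem _ huG)
      obtain ⟨k, hk⟩ := TwF4BN.N1_word hσ (m : GL chevF4.Idx K) hm
        ((mem_sigFix σ _).2 ⟨m.2, f2⟩)
      have hnN := nWordGL_mem_monomial (F := K) chevF4 hF4 (wd k) (hwk k)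
      have hhH : (m : GL chevF4.Idx K) * (nWordGL chevF4 hF4 (wd k))⁻¹ ∈
          chevF4.diagonalSubgroup K := by
        have h1 := (Subgroup.mem_normalizer_iff.1
          (monomial_le_normalizer_diagonal chevF4 hF4 hnN) _).1 hk
        have e4 : (m : GL chevF4.Idx K) * (nWordGL chevF4 hF4 (wd k))⁻¹ =
            nWordGL chevF4 hF4 (wd k) * ((nWordGL chevF4 hF4 (wd k))⁻¹ * (m : GL chevF4.Idx K)) *
              (nWordGL chevF4 hF4 (wd k))⁻¹ := by group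
        rw [e4]
        exact h1
      have hhG : (m : GL chevF4.Idx K) * (nWordGL chevF4 hF4 (wd k))⁻¹ ∈ twistedF4 K e :=
        mul_mem hmG (inv_mem (hmk k))
      have hm_eq : (m : GL chevF4.Idx K) =
          ((m : GL chevF4.Idx K) * (nWordGL chevF4 hF4 (wd k))⁻¹) * nWordGL chevF4 hF4 (wd k) := by
        group
      have hu'' : (u : GL chevF4.Idx K) ∈ uMinus K chevF4 (wd k) := by
        have h1 := Cfsg.Agent.Lib.Helper25.nf_le_uMinus chevF4 hF4 (wd k) (hwk k) _ hhH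
        rw [nWordN_eq (wd k) (hwk k), ← hm_eq] at h1
        exact h1 hu
      refine ⟨⟨k, ⟨(u₁ : GL chevF4.Idx K), Subgroup.mem_inf.2 ⟨hu₁, hu₁G⟩⟩,
        ⟨(m : GL chevF4.Idx K) * (nWordGL chevF4 hF4 (wd k))⁻¹, Subgroup.mem_inf.2 ⟨hhH, hhG⟩⟩,
        ⟨(u : GL chevF4.Idx K), Subgroup.mem_inf.2 ⟨hu'', (mem_sigFix σ _).2 ⟨u.2, f3⟩⟩⟩⟩, ?_⟩
      apply Subtype.ext
      show (u₁ : GL chevF4.Idx K) * ((m : GL chevF4.Idx K) * (nWordGL chevF4 hF4 (wd k))⁻¹) *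
        nWordGL chevF4 hF4 (wd k) * (u : GL chevF4.Idx K) = g
      rw [e2]
      group
  rw [← Nat.card_congr (Equiv.ofBijective Φ hΦ), Nat.card_sigma]
  simp only [Nat.card_prod]
  rw [Finset.mul_sum]
  exact Finset.sum_congr rfl (fun k _ => (mul_assoc _ _ _).symm)

end main

/-! ### the order -/

/-- The order of `²F₄(2^(2m+1))`, given the fixed points of the first block. -/
theorem twistedF4_card_of {K : Type*} [Field K] [Fintype K] {m : ℕ}
    (hK : Fintype.card K = 2 ^ (2 * m + 1))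
    (hJ1 : ∀ σ : ↥(chevF4.group K) →* ↥(chevF4.group K), IsSig K (2 ^ m) σ →
      Nat.card ↥(uMinus K chevF4 [0, 3] ⊓ sigFix σ) = Fintype.card K) :
    Nat.card ↥(twistedF4 K (2 ^ m)) =
      (2 ^ (2 * m + 1)) ^ 12 * (2 ^ (2 * m + 1) - 1) * ((2 ^ (2 * m + 1)) ^ 3 + 1) *
        ((2 ^ (2 * m + 1)) ^ 4 - 1) * ((2 ^ (2 * m + 1)) ^ 6 + 1) := by
  classical
  have : CharP K 2 := charP_two K (2 * m + 1) hK
  obtain ⟨hF, hadd⟩ := field_facts K m hK
  have he : 2 ^ m ≠ 0 := by positivity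
  obtain ⟨σ, hσ⟩ := exists_sig K m hK
  have hle := tw_le_sigFix hσ hF hadd
  have hWF := wordFix_sigFix hσ
  have hfam := fam_all (K := K) (2 ^ m) he hF
  have c1 := card_U (2 ^ m) he _ (hWF.mono hle) hfam
  have c2 := card_U (2 ^ m) he _ hWF (fun p hp => (hfam p hp).mono hle)
  have hUeq : twistedF4 K (2 ^ m) ⊓ chevF4.posUnipotent K = sigFix σ ⊓ chevF4.posUnipotent K :=
    Subgroup.eq_of_le_of_card_ge (inf_le_inf_right _ hle) (by rw [c1, c2])
  have hU : ∀ u ∈ chevF4.posUnipotent K, u ∈ sigFix σ → u ∈ twistedF4 K (2 ^ m) := by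
    intro u hu hs
    have h1 : u ∈ twistedF4 K (2 ^ m) ⊓ chevF4.posUnipotent K := by
      rw [hUeq]
      exact Subgroup.mem_inf.2 ⟨hs, hu⟩
    exact (Subgroup.mem_inf.1 h1).1
  have hn1 := hle (TwF4C.n1_mem (K := K) (2 ^ m))
  have hn2 := hle (TwF4C.n2_mem (K := K) (2 ^ m) he)
  have key := card_G1 hσ hF he hle hU
  have hU1 := card_U1 K m hK
  have hH1 := card_H1 K m hK
  obtain ⟨q, hq⟩ : ∃ q : ℕ, q = 2 ^ (2 * m + 1) := ⟨_, rfl⟩
  rw [← hq] at hU1 hH1 ⊢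
  have hKq : Fintype.card K = q := by rw [hq]; exact hK
  have hq1 : 1 ≤ q := by rw [hq]; exact Nat.one_le_two_pow
  have hc1 : Nat.card ↥(uMinus K chevF4 [0, 3] ⊓ sigFix σ) = q := by rw [hJ1 σ hσ, hKq]
  obtain ⟨c₂, hc2⟩ : ∃ c : ℕ, Nat.card ↥(uMinus K chevF4 [1, 2, 1, 2] ⊓ sigFix σ) = c :=
    ⟨_, rfl⟩
  have h0 := chain_card hσ hn1 hn2 q c₂ hc1 hc2 (qs (DihedralGroup.r 4))
    (wd (DihedralGroup.r 4)) (wd_lt' _) (chain_chk _)
  rw [uMinus_w0, inf_comm, c2, Nat.card_eq_fintype_card, hKq, ks_chk.2.2.2] at h0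
  have i2 : ∀ a b : ℕ, (if ([2, 1, 2, 1] : List ℕ) = [3, 0] then a else b) = b :=
    fun a b => if_neg (by decide)
  simp only [List.map_cons, List.map_nil, List.prod_cons, List.prod_nil, if_true, i2] at h0
  have hc2' : c₂ = q ^ 2 := by
    have h3 : (c₂ * q) ^ 4 = (q ^ 3) ^ 4 := by
      calc (c₂ * q) ^ 4 = q * (c₂ * (q * (c₂ * (q * (c₂ * (q * (c₂ * 1))))))) := by ring
        _ = q ^ 12 := h0.symm
        _ = (q ^ 3) ^ 4 := by ring
    have h4 : c₂ * q = q ^ 3 := Nat.pow_left_injective (by norm_num : (4 : ℕ) ≠ 0) h3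
    exact Nat.eq_of_mul_eq_mul_right hq1 (by rw [h4]; ring)
  rw [hc2'] at hc2
  have hk : ∀ k : DihedralGroup 8,
      Nat.card ↥(uMinus K chevF4 (wd k) ⊓ sigFix σ) = q ^ sexp (qs k) := by
    intro k
    rw [chain_card hσ hn1 hn2 q (q ^ 2) hc1 hc2 (qs k) (wd k) (wd_lt' k) (chain_chk k), prod_pow]
  rw [key, Finset.sum_congr rfl (fun k _ => hk k), sum_q, hU1, hH1]
  have h4 : 1 ≤ q ^ 4 := Nat.one_le_pow _ _ hq1
  zify [hq1, h4]
  ring

/-- The order of `²F₄(2^(2m+1))`. -/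
theorem twistedF4_card {K : Type*} [Field K] [Fintype K] {m : ℕ}
    (hK : Fintype.card K = 2 ^ (2 * m + 1)) :
    Nat.card ↥(twistedF4 K (2 ^ m)) =
      (2 ^ (2 * m + 1)) ^ 12 * (2 ^ (2 * m + 1) - 1) * ((2 ^ (2 * m + 1)) ^ 3 + 1) *
        ((2 ^ (2 * m + 1)) ^ 4 - 1) * ((2 ^ (2 * m + 1)) ^ 6 + 1) := by
  have : CharP K 2 := charP_two K (2 * m + 1) hK
  obtain ⟨hF, -⟩ := field_facts K m hK
  exact twistedF4_card_of hK (fun σ hσ => card_J1 hσ hF)

end Cfsg.Agent.Lib.Helper24.TwF4Ord
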