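import Cfsg.Agent.Lib.Helper24.TwBN
import Cfsg.Agent.S0320

/-!
# Twisted groups, piece H, part 1 (helper97 for helper24): the Weyl group `N¹ / H¹` is the
Coxeter group of the given Coxeter matrix on the blocks — version with the `(B, N)`-pair of
piece E and the facts K2, K5 of piece K as explicit hypotheses (`TwH.lean` discharges them).
-/

set_option autoImplicit false

namespace Cfsg.Agent.Lib.Helper24

open Cfsg.Lie Matrix
open Cfsg.Agent.Lib.Helper25 (wPi wEta negSet uMinus)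

variable {F : Type*} [Field F]


/-- The `n`-word of a repeated word is a power. -/
theorem twH_nWordGL_replicate (D : ChevalleyDatum) (hD : D ∈ chevList) (L : List ℕ) (e : ℕ) :
    nWordGL (F := F) D hD (List.replicate e L).flatten = (nWordGL D hD L) ^ e := by
  induction e with
  | zero => rfl
  | succ e ih => rw [List.replicate_succ, List.flatten_cons, nWordGL_append, ih, pow_succ']

theorem twH_mem_replicate_flatten {L : List ℕ} {e : ℕ} {i : ℕ}
    (hi : i ∈ (List.replicate e L).flatten) : i ∈ L := by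
  obtain ⟨l, hl, hil⟩ := List.mem_flatten.mp hi
  rw [List.eq_of_mem_replicate hl] at hil
  exact hil

namespace TwSet

variable {D : ChevalleyDatum} {hD : D ∈ chevList} (T : TwSet F D hD)

open Cfsg.Agent.Lib.Helper8 in
/-- The Weyl group `N¹ / H¹` is the Coxeter group of `M`; the homomorphism sends the block
element `n_{bl i}` to the `i`-th Coxeter generator.  Version with the `(B, N)`-pair and the
facts K2, K5 as hypotheses. -/
theorem twH_weyl_hom_aux (P : Cfsg.BNPair ↥T.G1)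
    (hPB : P.B = (D.borelSubgroup F ⊓ T.G1).subgroupOf T.G1)
    (hPN : P.N = (D.monomialSubgroup F ⊓ T.G1).subgroupOf T.G1)
    (hPS : P.S = {s : ↥T.G1 | ∃ J ∈ T.blocks, (s : GL D.Idx F) = nWordGL D hD J})
    (hK2 : ∀ L : List ℕ, (∀ i ∈ L, i < D.rank) →
      (nWordGL (F := F) D hD L ∈ D.diagonalSubgroup F ↔ ∀ r < D.nroots, wPi D L r = r))
    (hK5 : ∀ L L' : List ℕ, (∀ i ∈ L, i < D.rank) → (∀ i ∈ L', i < D.rank) →
      (nWordGL (F := F) D hD L)⁻¹ * nWordGL D hD L' ∈ D.diagonalSubgroup F →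
      ∀ r < D.nroots, wPi D L r = wPi D L' r)
    (hN : T.BNData) {k : ℕ} (M : CoxeterMatrix (Fin k))
    (bl : Fin k → List ℕ) (hbl : Function.Injective bl)
    (hbl' : ∀ J, J ∈ T.blocks ↔ ∃ i, bl i = J) (hM0 : ∀ i j : Fin k, M i j ≠ 0)
    (hM1 : ∀ i j : Fin k, i ≠ j → ∀ r < D.nroots,
      wPi D (List.replicate (M i j) (bl i ++ bl j)).flatten r = r)
    (hM2 : ∀ i j : Fin k, i ≠ j → ∀ e, 0 < e → e < M i j → ∃ r < D.nroots,
      wPi D (List.replicate e (bl i ++ bl j)).flatten r ≠ r) :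
    ∃ φ : ↥(D.monomialSubgroup F ⊓ T.G1) →* M.Group, Function.Surjective φ ∧
      φ.ker = (D.diagonalSubgroup F ⊓ T.G1).subgroupOf (D.monomialSubgroup F ⊓ T.G1) ∧
      ∀ (i : Fin k) (g : ↥(D.monomialSubgroup F ⊓ T.G1)),
        (g : GL D.Idx F) = nWordGL D hD (bl i) → φ g = M.simple i := by
  have hblk : ∀ i, bl i ∈ T.blocks := fun i => (hbl' _).mpr ⟨i, rfl⟩
  have hlt : ∀ i, ∀ j ∈ bl i, j < D.rank := fun i => T.hblk _ (hblk i)
  -- the generators, indexed by `Fin k`
  have hgS : ∀ i, (⟨nWordGL D hD (bl i), T.hnJ _ (hblk i)⟩ : ↥T.G1) ∈ P.S := by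
    intro i
    rw [hPS]
    exact ⟨bl i, hblk i, rfl⟩
  obtain ⟨g, hg⟩ : ∃ g : Fin k → P.S, ∀ i, ((g i : P.S) : ↥T.G1) =
      ⟨nWordGL D hD (bl i), T.hnJ _ (hblk i)⟩ := ⟨fun i => ⟨_, hgS i⟩, fun i => rfl⟩
  have hg_val : ∀ i, (((g i : P.S) : ↥T.G1) : GL D.Idx F) = nWordGL D hD (bl i) := by
    intro i
    rw [hg i]
  have hg_inj : Function.Injective g := by
    intro i j hij
    have h1 : nWordGL (F := F) D hD (bl i) = nWordGL D hD (bl j) := by
      rw [← hg_val i, ← hg_val j, hij]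
    apply hbl
    apply hN.hdist _ (hblk i) _ (hblk j)
    apply hK5 _ _ (hlt i) (hlt j)
    rw [h1, inv_mul_cancel]
    exact Subgroup.one_mem _
  have hg_surj : Function.Surjective g := by
    rintro ⟨s, hs⟩
    have hs' := hs
    rw [hPS] at hs'
    obtain ⟨J, hJ, hsJ⟩ := hs'
    obtain ⟨i, rfl⟩ := (hbl' J).mp hJ
    refine ⟨i, Subtype.ext (Subtype.ext ?_)⟩
    rw [hg_val i]
    exact hsJ.symm
  obtain ⟨e, he⟩ : ∃ e : P.S ≃ Fin k, ∀ i, e.symm i = g i :=
    ⟨(Equiv.ofBijective g ⟨hg_inj, hg_surj⟩).symm, fun i => rfl⟩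
  -- triviality in the Weyl group
  have hNmem : ∀ x : ↥T.G1, x ∈ P.N → (x : GL D.Idx F) ∈ D.monomialSubgroup F := by
    intro x hx
    rw [hPN, Subgroup.mem_subgroupOf] at hx
    exact hx.1
  have hBmem : ∀ n : ↥P.N, cl P n = 1 ↔
      ((n : ↥T.G1) : GL D.Idx F) ∈ D.diagonalSubgroup F := by
    intro n
    have hn : ((n : ↥T.G1) : GL D.Idx F) ∈ D.monomialSubgroup F := hNmem n n.2
    rw [cl_eq_one_iff, hPB, Subgroup.mem_subgroupOf, ← borel_inf_monomial D hD]
    constructor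
    · intro h
      exact ⟨h.1, hn⟩
    · intro h
      exact ⟨h.1, (n : ↥T.G1).2⟩
  -- the Coxeter matrix
  have hMeq : (coxM (sW P) (sW_exchGen P) (sW_injective P)).reindex e = M := by
    apply CoxeterMatrix.ext
    ext i j
    show (coxM (sW P) (sW_exchGen P) (sW_injective P)) (e.symm i) (e.symm j) = M i j
    rw [he, he]
    by_cases hij : i = j
    · subst hij
      rw [CoxeterMatrix.diagonal, CoxeterMatrix.diagonal]
    · rw [coxM_apply]
      have hL' : ∀ e' : ℕ, ∀ a ∈ (List.replicate e' (bl i ++ bl j)).flatten, a < D.rank := by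
        intro e' a ha
        rcases List.mem_append.mp (twH_mem_replicate_flatten ha) with h | h
        · exact hlt i a h
        · exact hlt j a h
      have hval : ∀ e' : ℕ, ((((sN P (g i).2 * sN P (g j).2) ^ e' : ↥P.N) : ↥T.G1) : GL D.Idx F) =
          nWordGL D hD (List.replicate e' (bl i ++ bl j)).flatten := by
        intro e'
        rw [twH_nWordGL_replicate, nWordGL_append, ← hg_val i, ← hg_val j]
        rfl
      have hpow : ∀ e' : ℕ, (sW P (g i) * sW P (g j)) ^ e' = 1 ↔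
          ∀ r < D.nroots, wPi D (List.replicate e' (bl i ++ bl j)).flatten r = r := by
        intro e'
        have h1 : (sW P (g i) * sW P (g j)) ^ e' =
            cl P ((sN P (g i).2 * sN P (g j).2) ^ e') := rfl
        rw [h1, hBmem, hval, hK2 _ (hL' e')]
      rw [orderOf_eq_iff (Nat.pos_of_ne_zero (hM0 i j))]
      refine ⟨(hpow _).mpr (hM1 i j hij), ?_⟩
      intro m hm hm0 h1
      obtain ⟨r, hr, hne⟩ := hM2 i j hij m hm0 hm
      exact hne ((hpow m).mp h1 r hr)
  subst hMeq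
  obtain ⟨cs, hcs⟩ : ∃ cs : CoxeterSystem
      ((coxM (sW P) (sW_exchGen P) (sW_injective P)).reindex e) (Cfsg.Agent.Lib.Helper8.W P),
      ∀ i, cs.simple i = sW P (g i) :=
    ⟨(coxSys (sW P) (sW_exchGen P) (sW_injective P)).reindex e, fun i => by
      rw [CoxeterSystem.reindex_simple, he, coxSys_simple]⟩
  -- the homomorphism
  let ι : ↥(D.monomialSubgroup F ⊓ T.G1) →* ↥P.N :=
    { toFun := fun x => ⟨⟨x.1, x.2.2⟩, by
        rw [hPN, Subgroup.mem_subgroupOf]
        exact x.2⟩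
      map_one' := rfl
      map_mul' := fun _ _ => rfl }
  have hι : ∀ x : ↥(D.monomialSubgroup F ⊓ T.G1), (((ι x : ↥P.N) : ↥T.G1) : GL D.Idx F) = x.1 :=
    fun x => rfl
  refine ⟨cs.mulEquiv.toMonoidHom.comp ((QuotientGroup.mk' (Cfsg.Agent.Lib.Helper8.T P)).comp ι), ?_, ?_, ?_⟩
  · intro w
    obtain ⟨q, rfl⟩ := cs.mulEquiv.surjective w
    obtain ⟨n, rfl⟩ := QuotientGroup.mk_surjective q
    have hn : ((n : ↥T.G1) : GL D.Idx F) ∈ D.monomialSubgroup F ⊓ T.G1 :=
      ⟨hNmem n n.2, (n : ↥T.G1).2⟩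
    exact ⟨⟨_, hn⟩, rfl⟩
  · ext x
    rw [MonoidHom.mem_ker, Subgroup.mem_subgroupOf]
    constructor
    · intro h
      have h1 : cl P (ι x) = 1 := (MulEquiv.map_eq_one_iff cs.mulEquiv).mp h
      exact ⟨(hBmem _).mp h1, x.2.2⟩
    · intro h
      have h1 : cl P (ι x) = 1 := (hBmem _).mpr h.1
      show cs.mulEquiv (cl P (ι x)) = 1
      rw [h1, map_one]
  · intro i x hx
    have h1 : ι x = sN P (g i).2 := by
      apply Subtype.ext
      apply Subtype.ext
      rw [hι, hx]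
      exact (hg_val i).symm
    show cs.mulEquiv (cl P (ι x)) = _
    rw [h1]
    have h2 : cl P (sN P (g i).2) = cs.simple i := (hcs i).symm
    rw [h2]
    exact cs.mulEquiv.apply_symm_apply _

end TwSet

end Cfsg.Agent.Lib.Helper24
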