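import Mathlib
import Cfsg.Agent.Lib.Helper22.W2Defs

/-!
# Project W2 (S4707), piece LAM0: two neighbours of a point are not adjacent
-/

set_option autoImplicit false
set_option maxHeartbeats 400000

namespace Cfsg.Agent.Lib.Helper24.W2

open Cfsg Cfsg.Agent.Lib.Helper22.W2
open scoped ComplexConjugate

universe u

variable {α : Type*} [Fintype α] [DecidableEq α]

/-- a point with three known distinct neighbours has no other neighbour -/
theorem lam0_nb_eq (G : Subgroup (Equiv.Perm α)) (hnb : Nb G) (w u1 u2 u3 : α)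
    (h12 : u1 ≠ u2) (h13 : u1 ≠ u3) (h23 : u2 ≠ u3)
    (a1 : adj G w u1) (a2 : adj G w u2) (a3 : adj G w u3) (v : α) :
    adj G w v ↔ v = u1 ∨ v = u2 ∨ v = u3 := by
  classical
  have hc := (hnb w).1
  rw [Nat.card_eq_fintype_card, Fintype.card_subtype] at hc
  have hsub : ({u1, u2, u3} : Finset α) ⊆ Finset.univ.filter (fun y => adj G w y) := by
    intro t ht
    simp only [Finset.mem_insert, Finset.mem_singleton] at ht
    rw [Finset.mem_filter]
    refine ⟨Finset.mem_univ _, ?_⟩
    rcases ht with rfl | rfl | rfl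
    · exact a1
    · exact a2
    · exact a3
  have hc3 : ({u1, u2, u3} : Finset α).card = 3 :=
    Finset.card_eq_three.2 ⟨u1, u2, u3, h12, h13, h23, rfl⟩
  have heq := Finset.eq_of_subset_of_card_le hsub (by rw [hc, hc3])
  constructor
  · intro hv
    have hm : v ∈ Finset.univ.filter (fun y => adj G w y) :=
      Finset.mem_filter.2 ⟨Finset.mem_univ _, hv⟩
    rw [← heq] at hm
    simpa using hm
  · rintro (rfl | rfl | rfl)
    · exact a1
    · exact a2
    · exact a3

/-- PIECE LAM0 -/
theorem lam0 (hα : Fintype.card α = 10) (G : Subgroup (Equiv.Perm α))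
    (hprim : MulAction.IsPreprimitive G α) (hnb : Nb G)
    (hsymm : ∀ x y : α, adj G x y → adj G y x)
    (hsmul : ∀ (g : G) (x y : α), adj G x y → adj G (g • x) (g • y))
    (x y y' : α) (h1 : adj G x y) (h2 : adj G x y') : ¬ adj G y y' := by
  classical
  intro h3
  have hyy' : y' ≠ y := h3.1
  have hc := (hnb x).1
  rw [Nat.card_eq_fintype_card, Fintype.card_subtype] at hc
  have L : ∀ p q r : α, adj G x p → adj G x q → adj G x r → p ≠ q → p ≠ r → q ≠ r →
      adj G p q → adj G p r → adj G q r := by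
    intro p q r hp hq hr hpq hpr hqr apq apr
    obtain ⟨h, hx, hpq'⟩ := (hnb x).2.1 p q hp hq
    have e1 := hsmul h p q apq
    have e2 := hsmul h p r apr
    rw [hpq'] at e1 e2
    have n1 := hsmul h x q hq
    have n2 := hsmul h x r hr
    rw [hx] at n1 n2
    have hm := lam0_nb_eq G hnb x p q r hpq hpr hqr hp hq hr
    have hq1 : h • q ≠ q := e1.1
    have hr1 : h • r ≠ q := e2.1
    have hqr' : h • q ≠ h • r := fun hh => hqr (MulAction.injective h hh)
    rcases (hm _).1 n1 with k1 | k1 | k1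
    · rcases (hm _).1 n2 with k2 | k2 | k2
      · exact absurd (k1.trans k2.symm) hqr'
      · exact absurd k2 hr1
      · rw [k2] at e2
        exact e2
    · exact absurd k1 hq1
    · rw [k1] at e1
      exact e1
  have M : ∀ p q r : α, adj G x p → adj G x q → adj G x r → p ≠ q → p ≠ r → q ≠ r →
      adj G p q → adj G p r ∨ adj G q r := by
    intro p q r hp hq hr hpq hpr hqr apq
    obtain ⟨h, hx, hpr'⟩ := (hnb x).2.1 p r hp hr
    have e1 := hsmul h p q apq
    rw [hpr'] at e1
    have n1 := hsmul h x q hq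
    rw [hx] at n1
    have hm := lam0_nb_eq G hnb x p q r hpq hpr hqr hp hq hr
    rcases (hm _).1 n1 with k1 | k1 | k1
    · rw [k1] at e1
      exact Or.inl (hsymm _ _ e1)
    · rw [k1] at e1
      exact Or.inr (hsymm _ _ e1)
    · exact absurd k1 e1.1
  have ALL : ∀ p q r : α, adj G x p → adj G x q → adj G x r → p ≠ q → p ≠ r → q ≠ r →
      adj G p q → adj G p r ∧ adj G q r := by
    intro p q r hp hq hr hpq hpr hqr apq
    rcases M p q r hp hq hr hpq hpr hqr apq with k | k
    · exact ⟨k, L p q r hp hq hr hpq hpr hqr apq k⟩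
    · exact ⟨L q p r hq hp hr (Ne.symm hpq) hqr hpr (hsymm _ _ apq) k, k⟩
  -- the third neighbour
  obtain ⟨z, hz, hznot⟩ := Finset.exists_mem_notMem_of_card_lt_card
    (s := {y, y'}) (t := Finset.univ.filter (fun t => adj G x t))
    (lt_of_le_of_lt Finset.card_le_two (by rw [hc]; norm_num))
  have hxz : adj G x z := (Finset.mem_filter.1 hz).2
  have hzy : z ≠ y := fun hh => hznot (by rw [hh]; simp)
  have hzy' : z ≠ y' := fun hh => hznot (by rw [hh]; simp)
  obtain ⟨ayz, ay'z⟩ := ALL y y' z h1 h2 hxz (Ne.symm hyy') (Ne.symm hzy) (Ne.symm hzy') h3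
  have Nx := lam0_nb_eq G hnb x y y' z (Ne.symm hyy') (Ne.symm hzy) (Ne.symm hzy') h1 h2 hxz
  have Ny := lam0_nb_eq G hnb y x y' z (Ne.symm h2.1) (Ne.symm hxz.1) (Ne.symm hzy')
    (hsymm _ _ h1) h3 ayz
  have Ny' := lam0_nb_eq G hnb y' x y z (Ne.symm h1.1) (Ne.symm hxz.1) (Ne.symm hzy)
    (hsymm _ _ h2) (hsymm _ _ h3) ay'z
  have Nz := lam0_nb_eq G hnb z x y y' (Ne.symm h1.1) (Ne.symm h2.1) (Ne.symm hyy')
    (hsymm _ _ hxz) (hsymm _ _ ayz) (hsymm _ _ ay'z)
  let B : Set α := {v | v = x ∨ v = y ∨ v = y' ∨ v = z}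
  have hB : ∀ w ∈ B, ∀ v : α, (v = w ∨ adj G w v) ↔ v ∈ B := by
    intro w hw v
    show _ ↔ (v = x ∨ v = y ∨ v = y' ∨ v = z)
    rcases hw with rfl | rfl | rfl | rfl
    · rw [Nx]
    · rw [Ny]
      tauto
    · rw [Ny']
      tauto
    · rw [Nz]
      tauto
  have hblock : MulAction.IsBlock G B := by
    rw [MulAction.isBlock_iff_smul_eq_of_nonempty]
    rintro g ⟨u, hu1, hu2⟩
    obtain ⟨w', hw', rfl⟩ := hu1
    ext v
    constructor
    · rintro ⟨v', hv', rfl⟩
      rcases (hB w' hw' v').2 hv' with k | k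
      · rw [k]
        exact hu2
      · exact (hB _ hu2 _).1 (Or.inr (hsmul g _ _ k))
    · intro hv
      refine ⟨g⁻¹ • v, ?_, smul_inv_smul g v⟩
      rcases (hB _ hu2 v).2 hv with k | k
      · rw [k, inv_smul_smul]
        exact hw'
      · have h5 := hsmul g⁻¹ _ _ k
        rw [inv_smul_smul] at h5
        exact (hB w' hw' _).1 (Or.inr h5)
  rcases hprim.isTrivialBlock_of_isBlock hblock with hsub | htop
  · exact h1.1 (hsub (show y ∈ B from Or.inr (Or.inl rfl)) (show x ∈ B from Or.inl rfl))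
  · have hle : Fintype.card α ≤ 4 := by
      have hsub : (Finset.univ : Finset α) ⊆ {x, y, y', z} := by
        intro v _
        have hv : v ∈ B := by
          rw [htop]
          exact Set.mem_univ v
        simp only [Finset.mem_insert, Finset.mem_singleton]
        exact hv
      calc Fintype.card α = (Finset.univ : Finset α).card := rfl
        _ ≤ ({x, y, y', z} : Finset α).card := Finset.card_le_card hsub
        _ ≤ 4 := Finset.card_le_four
    omega

end Cfsg.Agent.Lib.Helper24.W2
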